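import Mathlib
import Cfsg.Agent.Base
import Cfsg.Agent.Lib.ExtFld.Bridge
import Cfsg.Agent.Lib.ClassMax.C8

/-!
Forms over an extension field: the trace construction, additive maps preserving singular points,
invariant subspaces of point stabilisers.
-/

set_option autoImplicit false
set_option linter.unusedSectionVars false

namespace H21

open Module Cfsg H97 H28

section General

variable {K V : Type*} [Field K] [AddCommGroup V] [Module K V] {τ : K →+* K} {P : PQ K V τ}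
  [FiniteDimensional K V]

theorem scalar_of_sing_aux {e f w : V} (he : P.q e ∈ P.Λ) (hf : P.q f ∈ P.Λ) (hef : P.B e f = 1)
    (hw : w ≠ 0) (hew : P.B e w = 0) (hfw : P.B f w = 0) {a₀ : K} (ha₀ : a₀ ≠ 0) (ha₁ : 1 + a₀ ≠ 0)
    (φ : V →+ V) (h : ∀ d, P.q d ∈ P.Λ → φ d ∈ K ∙ d) :
    ∃ μ t : K, φ w = μ • w + t • f ∧ ∀ a : K, φ (a • e) = (μ * a) • e := by
  have hee := P.self_eq_zero he
  have hff := P.self_eq_zero hf
  have hfe := B_fe hef
  have hε := P.εε
  have key : ∀ a : K, a ≠ 0 → ∃ μ α t : K, φ (a • e) = α • e ∧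
      φ w = μ • w + (μ * a - α) • e + t • f := by
    intro a ha
    have hτ : τ a ≠ 0 := by simpa using ha
    have h1 := q_add_pair (e := a • e) (f := (τ a)⁻¹ • f) (x := w) (P.q_smul_mem he a)
      (P.q_smul_mem hf _) (by simp [B_smul_left, hef, hτ]) (by simp [P.eq_zero_symm hew])
      (by simp [P.eq_zero_symm hfw]) 0
    rw [sub_zero, smul_smul] at h1
    obtain ⟨μ, hμ⟩ := Submodule.mem_span_singleton.1 (h _ h1)
    obtain ⟨α, hα⟩ := Submodule.mem_span_singleton.1 (h _ (P.q_smul_mem he a))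
    obtain ⟨γ, hγ⟩ := Submodule.mem_span_singleton.1
      (h _ (P.q_smul_mem hf ((0 - P.q w) * (τ a)⁻¹)))
    rw [map_add, map_add, ← hα, ← hγ] at hμ
    exact ⟨μ, α * a, (μ - γ) * ((0 - P.q w) * (τ a)⁻¹), by rw [← hα, smul_smul],
      by linear_combination (norm := module) -hμ⟩
  obtain ⟨μ, α, t, h1, h2⟩ := key 1 one_ne_zero
  have h3 : ∀ a : K, a ≠ 0 → φ (a • e) = (μ * a - (μ - α)) • e := by
    intro a ha
    obtain ⟨μ', α', t', h3, h4⟩ := key a ha
    have h5 : (μ' - μ) • w + ((μ' * a - α') - (μ - α)) • e + (t' - t) • f = 0 := by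
      linear_combination (norm := module) h2 - h4
    have h6 := congrArg (P.B e) h5
    have h7 := congrArg (P.B f) h5
    simp only [map_add, map_smul, hew, hfw, hee, hff, hef, hfe, smul_eq_mul, mul_zero, zero_add,
      add_zero, mul_one, map_zero, mul_eq_zero, P.ε_ne_zero, or_false] at h6 h7
    rw [h6, h7, zero_smul, zero_smul, add_zero, add_zero, smul_eq_zero, sub_eq_zero] at h5
    rw [h3, ← h5.resolve_right hw]
    congr 1
    rw [h5.resolve_right hw] at h7 ⊢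
    linear_combination -h7
  have he0 : e ≠ 0 := by rintro rfl; simp at hef
  have h4 : μ - α = 0 := by
    have := h3 _ ha₁
    rw [add_smul, map_add, h3 _ ha₀, h3 _ one_ne_zero, ← add_smul] at this
    have := smul_left_injective K he0 this
    linear_combination -this
  refine ⟨μ, t, by rw [h2, mul_one, h4]; simp, fun a => ?_⟩
  by_cases ha : a = 0
  · simp [ha]
  · rw [h3 a ha, h4, sub_zero]

/-- An additive map preserving all singular points is a scalar. -/
theorem scalar_of_sing {e f w₀ : V} (he : P.q e ∈ P.Λ) (hf : P.q f ∈ P.Λ) (hef : P.B e f = 1)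
    (hw : w₀ ≠ 0) (hew : P.B e w₀ = 0) (hfw : P.B f w₀ = 0) {a₀ : K} (ha₀ : a₀ ≠ 0)
    (ha₁ : 1 + a₀ ≠ 0) (φ : V →+ V) (h : ∀ d, P.q d ∈ P.Λ → φ d ∈ K ∙ d) :
    ∃ k : K, ∀ y, φ y = k • y := by
  have hee := P.self_eq_zero he
  have hff := P.self_eq_zero hf
  have hfe := B_fe hef
  have hε := P.εε
  have he0 : e ≠ 0 := by rintro rfl; simp at hef
  have key : ∀ w, w ≠ 0 → P.B e w = 0 → P.B f w = 0 → ∃ μ : K, φ w = μ • w ∧
      (∀ a : K, φ (a • e) = (μ * a) • e) ∧ ∀ a : K, φ (a • f) = (μ * a) • f := by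
    intro w hw hew hfw
    obtain ⟨μ, t, h1, h2⟩ := scalar_of_sing_aux he hf hef hw hew hfw ha₀ ha₁ φ h
    obtain ⟨μ', t', h3, h4⟩ := scalar_of_sing_aux hf (P.q_smul_mem he P.ε) (by simp [hfe, hε]) hw
      hfw (by simp [B_smul_left, hew]) ha₀ ha₁ φ h
    have h5 : (μ - μ') • w + t • f - (t' * P.ε) • e = 0 := by
      linear_combination (norm := module) h3 - h1
    have h6 := congrArg (P.B e) h5
    have h7 := congrArg (P.B f) h5
    simp only [map_add, map_sub, map_smul, hew, hfw, hee, hff, hef, hfe, smul_eq_mul, mul_zero,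
      zero_add, add_zero, mul_one, map_zero, mul_eq_zero, P.ε_ne_zero, or_false, sub_zero,
      zero_sub, neg_eq_zero] at h6 h7
    rw [h6, h7, zero_mul, zero_smul, zero_smul, add_zero, sub_zero, smul_eq_zero,
      sub_eq_zero] at h5
    exact ⟨μ, by simp [h1, h6], h2, h5.resolve_right hw ▸ h4⟩
  obtain ⟨μ, -, h1, h2⟩ := key w₀ hw hew hfw
  refine ⟨μ, fun y => ?_⟩
  set w := y - (P.ε * P.B f y) • e - P.B e y • f with hwdef
  have h3 : φ w = μ • w := by
    by_cases h0 : w = 0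
    · simp [h0]
    obtain ⟨μ', h3, h4, -⟩ := key w h0 (by simp [hwdef, hee, hef])
      (by simp only [hwdef, map_sub, map_smul, hfe, hff, smul_eq_mul]
          linear_combination (-P.B f y) * hε)
    rw [h3]
    congr 1
    exact smul_left_injective K he0 (by simpa using (h4 1).symm.trans (h1 1))
  have h4 : y = w + (P.ε * P.B f y) • e + P.B e y • f := by rw [hwdef]; abel
  conv_lhs => rw [h4, map_add, map_add, h3, h1, h2]
  conv_rhs => rw [h4]
  module

theorem exists_frame {k : ℕ} (h : IsoK P k) (hP : P.B.SeparatingLeft) (hk : k ≤ finrank K V)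
    (h3 : 3 ≤ finrank K V) : ∃ e f w : V, P.q e ∈ P.Λ ∧ P.q f ∈ P.Λ ∧ P.B e f = 1 ∧ w ≠ 0 ∧
      P.B e w = 0 ∧ P.B f w = 0 := by
  obtain ⟨e, f, he, hf, hef, -⟩ := h.exists_pair hP ⊥ (by simpa using hk)
  have h1 := finrank_le_perp (P := P) (Submodule.span K {e, f})
  have h2 := finrank_span_pair_le (F := K) e f
  obtain ⟨w, hw, hw0⟩ := exists_ne_zero_mem (X := perp P (Submodule.span K {e, f})) (by omega)
  rw [mem_perp_span] at hw
  exact ⟨e, f, w, he, hf, hef, hw0, hw e (by simp), hw f (by simp)⟩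

/-- A subgroup containing the commutators of isometries and the central part of `X_d` contains
`X_d`. -/
theorem xle_of_comm (hP : P.B.SeparatingLeft) {N : Subgroup (V ≃ₗ[K] V)}
    (hN : ∀ a ∈ P.Isom, ∀ b ∈ P.Isom, a * b * a⁻¹ * b⁻¹ ∈ N) {d : V} (hd : P.q d ∈ P.Λ)
    (hΛ : ∀ l ∈ P.Λ, Has N (eu P d 0 l)) {a₀ : K} (ha₀ : a₀ ≠ 0) (ha₁ : 1 + a₀ ≠ 0) :
    XLe P N d := by
  intro w c hw hc
  have hdd := P.self_eq_zero hd
  by_cases hd0 : d = 0
  · exact has_id.congr fun x => by rw [hd0, eu_zero_left]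
  have hτ : τ a₀ ≠ 0 := by simpa using ha₀
  set w' := (τ a₀)⁻¹ • w with hw'
  have hdw' : P.B d w' = 0 := by simp [hw', hw]
  by_cases h1 : d ∈ K ∙ w'
  · obtain ⟨a, rfl⟩ : ∃ a : K, a • d = w := by
      obtain ⟨s, hs⟩ := Submodule.mem_span_singleton.1 h1
      have hs0 : s ≠ 0 := by rintro rfl; exact hd0 (by simpa using hs.symm)
      exact ⟨τ a₀ * s⁻¹, by rw [← hs, hw', smul_smul, smul_smul]; field_simp; simp⟩
    refine (hΛ (c + a - P.ε * τ a) ?_).congr fun x => by rw [← eu_add_smul, zero_add]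
    have := P.Λ.add_mem (P.Λ.add_mem hc (P.q_smul_mem hd a)) (P.sub_mem a)
    convert this using 1; ring
  obtain ⟨g, hg, hgd, hgw⟩ := P.witt_step hP (K ∙ w') (v := (1 + a₀) • d) h1
    (fun h => h1 (by simpa [ha₁] using (K ∙ w').smul_mem (1 + a₀)⁻¹ h))
    (P.Λ.sub_mem (P.q_smul_mem hd _) hd) (fun h hh => by
      obtain ⟨s, rfl⟩ := Submodule.mem_span_singleton.1 hh
      simp [B_smul_left, hdw'])
  obtain ⟨t, ht, et⟩ := has_eu_isom hd hdw' (c := P.q w') (by simp)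
  have h2 : ∀ x, t⁻¹ x = eu P d (-w') (P.B w' w' - P.q w') x := fun x => t.injective (by
    rw [le_apply_inv, et, eu_comp hdd hdw' (by simp [hdw'])]
    simp [eu_zero])
  have h3 : Has N (eu P d w (τ (1 + a₀) * (1 + a₀) * P.q w' + (P.B w' w' - P.q w') +
      P.B (τ (1 + a₀) • w') (-w'))) := by
    refine (has_of_mem (hN g hg t ht)).congr fun x => ?_
    rw [le_mul_apply, le_mul_apply, le_mul_apply, et, eu_conj hg, hgd,
      hgw w' (Submodule.mem_span_singleton_self _), eu_smul, h2,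
      eu_comp hdd (by simp [hdw']) (by simp [hdw'])]
    congr 2
    rw [map_add, map_one, hw', smul_smul]
    match_scalars
    field_simp; ring
  obtain ⟨s, hs, es⟩ := h3
  set c' := τ (1 + a₀) * (1 + a₀) * P.q w' + (P.B w' w' - P.q w') + P.B (τ (1 + a₀) • w') (-w')
  have h4 : c' - P.q w ∈ P.Λ := by
    have := valid_add (valid_smul' (1 + a₀) (P := P) (c := P.q w') (w := w') (by simp))
      (valid_neg (P := P) (c := P.q w') (w := w') (by simp))
    convert this using 3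
    rw [map_add, map_one, hw', smul_smul]
    match_scalars
    field_simp; ring
  refine ((has_of_mem hs).comp (hΛ (c - c') ?_)).congr fun x => ?_
  · have := P.Λ.sub_mem hc h4
    convert this using 1; ring
  · rw [es, eu_comp hdd hw (by simp)]; simp

end General

variable {F K V : Type*} [Field F] [Field K] [Algebra F K] [AddCommGroup V] [Module F V]
  [Module K V] [IsScalarTower F K V] {τ : K →+* K} {Pk : PQ K V τ}

theorem exists_ne_zero_ne_neg_one (hr : 1 < finrank F K) : ∃ a : K, a ≠ 0 ∧ 1 + a ≠ 0 := by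
  obtain ⟨l, hl⟩ := exists_notMem_range hr
  exact ⟨l, fun h => hl 0 (by simp [h]), fun h => hl (-1) (by
    rw [map_neg, map_one]; linear_combination -h)⟩

theorem mem_NK_of_map_sing [FiniteDimensional F V] (hr : 1 < finrank F K) {k : ℕ} (h : IsoK Pk k)
    (hP : Pk.B.SeparatingLeft) (hk : k ≤ finrank K V) (h3 : 3 ≤ finrank K V) {g : V ≃ₗ[F] V}
    (hg : ∀ d, d ≠ 0 → Pk.q d ∈ Pk.Λ → (pt F K d).map (g : V →ₗ[F] V) = pt F K (g d)) :
    g ∈ NK F K V := by
  have : FiniteDimensional F K := .of_finrank_pos (by omega)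
  have : FiniteDimensional K V := Module.Finite.of_restrictScalars_finite F K V
  obtain ⟨e, f, w, he, hf, hef, hw, hew, hfw⟩ := exists_frame h hP hk h3
  obtain ⟨a, ha, ha'⟩ := exists_ne_zero_ne_neg_one hr
  rw [← inv_mem_iff]
  refine mem_NK_of fun k => ?_
  let φ : V →+ V :=
    { toFun := fun y => g⁻¹ (k • g y)
      map_zero' := by simp
      map_add' := fun x y => by simp }
  obtain ⟨k', hk'⟩ := scalar_of_sing he hf hef hw hew hfw ha ha' φ fun d hd => by
    by_cases h0 : d = 0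
    · simp [h0]
    rw [← mem_pt' (F := F)]
    exact mem_map_le'.1 (hg d h0 hd ▸ smul_mem_pt k (g d))
  exact ⟨k', fun x => by simpa [φ, le_apply_inv] using hk' (g⁻¹ x)⟩

/-- An `F`-bilinear form for which `K` acts with adjoints is the trace of a form over `K`. -/
theorem exists_form [FiniteDimensional F K] (T : K →ₗ[F] F)
    (hT : ∀ k, (∀ k', T (k * k') = 0) → k = 0) {σ : F →+* F} (f : V →ₛₗ[σ] V →ₗ[F] F)
    (hf : ∀ (k : K) x y, f (k • x) y = f x (τ k • y)) :
    ∃ b : V →ₛₗ[τ] V →ₗ[K] K, ∀ x y, f x y = T (b x y) := by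
  let Φ : K →ₗ[F] Dual F K := (LinearMap.mul F K).compr₂ T
  have hΦ : ∀ k k', Φ k k' = T (k * k') := fun _ _ => rfl
  have hinj : Function.Injective Φ := by
    rw [injective_iff_map_eq_zero]
    exact fun k hk => hT k fun k' => by rw [← hΦ, hk]; rfl
  have hsurj : Function.Surjective Φ :=
    (LinearMap.injective_iff_surjective_of_finrank_eq_finrank
      Subspace.dual_finrank_eq.symm).1 hinj
  have h1 : ∀ x y : V, ∃ β : K, ∀ k, T (β * k) = f x (k • y) := fun x y => by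
    obtain ⟨β, hβ⟩ := hsurj (f x ∘ₗ (LinearMap.toSpanSingleton K V y).restrictScalars F)
    exact ⟨β, fun k => by rw [← hΦ, hβ]; rfl⟩
  choose b hb using h1
  have uniq : ∀ β β' : K, (∀ k, T (β * k) = T (β' * k)) → β = β' := fun β β' h =>
    sub_eq_zero.1 (hT _ fun k => by rw [sub_mul, map_sub, h, sub_self])
  refine ⟨LinearMap.mk₂'ₛₗ τ (RingHom.id K) b (fun x x' y => uniq _ _ fun k => ?_)
    (fun c x y => uniq _ _ fun k => ?_) (fun x y y' => uniq _ _ fun k => ?_)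
    (fun c x y => uniq _ _ fun k => ?_), fun x y => ?_⟩
  · simp [add_mul, hb]
  · rw [hb, hf, smul_smul, ← hb, smul_eq_mul]; congr 1; ring
  · simp [add_mul, hb]
  · rw [hb, smul_smul, ← hb, smul_eq_mul, RingHom.id_apply]; congr 1; ring
  · simpa using (hb x y 1).symm

/-- Invariant subspaces of the stabiliser of a singular vector, non-perpendicular case. -/
theorem perp_le_of_inv_of_ne {x y : V} {N : Submodule F V} (hx : pt F K x ≤ N)
    (hN : ∀ w, Pk.B x w = 0 → ∀ z ∈ N, eu Pk x w (Pk.q w) z ∈ N) (hy : y ∈ N)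
    (hxy : Pk.B x y ≠ 0) {z : V} (hz : Pk.B x z = 0) : z ∈ N := by
  have h0 : Pk.ε * Pk.B x y ≠ 0 := mul_ne_zero Pk.ε_ne_zero hxy
  have h1 := hN (-(Pk.ε * Pk.B x y)⁻¹ • z) (by simp [hz]) y hy
  rw [eu_apply, smul_smul, mul_neg, mul_inv_cancel₀ h0, neg_one_smul, sub_neg_eq_add] at h1
  exact (N.add_mem_iff_right (N.add_mem hy (hx (smul_mem_pt _ _)))).1 h1

/-- Invariant subspaces of the stabiliser of a singular vector, perpendicular case. -/
theorem perp_le_of_inv [FiniteDimensional K V] {k : ℕ} (h : IsoK Pk k) (hP : Pk.B.SeparatingLeft)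
    (hk : k + 2 ≤ finrank K V) (h5 : 5 ≤ finrank K V) {x y : V} {N : Submodule F V}
    (hx : Pk.q x ∈ Pk.Λ) (hN : ∀ d w c, Pk.q d ∈ Pk.Λ → Pk.B d w = 0 → c - Pk.q w ∈ Pk.Λ →
      Pk.B d x = 0 → Pk.B w x = 0 → ∀ z ∈ N, eu Pk d w c z ∈ N) (hy : y ∈ N) (hyx : y ∉ pt F K x)
    (hxy : Pk.B x y = 0) {z : V} (hz : Pk.B x z = 0) : z ∈ N := by
  have hxx := Pk.self_eq_zero hx
  have A : ∀ d y, Pk.q d ∈ Pk.Λ → Pk.B x d = 0 → y ∈ N → Pk.B x y = 0 → Pk.B d y ≠ 0 →
      pt F K d ≤ N := by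
    intro d y hd hxd hy hxy hdy
    set Y := Submodule.span K {d, y} ⊔ K ∙ x with hY
    have h1 := finrank_le_perp (P := Pk) Y
    have h2 := finrank_sup_le' (Submodule.span K {d, y}) (K ∙ x)
    have h3 := finrank_span_pair_le (F := K) d y
    have h4 := finrank_span_singleton_le (F := K) x
    have hmem : ∀ w, w ∈ perp Pk Y → Pk.B d w = 0 ∧ Pk.B y w = 0 ∧ Pk.B x w = 0 := fun w hw =>
      ⟨hw d (Submodule.mem_sup_left (Submodule.subset_span (by simp))),
        hw y (Submodule.mem_sup_left (Submodule.subset_span (by simp))),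
        hw x (Submodule.mem_sup_right (Submodule.mem_span_singleton_self x))⟩
    obtain ⟨w, hw, hwx⟩ : ∃ w ∈ perp Pk Y, w ∉ K ∙ x := by
      by_contra hc
      push Not at hc
      have := Submodule.finrank_mono (show perp Pk Y ≤ K ∙ x from hc)
      rw [← hY] at h2
      omega
    obtain ⟨w', hw', hww'⟩ : ∃ w' ∈ perp Pk Y, Pk.B w w' ≠ 0 := by
      by_contra hc
      push Not at hc
      have h6 : w ∈ Y := perp_perp hP Y ▸ mem_perp'.2 hc
      obtain ⟨y₁, hy₁, y₂, hy₂, rfl⟩ := Submodule.mem_sup.1 h6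
      obtain ⟨a, b, rfl⟩ := Submodule.mem_span_pair.1 hy₁
      obtain ⟨c, rfl⟩ := Submodule.mem_span_singleton.1 hy₂
      obtain ⟨h7, h8, -⟩ := hmem _ hw
      simp only [map_add, map_smul, Pk.self_eq_zero hd, Pk.eq_zero_symm hxd, Pk.eq_zero_symm hxy,
        smul_eq_mul, mul_zero, zero_add, add_zero, mul_eq_zero, hdy, or_false] at h7 h8
      simp only [h7, zero_mul, add_zero, mul_eq_zero, B_ne_zero_symm hdy, or_false] at h8
      exact hwx (by simp [h7, h8, Submodule.smul_mem])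
    have key : ∀ w c, w ∈ perp Pk Y → c - Pk.q w ∈ Pk.Λ →
        (Pk.ε * c * Pk.B d y) • d + (Pk.ε * Pk.B d y) • w ∈ N := fun w c hw hc => by
      obtain ⟨h6, h7, h8⟩ := hmem w hw
      have := N.sub_mem hy (hN d w c hd h6 hc (Pk.eq_zero_symm hxd) (Pk.eq_zero_symm h8) y hy)
      rw [eu_apply, Pk.eq_zero_symm h7] at this
      convert this using 1; module
    intro u hu
    obtain ⟨s, rfl⟩ := mem_pt.1 hu
    set w'' := (s * (Pk.ε * Pk.B w w' * Pk.B d y)⁻¹) • w' with hw''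
    have h6 : w'' ∈ perp Pk Y := Submodule.smul_mem _ _ hw'
    have := N.sub_mem (key _ _ (Submodule.add_mem _ hw h6) (valid_add (c := Pk.q w)
      (c' := Pk.q w'') (by simp) (by simp)))
      (N.add_mem (key w (Pk.q w) hw (by simp)) (key w'' (Pk.q w'') h6 (by simp)))
    convert this using 1
    have h7 := Pk.ε_ne_zero
    have h8 : Pk.B w w'' = s * (Pk.ε * Pk.B d y)⁻¹ := by
      rw [hw'', map_smul, smul_eq_mul]; field_simp
    rw [h8]
    match_scalars
    · field_simp; ring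
    · ring
    · ring
  obtain ⟨d, hd, hdx, hdy⟩ := h.exists_sing_perp hP hk (x := y) (z := x) hyx
  have hxd := Pk.eq_zero_symm hdx
  have hdN := A d y hd hxd hy hxy hdy
  have hyd := B_ne_zero_symm hdy
  set y' := y + (-(Pk.q y) * (Pk.B y d)⁻¹) • d with hy'
  have h1 : Pk.q y' ∈ Pk.Λ := by
    have := Pk.Λ.add_mem (Pk.q_add_smul y d (-(Pk.q y) * (Pk.B y d)⁻¹))
      (Pk.norm_mem (-(Pk.q y) * (Pk.B y d)⁻¹) _ hd)
    convert this using 1
    rw [hy']; field_simp; ring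
  have h2 : Pk.B d y' = Pk.B d y := by simp [hy', Pk.self_eq_zero hd]
  have h3 : Pk.B x y' = 0 := by simp [hy', hxy, hxd]
  have hy'N := A y' d h1 h3 (hdN (self_mem_pt d)) hxd (B_ne_zero_symm (h2 ▸ hdy))
  set z' := z - (Pk.B d z * (Pk.B d y)⁻¹) • y' with hz'
  have h4 : Pk.B d z' = 0 := by simp [hz', h2, hdy]
  have h5 : Pk.B x z' = 0 := by simp [hz', h3, hz]
  have h0 : Pk.ε * Pk.B d y ≠ 0 := mul_ne_zero Pk.ε_ne_zero hdy
  have h6 := hN d (-(Pk.ε * Pk.B d y)⁻¹ • z') (Pk.q (-(Pk.ε * Pk.B d y)⁻¹ • z')) hd (by simp [h4])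
    (by simp) hdx (by simp [B_smul_left, Pk.eq_zero_symm h5]) y hy
  rw [eu_apply, smul_smul, mul_neg, mul_inv_cancel₀ h0, neg_one_smul, sub_neg_eq_add] at h6
  have h7 : z' ∈ N := (N.add_mem_iff_right (N.add_mem hy (hdN (smul_mem_pt _ _)))).1 h6
  simpa [hz'] using N.add_mem h7 (hy'N (smul_mem_pt (Pk.B d z * (Pk.B d y)⁻¹) y'))

/-! ### the subspaces `W_x` -/

variable {σ : F →+* F} {M : Subgroup (V ≃ₗ[F] V)}

/-- The vectors `w` such that `M` contains Eichler elements for `x` and all multiples of `w`. -/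
def Wd (P : PQ F V σ) (M : Subgroup (V ≃ₗ[F] V)) (x : V) (hx : P.q x ∈ P.Λ) : Submodule F V where
  carrier := {w | P.B x w = 0 ∧ ∀ a : F, ∃ c, c - P.q (a • w) ∈ P.Λ ∧ Has M (eu P x (a • w) c)}
  zero_mem' := ⟨by simp, fun a => ⟨0, by simpa using P.q_zero,
    has_id.congr fun y => by simp [eu_zero]⟩⟩
  add_mem' := by
    rintro w w' ⟨h1, h2⟩ ⟨h3, h4⟩
    refine ⟨by simp [h1, h3], fun a => ?_⟩
    obtain ⟨c, h5, h6⟩ := h2 a
    obtain ⟨c', h7, h8⟩ := h4 a
    rw [smul_add]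
    exact ⟨_, valid_add h5 h7, (h6.comp h8).congr fun y =>
      eu_comp (P.self_eq_zero hx) (by simp [h1]) (by simp [h3]) _ _ _⟩
  smul_mem' := by
    rintro b w ⟨h1, h2⟩
    exact ⟨by simp [h1], fun a => by rw [smul_smul]; exact h2 _⟩

variable {P : PQ F V σ}

theorem mem_Wd {x w : V} {hx : P.q x ∈ P.Λ} : w ∈ Wd P M x hx ↔
    P.B x w = 0 ∧ ∀ a : F, ∃ c, c - P.q (a • w) ∈ P.Λ ∧ Has M (eu P x (a • w) c) := Iff.rfl

theorem Wd_apply {x w x' : V} {hx : P.q x ∈ P.Λ} {hx' : P.q x' ∈ P.Λ} (hw : w ∈ Wd P M x hx)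
    {g : V ≃ₗ[F] V} (hg : g ∈ M) (hg' : g ∈ P.Isom) (e : g x = x') : g w ∈ Wd P M x' hx' := by
  subst e
  refine ⟨by rw [hg'.1, hw.1], fun a => ?_⟩
  obtain ⟨c, h1, h2⟩ := hw.2 a
  rw [← map_smul]
  exact ⟨c, isom_valid hg' h1, has_eu_conj h2 hg hg'⟩

theorem xle_of_Wd {x : V} {hx : P.q x ∈ P.Λ} (h : ∀ w, P.B x w = 0 → w ∈ Wd P M x hx)
    (hΛ : ∀ l ∈ P.Λ, Has M (eu P x 0 l)) : XLe P M x := by
  intro w c hw hc
  obtain ⟨c', h1, h2⟩ := (h w hw).2 1
  rw [one_smul] at h1 h2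
  refine (h2.comp (hΛ (c - c') ?_)).congr fun y => ?_
  · have := P.Λ.sub_mem hc h1
    convert this using 1; ring
  · rw [eu_comp (P.self_eq_zero hx) hw (by simp)]; simp

/-- `P` is obtained from `Pk` by composing with the functional `T`. -/
structure Ext (P : PQ F V σ) (Pk : PQ K V τ) (T : K →ₗ[F] F) : Prop where
  nd : ∀ k, (∀ k', T (k * k') = 0) → k = 0
  B : ∀ x y, P.B x y = T (Pk.B x y)
  sep : P.B.SeparatingLeft

variable {T : K →ₗ[F] F}

theorem Ext.sepK (E : Ext P Pk T) : Pk.B.SeparatingLeft := fun x hx =>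
  E.sep x fun y => by rw [E.B, hx, map_zero]

theorem Ext.B_zero (E : Ext P Pk T) {x y : V} (h : Pk.B x y = 0) : P.B x y = 0 := by
  rw [E.B, h, map_zero]

theorem Ext.BK_zero (E : Ext P Pk T) {x y : V} (h : ∀ k : K, P.B x (k • y) = 0) : Pk.B x y = 0 :=
  E.nd _ fun k => by rw [← h k, E.B, map_smul, smul_eq_mul, mul_comm]

theorem Ext.exists_T (E : Ext P Pk T) {β : K} (hβ : β ≠ 0) (c : F) : ∃ k, T (k * β) = c := by
  obtain ⟨k, hk⟩ : ∃ k, T (β * k) ≠ 0 := by
    by_contra hc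
    push Not at hc
    exact hβ (E.nd β hc)
  exact ⟨(c / T (β * k)) • k, by rw [smul_mul_assoc, map_smul, mul_comm k]; simp [hk]⟩

theorem Ext.mem_perp_pt (E : Ext P Pk T) {d y : V} : y ∈ perp P (pt F K d) ↔ Pk.B d y = 0 := by
  constructor
  · exact fun h => Pk.eq_zero_symm (E.BK_zero fun k => P.eq_zero_symm (h _ (smul_mem_pt k d)))
  · intro h u hu
    obtain ⟨k, rfl⟩ := mem_pt.1 hu
    exact E.B_zero (by rw [B_smul_left, h, mul_zero])

/-- An isometry mapping the `K`-perp of `d` into the `K`-perp of `x` maps `K d` onto `K x`. -/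
theorem Ext.map_pt_eq [FiniteDimensional F V] (E : Ext P Pk T) {g : V ≃ₗ[F] V} (hg : g ∈ P.Isom)
    {d x : V} (hd : d ≠ 0) (hx : x ≠ 0) (h : ∀ z, Pk.B d z = 0 → Pk.B x (g z) = 0) :
    (pt F K d).map (g : V →ₗ[F] V) = pt F K x := by
  symm
  refine Submodule.eq_of_le_of_finrank_eq (fun u hu => ?_)
    (by rw [LinearEquiv.finrank_map_eq, finrank_pt hd, finrank_pt hx])
  rw [mem_map_le', ← perp_perp E.sep (pt F K d)]
  intro z hz
  rw [← hg.1, le_apply_inv]
  exact P.eq_zero_symm (E.mem_perp_pt.2 (h z (E.mem_perp_pt.1 hz)) u hu)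

theorem nd_trace [Finite K] (k : K) (h : ∀ k', Algebra.trace F K (k * k') = 0) : k = 0 := by
  have : Finite F := Finite.of_injective _ (algebraMap F K).injective
  exact (traceForm_nondegenerate F K).1 k h

end H21
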