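import Mathlib
import Cfsg.Agent.Base
import Cfsg.Agent.Lib.ExtFld.Form

/-!
Adjoint involutions of an extension field; maximality of the unitary group over a quadratic
extension in the orthogonal group.
-/

set_option autoImplicit false
set_option linter.unusedSectionVars false

namespace H21

open Module Cfsg H97 H28

variable {F K V : Type*} [Field F] [Field K] [Algebra F K] [AddCommGroup V] [Module F V]
  [Module K V] [IsScalarTower F K V] {τ : K →+* K} {Pk : PQ K V τ} {σ : F →+* F} {T : K →ₗ[F] F}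

theorem sepRight {P : PQ F V σ} (hP : P.B.SeparatingLeft) {y y' : V}
    (h : ∀ x, P.B x y = P.B x y') : y = y' :=
  sub_eq_zero.1 (hP _ fun x => P.eq_zero_symm (by rw [map_sub, h, sub_self]))

/-- The adjoint map on a field closed under adjoints. -/
theorem exists_adjoint {P : PQ F V σ} (hP : P.B.SeparatingLeft) {v : V} (hv : v ≠ 0)
    (h : ∀ k : K, ∃ k' : K, ∀ x y, P.B (k • x) y = P.B x (k' • y)) :
    ∃ τ : K →+* K, (∀ k x y, P.B (k • x) y = P.B x (τ k • y)) ∧ (∀ k, τ (τ k) = k) ∧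
      ∀ a, τ (algebraMap F K a) = algebraMap F K (σ a) := by
  choose θ hθ using h
  have uniq : ∀ k k' : K, (∀ x, P.B x (k • v) = P.B x (k' • v)) → k = k' := fun k k' h =>
    smul_left_injective K hv (sepRight hP h)
  refine ⟨⟨⟨⟨θ, uniq _ _ fun x => by rw [← hθ]; simp⟩, fun a b => uniq _ _ fun x => ?_⟩,
    uniq _ _ fun x => by rw [← hθ]; simp, fun a b => uniq _ _ fun x => ?_⟩, hθ,
    fun k => uniq _ _ fun x => ?_, fun a => uniq _ _ fun x => ?_⟩
  · change P.B x (θ (a * b) • v) = P.B x ((θ a * θ b) • v)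
    rw [← hθ, mul_smul (θ a), ← hθ, ← hθ, smul_smul, mul_comm]
  · change P.B x (θ (a + b) • v) = P.B x ((θ a + θ b) • v)
    rw [← hθ, add_smul, add_smul, map_add, map_add, LinearMap.add_apply, hθ, hθ]
  · change P.B x (θ (θ k) • v) = _
    rw [← hθ, P.symm, ← hθ, ← P.symm]
  · change P.B x (θ _ • v) = _
    rw [← hθ, algebraMap_smul, algebraMap_smul, B_smul_left, map_smul, smul_eq_mul]

theorem form_symm {P : PQ F V σ} (hT : ∀ k, (∀ k', T (k * k') = 0) → k = 0)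
    (hTτ : ∀ k, T (τ k) = σ (T k)) (hττ : ∀ k, τ (τ k) = k) {b : V →ₛₗ[τ] V →ₗ[K] K}
    (hb : ∀ x y, P.B x y = T (b x y)) (x y : V) : b y x = algebraMap F K P.ε * τ (b x y) := by
  refine sub_eq_zero.1 (hT _ fun k => ?_)
  have h1 : T (b y x * k) = P.B y (k • x) := by rw [hb, map_smul, smul_eq_mul, mul_comm]
  rw [sub_mul, map_sub, h1, P.symm, hb, LinearMap.map_smulₛₗ₂, ← hTτ, smul_eq_mul, map_mul, hττ,
    mul_assoc, ← Algebra.smul_def, map_smul, smul_eq_mul, mul_comm k, sub_self]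

variable (τ T) in
/-- `τ` is the non-trivial automorphism of a quadratic extension and `T` its trace. -/
structure Invol : Prop where
  ττ : ∀ k, τ (τ k) = k
  fix : ∀ a, τ (algebraMap F K a) = algebraMap F K a
  ne : τ ≠ RingHom.id K
  tr : ∀ k, algebraMap F K (T k) = k + τ k
  mem : ∀ k, τ k = k → ∃ a, algebraMap F K a = k

theorem exists_invol (hr : (finrank F K).Prime) (h1 : ∀ k, τ (τ k) = k)
    (h2 : ∀ a, τ (algebraMap F K a) = algebraMap F K a) (h3 : τ ≠ RingHom.id K) :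
    ∃ T : K →ₗ[F] F, Invol τ T := by
  have h4 : ∀ k, τ k = k → ∃ a, algebraMap F K a = k := fun k hk => by
    by_contra hc
    push Not at hc
    let Δ : Submodule F K :=
      { carrier := {k | τ k = k}
        zero_mem' := map_zero τ
        add_mem' := fun {a b} ha hb => by
          simp only [Set.mem_setOf_eq, map_add] at *; rw [ha, hb]
        smul_mem' := fun a b hb => by
          simp only [Set.mem_setOf_eq, Algebra.smul_def, map_mul, h2] at *; rw [hb] }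
    rcases eq_bot_or_top_of_mul hr (Δ := Δ) hc fun k' hk' => by
      change τ (k * k') = k * k'
      rw [map_mul, hk, show τ k' = k' from hk'] with h | h
    · have : (1 : K) ∈ Δ := map_one τ
      rw [h] at this
      exact one_ne_zero this
    · exact h3 (RingHom.ext fun k => (h ▸ Submodule.mem_top : k ∈ Δ))
  choose t ht using fun k => h4 (k + τ k) (by rw [map_add, h1, add_comm])
  have hi := (algebraMap F K).injective
  exact ⟨⟨⟨t, fun a b => hi (by simp only [map_add, ht]; ring)⟩, fun a b => hi (by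
    simp only [ht, Algebra.smul_def, map_mul, h2, RingHom.id_apply, Algebra.algebraMap_self]
    ring)⟩, h1, h2, h3, ht, h4⟩

theorem Invol.T_τ (I : Invol τ T) (k : K) : T (τ k) = T k :=
  (algebraMap F K).injective (by rw [I.tr, I.tr, I.ττ, add_comm])

theorem Invol.nd (I : Invol τ T) (k : K) (h : ∀ k', T (k * k') = 0) : k = 0 := by
  by_contra h0
  obtain ⟨c, hc⟩ := exists_trace_one I.ne I.ττ
  have := I.tr c
  rw [hc, show c = k * (k⁻¹ * c) by field_simp, h] at this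
  simp at this

theorem exists_smul_of_T (hr : finrank F K = 2) (hT : ∀ k, (∀ k', T (k * k') = 0) → k = 0)
    {β β' : K} (h0 : β ≠ 0) (h : T β = 0) (h' : T β' = 0) : ∃ a : F, β' = algebraMap F K a * β := by
  have : FiniteDimensional F K := .of_finrank_pos (by omega)
  have h1 : LinearMap.ker T ≠ ⊤ := fun e => one_ne_zero (hT 1 fun k => by
    rw [one_mul]; exact LinearMap.mem_ker.1 (e ▸ Submodule.mem_top))
  have h2 := Submodule.finrank_lt h1
  have h3 : F ∙ β = LinearMap.ker T := Submodule.eq_of_le_of_finrank_le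
    ((Submodule.span_singleton_le_iff_mem _ _).2 h) (by rw [finrank_span_singleton h0]; omega)
  obtain ⟨a, ha⟩ := Submodule.mem_span_singleton.1 (h3 ▸ h' : β' ∈ F ∙ β)
  exact ⟨a, by rw [← ha, Algebra.smul_def]⟩

variable [FiniteDimensional F V] {M : Subgroup (V ≃ₗ[F] V)} {P : PQ F V σ}

theorem Has.of_comap {f : V → V} (h : Has (M.comap (H21.res (K := K))) f) : Has M f :=
  Has.res h fun _ hg => hg

/-- If `M` contains `X_x` for one `K`-singular vector then it contains `E`. -/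
theorem Ext.EG_le_of_xle (E : Ext P Pk T) (hs : ∀ d, Pk.q d ∈ Pk.Λ → P.q d ∈ P.Λ)
    (hM : M ≤ P.Isom) (htr : ∀ x y, x ≠ 0 → y ≠ 0 → Pk.q x ∈ Pk.Λ → Pk.q y ∈ Pk.Λ →
      ∃ g ∈ M, g x = y) {x : V} (hx0 : x ≠ 0) (hx : Pk.q x ∈ Pk.Λ) (h : XLe P M x) :
    EG P ≤ M := by
  have : FiniteDimensional K V := Module.Finite.of_restrictScalars_finite F K V
  obtain ⟨f, hf, hfx, -⟩ := Pk.exists_partner E.sepK ⊥ hx0 hx (by simp)
  obtain ⟨k, hk⟩ := E.exists_T (B_ne_zero_symm (hfx ▸ one_ne_zero : Pk.B f x ≠ 0)) 1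
  have h1 : P.B x (k • f) ≠ 0 := by rw [E.B, map_smul, smul_eq_mul, hk]; exact one_ne_zero
  obtain ⟨g, hg, e⟩ := htr x (k • f) hx0 (fun h0 => h1 (by simp [h0])) hx (Pk.q_smul_mem hf k)
  exact H97.EG_le_of_xle E.sep (hs x hx) (hs _ (Pk.q_smul_mem hf k)) h (e ▸ h.apply hg (hM hg)) h1

/-- The final step for quadratic extensions. -/
theorem Ext.perp_le_Wd (hr : finrank F K = 2) (E : Ext P Pk T)
    (hs : ∀ d, Pk.q d ∈ Pk.Λ → P.q d ∈ P.Λ) (hM : M ≤ P.Isom)
    (hW : ∀ x (hx : Pk.q x ∈ Pk.Λ), x ≠ 0 → ∀ z, Pk.B x z = 0 → z ∈ Wd P M x (hs x hx))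
    {g : V ≃ₗ[F] V} (hg : g ∈ M) {d : V} (hd0 : d ≠ 0) (hd : Pk.q d ∈ Pk.Λ)
    (hx : Pk.q (g d) ∈ Pk.Λ) (hne : (pt F K d).map (g : V →ₗ[F] V) ≠ pt F K (g d)) {z : V}
    (hz : P.B (g d) z = 0) : z ∈ Wd P M (g d) (hs _ hx) := by
  have hx0 : g d ≠ 0 := by simpa using hd0
  obtain ⟨y, hy, hy'⟩ : ∃ y, Pk.B d y = 0 ∧ Pk.B (g d) (g y) ≠ 0 := by
    by_contra hc
    push Not at hc
    exact hne (E.map_pt_eq (hM hg) hd0 hx0 hc)
  have h1 := Wd_apply (hx' := hs _ hx) (hW d hd hd0 y hy) hg (hM hg) rfl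
  obtain ⟨a, ha⟩ := exists_smul_of_T hr E.nd hy' (E.B _ _ ▸ h1.1) (E.B _ _ ▸ hz)
  have h2 := hW _ hx hx0 (z - a • g y) (by
    rw [map_sub, ← algebraMap_smul K a, map_smul, ha, smul_eq_mul, sub_self])
  simpa using Submodule.add_mem _ h2 (Submodule.smul_mem _ a h1)

theorem xle_of_Wd_quad {Q : QuadraticForm F V} {x : V} {hx : (PQ.ofQuad Q).q x ∈ (PQ.ofQuad Q).Λ}
    (h : ∀ w, (PQ.ofQuad Q).B x w = 0 → w ∈ Wd (PQ.ofQuad Q) M x hx) : XLe (PQ.ofQuad Q) M x :=
  xle_of_Wd h fun l hl => by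
    rw [show l = 0 from hl]; exact has_id.congr fun y => by rw [eu_zero]

theorem exists_EG_not_NK (hr : 1 < finrank F K) (hP : P.B.SeparatingLeft) (hn : 5 ≤ finrank F V)
    {x : V} (hx0 : x ≠ 0) (hx : P.q x ∈ P.Λ) : ∃ g ∈ EG P, g ∉ NK F K V := by
  obtain ⟨l, hl⟩ := exists_notMem_range hr
  obtain ⟨w, hw, hw'⟩ : ∃ w ∈ perp P (F ∙ x), w ∉ Submodule.span F {x, l • x} := by
    by_contra hc
    push Not at hc
    have h1 := Submodule.finrank_mono (show perp P (F ∙ x) ≤ _ from hc)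
    have h2 := finrank_le_perp (P := P) (F ∙ x)
    have h3 := finrank_span_singleton_le (F := F) x
    have h4 := finrank_span_pair_le (F := F) x (l • x)
    omega
  rw [mem_perp_singleton] at hw
  obtain ⟨g, hg, e⟩ := has_eu_EG hx hw (c := P.q w) (by simp)
  refine ⟨g, hg, fun h => ?_⟩
  obtain ⟨k, hk⟩ := h.1 l
  let L : V →ₗ[F] V := (LinearMap.lsmul K V l).restrictScalars F
  obtain ⟨y, hy, hy0⟩ := exists_ne_zero_mem (X := perp P (Submodule.span F {x, w}) ⊓
      LinearMap.ker (P.B x ∘ₗ L) ⊓ LinearMap.ker (P.B w ∘ₗ L)) (by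
    have h1 := finrank_inf_ker (perp P (Submodule.span F {x, w})) (P.B x ∘ₗ L)
    have h2 := finrank_inf_ker (perp P (Submodule.span F {x, w}) ⊓ LinearMap.ker (P.B x ∘ₗ L))
      (P.B w ∘ₗ L)
    have h3 := finrank_le_perp (P := P) (Submodule.span F {x, w})
    have h4 := finrank_span_pair_le (F := F) x w
    omega)
  have h1 := hk y
  rw [e, e, eu_fix (z := l • y) _ hy.1.2 hy.2, eu_fix _ (mem_perp_span.1 hy.1.1 x (by simp))
    (mem_perp_span.1 hy.1.1 w (by simp))] at h1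
  obtain rfl : l = k := smul_left_injective K hy0 h1
  obtain ⟨z, hz, hz'⟩ := exists_B_eq' hP (H := F ∙ x) (u := w)
    (fun h => hw' (Submodule.span_mono (by simp) h)) 1
  have h2 := hk z
  rw [e, e, eu_apply, eu_apply, hz x (Submodule.mem_span_singleton_self x), hz'] at h2
  set a := P.B w (l • z) - P.ε * P.q w * P.B x (l • z)
  set b := P.ε * P.B x (l • z)
  have h3 : b • w = a • x - l • x := by
    simp only [mul_zero, sub_zero, zero_smul, one_smul, smul_add] at h2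
    linear_combination (norm := module) -h2
  by_cases hb : b = 0
  · rw [hb, zero_smul, eq_comm, sub_eq_zero, ← algebraMap_smul K] at h3
    exact hl a (smul_left_injective K hx0 h3)
  · refine hw' ((Submodule.smul_mem_iff _ hb).1 ?_)
    rw [h3]
    exact Submodule.sub_mem _ (Submodule.smul_mem _ _ (Submodule.subset_span (by simp)))
      (Submodule.subset_span (by simp))

/-- Overgroups of the unitary group over a quadratic extension in the orthogonal group. -/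
theorem EG_le_UO [Finite K] (hr : finrank F K = 2) (I : Invol τ T) {Q : QuadraticForm F V}
    {c : K} {hc : c + τ c = 1} {b : V →ₛₗ[τ] V →ₗ[K] K} {hS : ∀ x y, τ (b x y) = b y x}
    (E : Ext (PQ.ofQuad Q) (PQ.ofHerm I.ττ c hc b hS) T) (hQ : ∀ v, algebraMap F K (Q v) = b v v)
    (h5 : 5 ≤ finrank K V) (hH : NK F K V ⊓ EG (PQ.ofQuad Q) ≤ M) (hM : M ≤ (PQ.ofQuad Q).Isom)
    {g : V ≃ₗ[F] V} (hg : g ∈ M) (hg' : g ∉ NK F K V) : EG (PQ.ofQuad Q) ≤ M := by
  have : Finite F := Finite.of_injective _ (algebraMap F K).injective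
  have : FiniteDimensional K V := Module.Finite.of_restrictScalars_finite F K V
  set P := PQ.ofQuad Q with hP
  set Pk := PQ.ofHerm I.ττ c hc b hS with hPk
  have hi := (algebraMap F K).injective
  have hiso : IsoK Pk 2 := isoK_herm I.ne
  have hn : 5 ≤ finrank F V := by rw [← Module.finrank_mul_finrank F K V, hr]; omega
  have hs : ∀ d, Pk.q d ∈ Pk.Λ ↔ P.q d ∈ P.Λ := fun d => by
    rw [hPk, PQ.ofHerm_q_mem, hP, ofQuad_q_mem, ← hQ, map_eq_zero]
  have hI : ∀ a ∈ Pk.Isom, res a ∈ P.Isom := fun a ha => PQ.mem_isom_ofQuad.2 fun x => hi (by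
    rw [hQ, hQ]; exact ha.1 x x)
  have key : ∀ d (k : K) y, Pk.q d ∈ Pk.Λ → eu P d (k • d) 0 y = eu Pk d 0 (k - τ k) y := by
    intro d k y hd
    simp only [eu_apply, E.B, map_zero, LinearMap.zero_apply, B_smul_left]
    rw [← algebraMap_smul K (_ - _), ← algebraMap_smul K (_ * _)]
    simp only [map_sub, map_mul, I.tr, I.ττ, map_zero, show P.ε = 1 from rfl,
      show Pk.ε = 1 from rfl, map_one]
    module
  have hpt : ∀ d (hd : Pk.q d ∈ Pk.Λ) (k : K), P.B d (k • d) = 0 ∧ (0 : F) - P.q (k • d) ∈ P.Λ ∧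
      ∃ t ∈ Pk.Isom, res t ∈ M ∧ ∀ y, t y = eu P d (k • d) 0 y := fun d hd k => by
    have h1 : P.B d (k • d) = 0 := E.B_zero (by simp [Pk.self_eq_zero hd])
    have h2 : (0 : F) - P.q (k • d) ∈ P.Λ := by
      simpa using (hs _).1 (Pk.q_smul_mem hd k)
    obtain ⟨t, ht, e⟩ := has_eu_isom hd (w := 0) (c := k - τ k) (by simp) (by
      have := Pk.Λ.sub_mem (Pk.sub_mem k) Pk.q_zero
      simpa [show Pk.ε = 1 from rfl] using this)
    have e' : ∀ y, t y = eu P d (k • d) 0 y := fun y => by rw [e, key d k y hd]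
    exact ⟨h1, h2, t, ht, hH ⟨res_mem_NK t, (has_eu_EG ((hs d).1 hd) h1 h2).mem e'⟩, e'⟩
  obtain ⟨a₀, ha₀, ha₁⟩ := exists_ne_zero_ne_neg_one (F := F) (K := K) (by omega)
  have hX : ∀ d, Pk.q d ∈ Pk.Λ → XLe Pk (M.comap res) d := fun d hd =>
    xle_of_comm E.sepK (fun a ha b hb => hH ⟨res_mem_NK _, by
      simp only [map_mul, map_inv]
      exact (isoK_quad Q).commutator_mem_EG E.sep hn (hI a ha) (hI b hb)⟩) hd (fun l hl => by
        obtain ⟨-, -, t, -, ht, e⟩ := hpt d hd (c * l)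
        refine ⟨t, ht, fun y => ?_⟩
        have h1 : l + τ l = 0 := hl
        rw [e, key _ _ _ hd, map_mul]
        congr 2
        linear_combination l * hc - τ c * h1) ha₀ ha₁
  have hE : EG Pk ≤ M.comap res := EG_le fun d w c hd => hX d hd w c
  have htr : ∀ x y, x ≠ 0 → y ≠ 0 → Pk.q x ∈ Pk.Λ → Pk.q y ∈ Pk.Λ →
      ∃ g ∈ Pk.Isom, res g ∈ M ∧ g x = y := fun x y hx hy h1 h2 => by
    obtain ⟨g, hg, e⟩ := hiso.exists_EG_apply_eq E.sepK (by omega) hx hy (Pk.Λ.sub_mem h1 h2)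
    exact ⟨g, EG_le_isom hg, hE hg, e⟩
  have hW : ∀ d (hd : Pk.q d ∈ Pk.Λ), pt F K d ≤ Wd P M d ((hs d).1 hd) := fun d hd u hu => by
    obtain ⟨k, rfl⟩ := mem_pt.1 hu
    refine ⟨(hpt d hd k).1, fun a => ⟨0, ?_⟩⟩
    rw [algebraMap_smul']
    obtain ⟨-, h1, t, -, ht, e⟩ := hpt d hd (algebraMap F K a * k)
    exact ⟨h1, res t, ht, e⟩
  obtain ⟨d, hd0, hd, hne⟩ : ∃ d, d ≠ 0 ∧ Pk.q d ∈ Pk.Λ ∧
      (pt F K d).map (g : V →ₗ[F] V) ≠ pt F K (g d) := by
    by_contra hc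
    push Not at hc
    exact hg' (mem_NK_of_map_sing (by omega) hiso E.sepK (by omega) (by omega) hc)
  have hx : Pk.q (g d) ∈ Pk.Λ := (hs _).2 (isom_q (hM hg) ((hs d).1 hd))
  have hx0 : g d ≠ 0 := by simpa using hd0
  have hinv : ∀ d' w c, Pk.q d' ∈ Pk.Λ → Pk.B d' w = 0 → c - Pk.q w ∈ Pk.Λ → Pk.B d' (g d) = 0 →
      Pk.B w (g d) = 0 → ∀ z ∈ Wd P M (g d) ((hs _).1 hx),
      eu Pk d' w c z ∈ Wd P M (g d) ((hs _).1 hx) := fun d' w c h1 h2 h3 h4 h5 z hz => by
    obtain ⟨t, ht, e⟩ := Has.of_comap (hX d' h1 w c h2 h3)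
    exact e z ▸ Wd_apply hz ht (hM ht) (by rw [e, eu_fix _ h4 h5])
  obtain ⟨y, hy, hy'⟩ : ∃ y ∈ Wd P M (g d) ((hs _).1 hx), y ∉ pt F K (g d) := by
    by_contra hc
    push Not at hc
    refine hne (Submodule.eq_of_le_of_finrank_eq ?_
      (by rw [LinearEquiv.finrank_map_eq, finrank_pt hd0, finrank_pt hx0]))
    rintro _ ⟨u, hu, rfl⟩
    exact hc _ (Wd_apply (hW d hd hu) hg (hM hg) rfl)
  have h1 : ∀ z, Pk.B (g d) z = 0 → z ∈ Wd P M (g d) ((hs _).1 hx) := fun z hz => by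
    by_cases h0 : Pk.B (g d) y = 0
    · exact perp_le_of_inv hiso E.sepK (by omega) h5 hx hinv hy hy' h0 hz
    · exact perp_le_of_inv_of_ne (hW _ hx) (fun w hw => hinv _ w _ hx hw (by simp)
        (Pk.self_eq_zero hx) (Pk.eq_zero_symm hw)) hy h0 hz
  refine E.EG_le_of_xle (fun d => (hs d).1) hM (fun x y h1 h2 h3 h4 => ?_) hx0 hx
    (xle_of_Wd_quad fun z hz => E.perp_le_Wd hr (fun d => (hs d).1) hM
      (fun x hx' hx0' z hz => ?_) hg hd0 hd hx hne hz)
  · obtain ⟨t, -, h5, h6⟩ := htr x y h1 h2 h3 h4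
    exact ⟨res t, h5, h6⟩
  · obtain ⟨t, h5, h6, h7⟩ := htr (g d) x hx0 hx0' hx hx'
    have := Wd_apply (hx' := (hs x).1 hx') (h1 (t⁻¹ z) (by rw [← h5.1, h7, le_apply_inv, hz])) h6
      (hM h6) h7
    rwa [res_apply, le_apply_inv] at this

/-- The normaliser of a quadratic field acting by similarities with a non-trivial adjoint map is
maximal in `Ω`. -/
theorem isMaximalIn_UO [Finite K] (hr : finrank F K = 2) {Q : QuadraticForm F V}
    (hQ : (QuadraticMap.polarBilin Q).SeparatingLeft) (hn : 10 ≤ finrank F V)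
    (h1 : ∀ k : K, ∃ k' : K, ∀ x y, QuadraticMap.polar Q (k • x) y = QuadraticMap.polar Q x (k' • y))
    (h2 : ¬ ∀ (k : K) x y, QuadraticMap.polar Q (k • x) y = QuadraticMap.polar Q x (k • y))
    (h3 : ∀ k : K, ∃ c : F, ∀ v, Q (k • v) = c * Q v) :
    Geo.IsMaximalIn (EG (PQ.ofQuad Q)) (NK F K V ⊓ EG (PQ.ofQuad Q)) := by
  have : Finite F := Finite.of_injective _ (algebraMap F K).injective
  have : FiniteDimensional F K := .of_finrank_pos (by omega)
  have : FiniteDimensional K V := Module.Finite.of_restrictScalars_finite F K V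
  obtain ⟨x, -, hx0, hx⟩ := isoK_quad Q ⊤ (by rw [finrank_top]; omega)
  obtain ⟨g, hg, hg'⟩ := exists_EG_not_NK (K := K) (P := PQ.ofQuad Q) (by omega) hQ (by omega) hx0 hx
  obtain ⟨τ, t1, t2, t3⟩ := exists_adjoint (P := PQ.ofQuad Q) hQ hx0 h1
  obtain ⟨T, I⟩ := exists_invol (hr ▸ Nat.prime_two) t2 t3 fun h => h2 fun k x y => by
    have := t1 k x y
    rwa [h] at this
  obtain ⟨b, hb⟩ := exists_form T I.nd (PQ.ofQuad Q).B t1
  have hS : ∀ x y, τ (b x y) = b y x := fun x y => by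
    rw [form_symm I.nd I.T_τ t2 hb x y, show (PQ.ofQuad Q).ε = 1 from rfl, map_one, one_mul]
  obtain ⟨c, hc⟩ := exists_trace_one I.ne I.ττ
  have hN : ∀ k : K, ∀ v, algebraMap F K (Q (k • v)) = τ k * k * algebraMap F K (Q v) := by
    intro k v
    obtain ⟨a, ha⟩ := h3 k
    have h4 : (τ k * k) • x = algebraMap F K a • x := sepRight (P := PQ.ofQuad Q) hQ fun y => by
      rw [mul_smul, ← t1, algebraMap_smul, LinearMap.map_smul _ a x, ofQuad_B, ofQuad_B, QuadraticMap.polar,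
        QuadraticMap.polar, ← smul_add, ha, ha, ha, smul_eq_mul]
      ring
    rw [ha, map_mul, smul_left_injective K hx0 h4]
  have hQb : ∀ v, algebraMap F K (Q v) = b v v := fun v => by
    refine sub_eq_zero.1 (I.nd _ fun k => (algebraMap F K).injective ?_)
    have h4 := hN (1 + k) v
    have h5 := congrArg (algebraMap F K) (hb v (k • v))
    rw [ofQuad_B, QuadraticMap.polar, map_sub, map_sub, hN k, map_smul, I.tr, smul_eq_mul, map_mul,
      hS] at h5
    rw [add_smul, one_smul, map_add τ, map_one] at h4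
    rw [I.tr, map_mul, map_sub, I.fix, hS, map_zero]
    linear_combination h5 - h4
  refine isMaximalIn_of inf_le_right (fun h => hg' (h hg).1) fun M h4 h5 ⟨g, h6, h7⟩ =>
    EG_le_UO hr I (hc := hc) (hS := hS) ⟨I.nd, hb, hQ⟩ hQb ?_ h4 (h5.trans EG_le_isom) h6
      fun h => h7 ⟨h, h5 h6⟩
  have := Module.finrank_mul_finrank F K V
  rw [hr] at this
  omega

open Matrix in
theorem fieldSub_UO {ι : Type} [Fintype ι] [DecidableEq ι] {F : Type*} [Field F] [Finite F]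
    (hn : 10 ≤ Fintype.card ι) {Q : (ι → F) → F} (hQ : Geo.IsNondegenerateQuadraticForm Q)
    {K : Subalgebra F (Matrix ι ι F)} (hK : Geo.IsFieldSubalgebra 2 K)
    (hac : Geo.IsAdjointClosedFor (QuadraticMap.polar Q) K)
    (hnsa : ¬ Geo.IsSelfAdjointFor (QuadraticMap.polar Q) K)
    (hsc : ∀ k ∈ K, ∃ c : F, ∀ v, Q (k *ᵥ v) = c * Q v) :
    Geo.IsMaximalIn (Geo.omegaGL Q) (Geo.subalgebraNormalizer K ⊓ Geo.omegaGL Q) := by
  have : Nonempty ι := Fintype.card_pos_iff.1 (by omega)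
  obtain ⟨Q, rfl, hQ'⟩ := exists_quadForm hQ
  refine fieldSub_elim hK fun E _ _ _ _ _ hE h1 h2 e => ?_
  rw [e, omegaGL_eq hQ' (by omega), ← pull_inf]
  refine isMaximalIn_pull (isMaximalIn_UO hE hQ' (by simpa using hn) (fun k => ?_)
    (fun h => hnsa fun k hk x y => ?_) fun k => ?_)
  · obtain ⟨m, hm, h3⟩ := h2 k
    obtain ⟨m', hm', h4⟩ := hac m hm
    obtain ⟨k', h5⟩ := h1 m' hm'
    exact ⟨k', fun x y => by rw [← h3, ← h5, h4]⟩
  · obtain ⟨k', h5⟩ := h1 k hk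
    rw [h5, h5, h]
  · obtain ⟨m, hm, h3⟩ := h2 k
    obtain ⟨c, hc⟩ := hsc m hm
    exact ⟨c, fun v => by rw [← h3, hc]⟩

end H21
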