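import Mathlib
import Cfsg.Agent.Base
import Cfsg.Agent.Lib.ExtFld.UO

/-!
Maximality of the symplectic group over an extension field of prime degree in the symplectic group.
-/

set_option autoImplicit false
set_option linter.unusedSectionVars false

namespace H21

open Module Cfsg H97 H28

variable {F K V : Type*} [Field F] [Field K] [Algebra F K] [AddCommGroup V] [Module F V]
  [Module K V] [IsScalarTower F K V] {τ : K →+* K} {Pk : PQ K V τ} {σ : F →+* F} {T : K →ₗ[F] F}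
  {M : Subgroup (V ≃ₗ[F] V)} {P : PQ F V σ} {S : V → Prop}

theorem has_eu_sub {d w w' : V} {c c' : F} (hd : P.B d d = 0) (hw : P.B d w = 0)
    (hw' : P.B d w' = 0) (h : Has M (eu P d w c)) (h' : Has M (eu P d w' c')) :
    Has M (eu P d (w - w') (c - c' + P.B w' w' - P.B w w')) := by
  have h1 : Has M (eu P d (-w') (P.B w' w' - c')) := h'.inv fun x => by
    rw [eu_comp hd hw' (by simp [hw'])]; simp [eu_zero]
  refine (h.comp h1).congr fun x => ?_
  rw [eu_comp hd hw (by simp [hw']), ← sub_eq_add_neg, map_neg]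
  congr 2; ring

theorem InT.skew (hM : M ≤ P.Isom) {W : Submodule F V} {ρ : V →ₗ[F] V} (h : InT M W ρ)
    (hW : ∀ u ∈ W, ∀ w ∈ W, P.B u w = 0) (x y : V) : P.B (ρ x) y = -P.B x (ρ y) := by
  obtain ⟨g, hg, e⟩ := h.has
  have := (hM hg).1 x y
  simp only [e, map_add, LinearMap.add_apply, hW _ (h.mem x) _ (h.mem y)] at this
  linear_combination this

theorem Good.iso (E : Ext P Pk T) (hM : M ≤ P.Isom) (hS : ∀ d, S d → Pk.B d d = 0)
    {W : Submodule F V} (h : Good K M S W) : ∀ u ∈ W, ∀ w ∈ W, P.B u w = 0 := by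
  obtain ⟨g, hg, d, -, hd, rfl⟩ := h
  rintro _ ⟨u, hu, rfl⟩ _ ⟨w, hw, rfl⟩
  obtain ⟨k, rfl⟩ := mem_pt.1 hu
  obtain ⟨k', rfl⟩ := mem_pt.1 hw
  exact ((hM hg).1 _ _).trans (E.B_zero (by simp [B_smul_left, hS d hd]))

theorem MaxPair.exists_pt {U W : Submodule F V} (h : MaxPair K M S U W) :
    ∃ g ∈ M, ∃ d, d ≠ 0 ∧ S d ∧ U.map (g : V →ₗ[F] V) = pt F K d ∧
      MaxPair K M S (pt F K d) (W.map (g : V →ₗ[F] V)) := by
  obtain ⟨g, hg, d, hd, hS, e⟩ := h.left
  have := h.map (M.inv_mem hg)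
  rw [map_inv_le e.symm] at this
  exact ⟨g⁻¹, M.inv_mem hg, d, hd, hS, map_inv_le e.symm, this⟩

variable [FiniteDimensional F V]

theorem MaxPair.sub_mem {U W : Submodule F V} (h : MaxPair K M S U W)
    (hD : finrank F ↥(U ⊓ W) + 1 = finrank F K) (hU : ∀ u ∈ U, ∀ w ∈ U, P.B u w = 0) {x u y : V}
    (hx : x ∈ W) (hu : u ∈ U) (hxu : P.B u x = 1) (hy : y ∈ W) : y - P.B u y • x ∈ U ⊓ W := by
  obtain ⟨a, ha⟩ := exists_sub_smul_mem (inf_le_right : U ⊓ W ≤ W) (by rw [hD, h.right.finrank_eq])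
    hx (fun h => by rw [hU u hu x h.1] at hxu; exact zero_ne_one hxu) hy
  have := hU u hu _ ha.1
  rw [map_sub, map_smul, hxu, smul_eq_mul, mul_one, sub_eq_zero] at this
  rwa [this]

variable {B : LinearMap.BilinForm F V} {hA : ∀ x, B x x = 0} {b : LinearMap.BilinForm K V}
  {hb : ∀ x, b x x = 0}

theorem alt_eu (d w : V) (c : F) (x : V) :
    eu (PQ.ofAlt B hA) d w c x = x + (B w x + c * B d x) • d + B d x • w := by
  rw [eu_apply]
  change x + (B w x - -1 * c * B d x) • d - (-1 * B d x) • w = _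
  module

theorem alt_neg (hA : ∀ x, B x x = 0) (x y : V) : B x y = -B y x :=
  (LinearMap.IsAlt.neg (B := B) hA y x).symm

/-- All symplectic transvections generate, once one full group is there. -/
theorem isom_le_of_one (hB : B.SeparatingLeft) (hM : M ≤ (PQ.ofAlt B hA).Isom) {e : V}
    (htr : ∀ y, y ≠ 0 → ∃ g ∈ M, g e = y) (h : ∀ c, Has M (eu (PQ.ofAlt B hA) e 0 c)) :
    (PQ.ofAlt B hA).Isom ≤ M := by
  refine isom_le_of_transv hB fun c d => ?_
  by_cases hd : d = 0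
  · rw [hd]; exact hasT_zero_left _
  obtain ⟨g, hg, rfl⟩ := htr d hd
  exact (has_eu_conj (h c) hg (hM hg)).congr fun x => by simp [alt_eu]

theorem exists_inT_sp (E : Ext (PQ.ofAlt B hA) (PQ.ofAlt b hb) T)
    (hM : M ≤ (PQ.ofAlt B hA).Isom) (hK : ∀ g ∈ (PQ.ofAlt b hb).Isom, res g ∈ M)
    {W : Submodule F V} (hW : Good K M S W) {y u w : V} (hw : w ∈ W) (hy : B w y ≠ 0) (hu : u ∈ W) :
    ∃ ρ, InT M W ρ ∧ ρ y = u := by
  have : FiniteDimensional K V := Module.Finite.of_restrictScalars_finite F K V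
  obtain ⟨g, hg, d, -, -, rfl⟩ := hW
  rw [mem_map_le'] at hw hu
  obtain ⟨k, hk⟩ := mem_pt.1 hu
  have h1 : b d (g⁻¹ y) ≠ 0 := fun h => hy (by
    have := E.mem_perp_pt.2 h _ hw
    rwa [((PQ.ofAlt B hA).Isom.inv_mem (hM hg)).1] at this)
  have h2 : InT M (pt F K d) (ktv (b d) ((k * (b d (g⁻¹ y))⁻¹) • d)) := by
    refine ⟨(Has.res (has_eu_isom (P := PQ.ofAlt b hb) (d := d) (w := 0)
      (c := k * (b d (g⁻¹ y))⁻¹) trivial (by simp) trivial) hK).congr fun x => ?_,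
      fun x => ?_, fun u hu => ?_⟩
    · simp [alt_eu, ktv_apply, smul_smul, mul_comm]
    · rw [ktv_apply, smul_smul]; exact smul_mem_pt _ _
    · obtain ⟨k', rfl⟩ := mem_pt.1 hu
      simp [ktv_apply, hb]
  refine ⟨_, h2.conj hg, ?_⟩
  rw [cjm_apply, ktv_apply, smul_smul, mul_comm, inv_mul_cancel_right₀ h1, hk, le_apply_inv]

theorem has_eu_of_pair (E : Ext (PQ.ofAlt B hA) (PQ.ofAlt b hb) T)
    (hM : M ≤ (PQ.ofAlt B hA).Isom) (hK : ∀ g ∈ (PQ.ofAlt b hb).Isom, res g ∈ M)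
    {U W : Submodule F V} (hP : MaxPair K M S U W) (hD : finrank F ↥(U ⊓ W) + 1 = finrank F K)
    {x u e z : V} (hx : x ∈ W) (hu : u ∈ U) (hxu : B x u = 1) (he : e ∈ U ⊓ W) (hz : z ∈ U) :
    Has M (eu (PQ.ofAlt B hA) e z (B x z)) := by
  have hU := hP.left.iso E hM fun d _ => hb d
  have hW := hP.right.iso E hM fun d _ => hb d
  have hux : B (-u) x = 1 := by rw [map_neg, LinearMap.neg_apply, alt_neg hA, hxu, neg_neg]
  obtain ⟨s, hs, hsu⟩ := exists_inT_sp E hM hK hP.right hx (y := u) (by simp [hxu]) he.2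
  obtain ⟨t, ht, htx⟩ := exists_inT_sp E hM hK hP.left (U.neg_mem hu) (y := x) (by rw [hux]; simp)
    (U.neg_mem hz)
  have h1 : ∀ y ∈ U, s y = B x y • e := fun y hy => by
    have := hs.ker _ (hP.symm.sub_mem (P := PQ.ofAlt B hA) (by rwa [inf_comm]) hW hu hx hxu
      hy).1
    rwa [map_sub, map_smul, hsu, sub_eq_zero] at this
  have h2 : ∀ y ∈ W, t y = B u y • z := fun y hy => by
    have := ht.ker _ (hP.sub_mem (P := PQ.ofAlt B hA) hD hU hx (U.neg_mem hu) hux hy).1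
    rw [map_sub, map_smul, htx, sub_eq_zero] at this
    rw [this]
    change B (-u) y • (-z) = _
    simp
  obtain ⟨g, hg, eg⟩ := hs.has
  simp only at eg
  have hg' : ∀ y, g⁻¹ y = y - s y := fun y => g.injective (by
    rw [le_apply_inv, eg, map_sub, hs.sq]; simp)
  have h3 := ht.conj hg
  rw [mem_stab_iff_map.1 (mem_stab_of_maps fun y hy => by
    rw [eg, h1 y hy]; exact U.add_mem hy (U.smul_mem _ he.1))] at h3
  refine (h3.sub ht).has.congr fun y => ?_
  have h4 : B x (t y) = B z y := by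
    have := ht.skew hM hU x y
    change B (t x) y = -B x (t y) at this
    rw [htx, map_neg, LinearMap.neg_apply, neg_inj] at this
    exact this.symm
  have h5 : B u (s y) = -B e y := by
    have := hs.skew hM hW u y
    change B (s u) y = -B u (s y) at this
    rw [← hsu, this, neg_neg]
  rw [LinearMap.sub_apply, cjm_apply, hg', map_sub, eg, map_sub, h2 _ (hs.mem y), h1 _ (ht.mem y),
    map_smul, h1 z hz, h4, h5, alt_eu]
  module

theorem isom_le_Sp (hr : (finrank F K).Prime) (E : Ext (PQ.ofAlt B hA) (PQ.ofAlt b hb) T)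
    (hm : finrank F K < finrank F V)
    (h3 : 3 ≤ finrank K V ∨ 2 < finrank F K ∨ ∃ ν : F, ν ≠ 0 ∧ ν ≠ 1)
    (hM : M ≤ (PQ.ofAlt B hA).Isom) (hK : ∀ g ∈ (PQ.ofAlt b hb).Isom, res g ∈ M)
    {g : V ≃ₗ[F] V} (hg : g ∈ M) (hg' : g ∉ NK F K V) : (PQ.ofAlt B hA).Isom ≤ M := by
  have : FiniteDimensional F K := .of_finrank_pos hr.pos
  have : FiniteDimensional K V := Module.Finite.of_restrictScalars_finite F K V
  have hBK : ∀ x y, B x y = T (b x y) := E.B
  have htv : ∀ d (c : K), ∃ t ∈ M, ∀ y, t y = y + (c * b d y) • d := fun d c => by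
    obtain ⟨t, ht, e⟩ := has_eu_isom (P := PQ.ofAlt b hb) (d := d) (w := 0) (c := c) trivial
      (by simp) trivial
    exact ⟨res t, hK t ht, fun y => by rw [res_apply, e]; simp [alt_eu]⟩
  have htr : ∀ x y : V, x ≠ 0 → y ≠ 0 → ∃ h ∈ (PQ.ofAlt b hb).Isom, h x = y := fun x y hx hy => by
    obtain ⟨h, h1, h2, -⟩ := (PQ.ofAlt b hb).witt_step E.sepK ⊥ (u := x) (v := y) hx hy trivial
      (by simp)
    exact ⟨h, h1, h2⟩
  obtain ⟨d, W, x, hd, hP, hx, hdx⟩ : ∃ d W x, d ≠ 0 ∧ MaxPair K M (fun _ => True) (pt F K d) W ∧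
      x ∈ W ∧ b d x ≠ 0 := by
    obtain ⟨d₀, hd₀, hne⟩ : ∃ d, d ≠ 0 ∧ (pt F K d).map (g : V →ₗ[F] V) ≠ pt F K (g d) := by
      by_contra hc
      push Not at hc
      exact hg' (mem_NK_of_map_pt (exists_notMem_pt hm) hc)
    have hgd : g d₀ ≠ 0 := by simpa using hd₀
    obtain ⟨d, W, hd, -, hP⟩ := exists_maxPair (S := fun _ => True)
      ((good_pt hd₀ trivial).map hg) (good_pt hgd trivial) hne
      (Submodule.ne_bot_iff _ |>.2 ⟨g d₀, ⟨⟨d₀, self_mem_pt _, rfl⟩, self_mem_pt _⟩, hgd⟩)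
    obtain ⟨x, hx, hxU⟩ := hP.exists_right
    obtain ⟨d₁, h1, h2⟩ := exists_B_eq (P := PQ.ofAlt b hb) E.sepK (H := K ∙ d) hxU 1
    change b d₁ x = 1 at h2
    obtain ⟨c, hc⟩ := E.exists_T one_ne_zero 1
    obtain ⟨t, ht, e⟩ := htv d₁ c
    have h4 : B (t x) x ≠ 0 := by
      rw [hBK, e, h2, map_add, map_smul, LinearMap.add_apply, hb, LinearMap.smul_apply, h2,
        zero_add, smul_eq_mul, mul_one, hc]
      exact one_ne_zero
    have hW := hP.right.iso E hM fun d _ => hb d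
    obtain ⟨h5, -⟩ := hP.of_le (hP.right.map ht) hP.right
      (fun h => h4 (hW _ (h ▸ ⟨x, hx, rfl⟩) x hx)) fun z hz =>
        ⟨⟨z, hz.2, by simp [e, show b d₁ z = 0 from h1 z hz.1]⟩, hz.2⟩
    obtain ⟨a, ha, d', hd', -, h6, h7⟩ := h5.exists_pt
    refine ⟨d', _, a x, hd', h7, ⟨x, hx, rfl⟩, fun h => h4 ?_⟩
    have := E.mem_perp_pt.2 h (a (t x)) (h6 ▸ ⟨_, ⟨x, hx, rfl⟩, rfl⟩)
    rwa [(hM ha).1] at this
  have hD := hP.codim_one hr hd ((b d).restrictScalars F) (fun k => by simp [hb]) hx hdx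
    fun k => (htv d k).imp fun t ht => ⟨ht.1, fun y _ => ht.2 y⟩
  obtain ⟨k, hk⟩ := E.exists_T (show b x d ≠ 0 by rw [alt_neg hb]; simpa using hdx) 1
  have hxu : B x (k • d) = 1 := by rw [hBK, map_smul, smul_eq_mul, hk]
  obtain ⟨e, he, he0⟩ := Submodule.exists_mem_ne_zero_of_ne_bot hP.ne_bot
  refine isom_le_of_one E.sep hM (e := e) (fun y hy => ?_) fun c => ?_
  · obtain ⟨h, h1, h2⟩ := htr e y he0 hy
    exact ⟨res h, hK h h1, h2⟩
  have hU := hP.left.iso E hM fun d _ => hb d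
  have hW := hP.right.iso E hM fun d _ => hb d
  by_cases h4 : ∃ e' ∈ pt F K d ⊓ W, e' ≠ 0 ∧ e' ≠ e
  · obtain ⟨e', he', h5, h6⟩ := h4
    obtain ⟨l, rfl⟩ := mem_pt.1 (pt_eq_of_mem he'.1 h5 ▸ he.1 : e ∈ pt F K e')
    have hl0 : l ≠ 0 := by rintro rfl; simp at he0
    have hl1 : 1 - l ≠ 0 := fun h => h6 (by rw [← sub_eq_zero.1 h, one_smul])
    obtain ⟨h, h1, h2⟩ := htr e' _ h5 he0
    have h7 : ∀ y ∈ pt F K d, h y = l • y := fun y hy => by
      obtain ⟨s, rfl⟩ := mem_pt.1 (pt_eq_of_mem he'.1 h5 ▸ hy : y ∈ pt F K e')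
      rw [map_smul, h2, smul_comm]
    have hP' := hP.map (hK h h1)
    have hD' := hD
    rw [← LinearEquiv.finrank_map_eq (res (F := F) h), map_inf_le] at hD'
    rw [mem_stab_iff_map.1 (mem_stab_of_maps fun y hy => by
      rw [res_apply, h7 y hy]; exact smul_mem_pt' _ hy)] at hP' hD'
    set z := ((1 - l)⁻¹ * k) • c • d with hz
    have hzU : z ∈ pt F K d := smul_mem_pt' _ (Submodule.smul_mem _ _ (self_mem_pt d))
    have h8 := has_eu_of_pair E hM hK hP' hD' (x := h x) (u := h (k • d)) ⟨x, hx, rfl⟩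
      (h7 _ (smul_mem_pt k d) ▸ smul_mem_pt' _ (smul_mem_pt k d))
      (((hM (hK h h1)).1 _ _).trans hxu) ⟨he.1, e', he'.2, h2⟩ (smul_mem_pt' l hzU)
    have h9 := has_eu_of_pair E hM hK hP hD hx (smul_mem_pt k d) hxu he (smul_mem_pt' l hzU)
    have h10 := has_eu_sub (hU _ he.1 _ he.1) (hU _ he.1 _ (smul_mem_pt' l hzU))
      (hU _ he.1 _ (smul_mem_pt' l hzU)) h8 h9
    rw [sub_self, add_sub_cancel_right] at h10
    convert h10
    rw [← h7 z hzU, show B (h x) (h z) = B x z from (hM (hK h h1)).1 _ _, h7 z hzU, ← map_sub,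
      show z - l • z = c • k • d by
        rw [hz, ← algebraMap_smul K c, ← algebraMap_smul K c]
        match_scalars; field_simp, map_smul, hxu, smul_eq_mul, mul_one]
  push Not at h4
  have h5 : 3 ≤ finrank K V := by
    rcases h3 with h3 | h3 | ⟨ν, h5, h6⟩
    · exact h3
    · have := Submodule.finrank_mono (show pt F K d ⊓ W ≤ F ∙ e from fun y hy => by
        by_cases h0 : y = 0
        · simp [h0]
        · rw [h4 y hy h0]; exact Submodule.mem_span_singleton_self e)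
      have := finrank_span_singleton_le (F := F) e
      omega
    · have := h4 _ (Submodule.smul_mem _ ν he) (smul_ne_zero h5 he0)
      exact absurd (smul_left_injective F he0 (this.trans (one_smul F e).symm)) h6
  have hpt := pt_eq_of_mem he.1 he0
  have hex : b e x ≠ 0 := fun h => by
    have := E.mem_perp_pt.2 h _ (hpt ▸ smul_mem_pt k d)
    change B _ _ = 0 at this
    rw [alt_neg hA, hxu] at this
    simp at this
  have h6 := has_eu_of_pair E hM hK hP.symm (by rwa [inf_comm]) (x := -(k • d)) (u := x) (e := e)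
    (Submodule.neg_mem _ (smul_mem_pt k d)) hx
    (by rw [map_neg, LinearMap.neg_apply, alt_neg hA, hxu, neg_neg]) ⟨he.2, he.1⟩ hx
  set γ := B (-(k • d)) x
  have h7 : ∀ w, b e w = 0 → Has M (eu (PQ.ofAlt B hA) e (x + w) γ) := fun w hw => by
    obtain ⟨t, ht, et⟩ := has_eu_isom (P := PQ.ofAlt b hb) (d := e) (w := (b e x)⁻¹ • w)
      (c := -b ((b e x)⁻¹ • w) x * (b e x)⁻¹) trivial (by change b e _ = 0; simp [hw]) trivial
    have := has_eu_conj h6 (hK t ht) (hM (hK t ht))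
    rwa [res_apply, res_apply, et, et, eu_fix _ (hb e) (by
      change b _ e = 0; rw [alt_neg hb]; simp [hw]), alt_eu, inv_mul_cancel_right₀ hex,
      add_neg_cancel, zero_smul, add_zero, smul_smul, mul_inv_cancel₀ hex, one_smul] at this
  obtain ⟨w, w', hw, hw', hww'⟩ : ∃ w w', b e w = 0 ∧ b e w' = 0 ∧ b w w' ≠ 0 := by
    by_contra hc
    push Not at hc
    have h8 := two_mul_finrank_le_of_ts (P := PQ.ofAlt b hb) E.sepK
      (W := perp (PQ.ofAlt b hb) (K ∙ e)) fun w hw w' hw' =>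
        hc w w' (mem_perp_singleton.1 hw) (mem_perp_singleton.1 hw')
    have h9 := finrank_le_perp (P := PQ.ofAlt b hb) (K ∙ e)
    have h10 := finrank_span_singleton_le (F := K) e
    omega
  obtain ⟨s, hs⟩ := E.exists_T hww' c
  have hw'' : b e (s • w') = 0 := by simp [hw']
  have hBe : ∀ w, b e w = 0 → B e w = 0 := fun w hw => by rw [hBK, hw, map_zero]
  have hBx : B e x = 0 := hW e he.2 x hx
  have h8 : ∀ w', b e w' = 0 → Has M (eu (PQ.ofAlt B hA) e w (-B w (x + w'))) := fun w' hw' => by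
    have := has_eu_sub (P := PQ.ofAlt B hA) (hA e) (show B e _ = 0 by simp [hBx, hBe, hw, hw'])
      (show B e _ = 0 by simp [hBx, hBe, hw']) (h7 (w' + w) (by simp [hw, hw'])) (h7 w' hw')
    rw [show x + (w' + w) - (x + w') = w by abel] at this
    convert this using 3
    change _ = γ - γ + B _ _ - B _ _
    rw [← add_assoc, map_add B (x + w'), LinearMap.add_apply]; ring
  have h9 := has_eu_sub (P := PQ.ofAlt B hA) (hA e) (hBe w hw) (hBe w hw) (h8 0 (by simp))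
    (h8 _ hw'')
  rw [sub_self, add_sub_cancel_right] at h9
  convert h9
  rw [map_add, map_add, map_zero, hBK w (s • w'), map_smul, smul_eq_mul, hs]; ring

theorem isMaximalIn_Sp [Finite K] (hr : (finrank F K).Prime) (hB : B.SeparatingLeft)
    (hn : 4 < finrank F V ∨ (0 < finrank F V ∧ ∃ ν : F, ν ≠ 0 ∧ ν ≠ 1))
    (h1 : ∀ (k : K) x y, B (k • x) y = B x (k • y)) (h2 : ∀ (k : K) x, B (k • x) x = 0) :
    Geo.IsMaximalIn (PQ.ofAlt B hA).Isom (NK F K V ⊓ (PQ.ofAlt B hA).Isom) := by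
  have : FiniteDimensional F K := .of_finrank_pos hr.pos
  have : FiniteDimensional K V := Module.Finite.of_restrictScalars_finite F K V
  obtain ⟨b, hBb⟩ := exists_form (τ := RingHom.id K) (Algebra.trace F K) nd_trace B h1
  have hb : ∀ x, b x x = 0 := fun x => nd_trace (F := F) _ fun k => by
    rw [mul_comm, ← smul_eq_mul, ← map_smul, ← hBb, ← h1, h2]
  have E : Ext (PQ.ofAlt B hA) (PQ.ofAlt b hb) (Algebra.trace F K) := ⟨nd_trace, hBb, hB⟩
  obtain ⟨u, -, hu⟩ := exists_ne_zero_mem (X := (⊤ : Submodule F V)) (by rw [finrank_top]; omega)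
  obtain ⟨y, hy⟩ : ∃ y, b u y ≠ 0 := by
    by_contra hc
    push Not at hc
    exact hu (E.sepK u hc)
  have hm : finrank F K < finrank F V := by
    rw [← finrank_pt hu]
    refine Submodule.finrank_lt fun h => hy ?_
    obtain ⟨k, rfl⟩ := mem_pt.1 (h ▸ Submodule.mem_top : y ∈ pt F K u)
    simp [hb]
  obtain ⟨g, hg, e⟩ := has_eu_isom (P := PQ.ofAlt B hA) (d := u) (w := 0) (c := 1) trivial
    (by simp) trivial
  have hg' : g ∉ NK F K V := not_mem_NK_of_transv hr.one_lt hm hu (φ := B u) (by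
    by_contra hc
    push Not at hc
    exact hu (hB u hc)) (hA u) fun x => by simp [e, alt_eu]
  refine isMaximalIn_of inf_le_right (fun h => hg' (h hg).1) fun M h4 h5 ⟨g, h6, h7⟩ =>
    isom_le_Sp hr E hm ?_ h5 (fun a ha => h4 ⟨res_mem_NK a, PQ.mem_isom_ofAlt.2 fun x y => ?_⟩) h6
      fun h => h7 ⟨h, h5 h6⟩
  · rcases hn with hn | hn
    · have h8 := Module.finrank_mul_finrank F K V
      by_contra hc
      push Not at hc
      have := Nat.mul_le_mul hc.2.1 (Nat.lt_succ_iff.1 hc.1)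
      omega
    · exact Or.inr (Or.inr hn.2)
  · rw [hBb, hBb]; exact congrArg _ (ha.1 x y)

open Matrix in
theorem fieldSub_Sp {F : Type*} [Field F] [Finite F] {m r : ℕ} (hr : r.Prime)
    (hm : 3 ≤ m ∨ (1 ≤ m ∧ ∃ ν : F, ν ≠ 0 ∧ ν ≠ 1))
    {K : Subalgebra F (Matrix (Fin m ⊕ Fin m) (Fin m ⊕ Fin m) F)} (hK : Geo.IsFieldSubalgebra r K)
    (hsa : Geo.IsSelfAdjointFor (sympForm m F) K)
    (halt : ∀ k ∈ K, ∀ v, sympForm m F (k *ᵥ v) v = 0) :
    Geo.IsMaximalIn (spGL m F) (Geo.subalgebraNormalizer K ⊓ spGL m F) := by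
  have : Nonempty (Fin m ⊕ Fin m) := ⟨Sum.inl ⟨0, by omega⟩⟩
  refine fieldSub_elim hK fun E _ _ _ _ _ hE h1 h2 e => ?_
  rw [e, spGL_eq', ← pull_inf]
  refine isMaximalIn_pull (isMaximalIn_Sp (hE ▸ hr) (spP_nd m) ?_ (fun k x y => ?_) fun k x => ?_)
  · rw [finrank_sp]
    exact hm.imp (fun h => by omega) fun h => ⟨by omega, h.2⟩
  · obtain ⟨a, ha, h3⟩ := h2 k
    rw [← h3, ← h3]
    exact (spP_B _ _).trans ((hsa a ha x y).trans (spP_B _ _).symm)
  · obtain ⟨a, ha, h3⟩ := h2 k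
    rw [← h3]
    exact (spP_B _ _).trans (halt a ha x)

end H21
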