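import Mathlib
import Cfsg.Agent.Base
import Cfsg.Agent.Lib.ExtFld.Sp

/-!
Maximality of the unitary group over a quadratic extension in the symplectic group, odd
characteristic.
-/

set_option autoImplicit false
set_option linter.unusedSectionVars false

namespace H21

open Module Cfsg H97 H28

variable {F K V : Type*} [Field F] [Field K] [Algebra F K] [AddCommGroup V] [Module F V]
  [Module K V] [IsScalarTower F K V] {τ : K →+* K} {Pk : PQ K V τ} {T : K →ₗ[F] F}
  {M : Subgroup (V ≃ₗ[F] V)} {P : PQ F V (RingHom.id F)} {S : V → Prop} [FiniteDimensional F V]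

theorem InT.ker_perp {σ : F →+* F} {P : PQ F V σ} (hP : P.B.SeparatingLeft) (hM : M ≤ P.Isom)
    {W : Submodule F V} {ρ : V →ₗ[F] V} (h : InT M W ρ) (hW : ∀ u ∈ W, ∀ w ∈ W, P.B u w = 0)
    {z : V} (hz : z ∈ perp P W) : ρ z = 0 :=
  hP _ fun y => by rw [h.skew hM hW, mem_perp'.1 hz _ (h.mem y), neg_zero]

/-- Conjugation by an element inducing a transvection on `U`. -/
theorem InT.conj_transv (hP : P.B.SeparatingLeft) (hM : M ≤ P.Isom) {U : Submodule F V}
    {ρ : V →ₗ[F] V} (h : InT M U ρ) (hU : ∀ u ∈ U, ∀ w ∈ U, P.B u w = 0) {s : V ≃ₗ[F] V}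
    (hs : s ∈ M) {e n : V} (he : e ∈ U) (h1 : ∀ w ∈ U, s w = w + P.B w n • e) :
    InT M U (cjm s ρ) ∧
      ∀ y, cjm s ρ y = ρ y + P.B e y • ρ n + P.B (ρ y + P.B e y • ρ n) n • e := by
  have h2 := h.conj hs
  rw [mem_stab_iff_map.1 (mem_stab_of_maps fun y hy => by
    rw [h1 y hy]; exact U.add_mem hy (U.smul_mem _ he))] at h2
  refine ⟨h2, fun y => ?_⟩
  have h3 := h.ker_perp hP hM hU (z := s⁻¹ y - (y + P.B e y • n)) fun w hw => by
    rw [map_sub, ← (hM hs).1, le_apply_inv, h1 w hw]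
    simp [mul_comm]
  rw [map_sub, sub_eq_zero, map_add, map_smul] at h3
  rw [cjm_apply, h1 _ (h.mem _), h3]

theorem inv_transv {U : Submodule F V} {s : V ≃ₗ[F] V} {e n : V} (he : e ∈ U) (hen : P.B e n = 0)
    (h1 : ∀ w ∈ U, s w = w + P.B w n • e) : ∀ w ∈ U, s⁻¹ w = w + P.B w (-n) • e :=
  fun w hw => s.injective (by
    rw [le_apply_inv, map_add, map_smul, h1 w hw, h1 e he, hen]; simp)

theorem MaxPair.codim_of_two (hr : finrank F K = 2) {U W : Submodule F V}
    (h : MaxPair K M S U W) : finrank F ↥(U ⊓ W) + 1 = finrank F K := by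
  obtain ⟨u, hu, hu'⟩ := h.exists_left
  have h1 := Submodule.finrank_lt_finrank_of_lt (lt_of_le_of_ne (inf_le_left : U ⊓ W ≤ U)
    fun e => hu' (inf_eq_left.1 e hu))
  have h2 : finrank F ↥(U ⊓ W) ≠ 0 := fun e => h.ne_bot (Submodule.finrank_eq_zero.1 e)
  have h3 := h.left.finrank_eq
  omega

theorem MaxPair.inf_eq_span (hr : finrank F K = 2) {U W : Submodule F V}
    (h : MaxPair K M S U W) {e : V} (he : e ∈ U ⊓ W) (he0 : e ≠ 0) : U ⊓ W = F ∙ e := by
  have h1 := h.codim_of_two hr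
  exact (Submodule.eq_of_le_of_finrank_eq ((Submodule.span_singleton_le_iff_mem _ _).2 he)
    (by rw [finrank_span_singleton he0]; omega)).symm

variable {B : LinearMap.BilinForm F V} {hA : ∀ x, B x x = 0}

theorem isom_le_USp [Finite K] (hr : finrank F K = 2) (h2 : (2 : K) ≠ 0) (hττ : ∀ k, τ (τ k) = k)
    (hfix : ∀ a, τ (algebraMap F K a) = algebraMap F K a) {hc : (2⁻¹ : K) + τ 2⁻¹ = 1}
    {b : V →ₛₗ[τ] V →ₗ[K] K} {hS : ∀ x y, τ (b x y) = b y x}
    (E : Ext (PQ.ofAlt B hA) (PQ.ofHerm hττ 2⁻¹ hc b hS) T) {δ : K} (hδ : τ δ = -δ)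
    (hTδ : T δ ≠ 0) (hT : ∀ k, τ k = k → T k = 0) (h3 : 3 ≤ finrank K V)
    (hM : M ≤ (PQ.ofAlt B hA).Isom) (hK : ∀ g ∈ (PQ.ofHerm hττ 2⁻¹ hc b hS).Isom, res g ∈ M)
    {g : V ≃ₗ[F] V} (hg : g ∈ M) (hg' : g ∉ NK F K V) : (PQ.ofAlt B hA).Isom ≤ M := by
  have : FiniteDimensional F K := .of_finrank_pos (by omega)
  have : FiniteDimensional K V := Module.Finite.of_restrictScalars_finite F K V
  set P := PQ.ofAlt B hA with hP
  set Pk := PQ.ofHerm hττ 2⁻¹ hc b hS with hPk
  have hδ0 : δ ≠ 0 := by rintro rfl; simp at hTδ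
  have hδδ : τ δ ≠ δ := fun h => hTδ (hT δ h)
  have hiso : IsoK Pk 2 := isoK_herm fun h => hδδ (by rw [h]; rfl)
  have hBK : ∀ x y, B x y = T (b x y) := E.B
  have hε : Pk.ε = 1 := rfl
  have hkB : Pk.B = b := rfl
  have hq : ∀ w, τ (Pk.q w) = Pk.q w := fun w => by
    change τ (2⁻¹ * b w w) = 2⁻¹ * b w w
    rw [map_mul, hS, map_inv₀, map_ofNat]
  have hs : ∀ d, Pk.q d ∈ Pk.Λ ↔ b d d = 0 := fun d => PQ.ofHerm_q_mem
  have hiso' : ∀ {W}, Good K M (fun d => Pk.q d ∈ Pk.Λ) W → ∀ u ∈ W, ∀ w ∈ W, B u w = 0 :=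
    fun h => h.iso E hM fun d hd => (hs d).1 hd
  have htr : ∀ x y : V, x ≠ 0 → y ≠ 0 → Pk.q x - Pk.q y ∈ Pk.Λ → ∃ h ∈ Pk.Isom, h y = x :=
    fun x y hx hy h => by
      obtain ⟨h, h1, h2, -⟩ := Pk.witt_step E.sepK ⊥ (u := y) (v := x) hy hx h (by simp)
      exact ⟨h, h1, h2⟩
  -- two conjugates meet
  obtain ⟨d, W, hd0, hd, hP⟩ : ∃ d W, d ≠ 0 ∧ Pk.q d ∈ Pk.Λ ∧
      MaxPair K M (fun d => Pk.q d ∈ Pk.Λ) (pt F K d) W := by
    obtain ⟨d, hd0, hd, hne⟩ : ∃ d, d ≠ 0 ∧ Pk.q d ∈ Pk.Λ ∧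
        (pt F K d).map (g : V →ₗ[F] V) ≠ pt F K (g d) := by
      by_contra hc
      push Not at hc
      exact hg' (mem_NK_of_map_sing (by omega) hiso E.sepK (by omega) h3 hc)
    have hgd : g d ≠ 0 := by simpa using hd0
    have hW := (good_pt (K := K) (M := M) (S := fun d => Pk.q d ∈ Pk.Λ) hd0 hd).map hg
    have hv : g d ∈ (pt F K d).map (g : V →ₗ[F] V) := ⟨d, self_mem_pt _, rfl⟩
    by_cases h4 : b (g d) (g d) = 0
    · exact exists_maxPair hW (good_pt hgd ((hs _).2 h4)) hne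
        (Submodule.ne_bot_iff _ |>.2 ⟨g d, ⟨hv, self_mem_pt _⟩, hgd⟩)
    set v := g d
    set W := (pt F K d).map (g : V →ₗ[F] V)
    have h5 : 1 + δ ≠ 0 := fun h => hδδ (by rw [show δ = -1 by linear_combination h]; simp)
    have h6 : 1 - δ ≠ 0 := fun h => hδδ (by rw [show δ = 1 by linear_combination -h]; simp)
    set s := (1 + δ) / (1 - δ) with hsdef
    have h7 : τ s = (1 - δ) / (1 + δ) := by simp [hsdef, hδ, sub_eq_add_neg]
    have h8 : τ s * s = 1 := by rw [h7, hsdef]; field_simp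
    have h9 : τ s ≠ s := fun h => by
      rw [h7, hsdef, div_eq_div_iff h5 h6] at h
      exact mul_ne_zero (mul_ne_zero h2 h2) hδ0 (by linear_combination -h)
    let f : V →ₗ[K] V := s • LinearMap.id + (b v).smulRight (((1 - s) / b v v) • v)
    have hf : ∀ y, f y = s • y + (b v y * ((1 - s) / b v v)) • v := fun y => by
      simp [f, smul_smul]
    have hfb : ∀ x y, b (f x) (f y) = b x y := fun x y => by
      simp only [hf, map_add, map_smul, LinearMap.map_smulₛₗ, LinearMap.add_apply,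
        LinearMap.smul_apply, smul_eq_mul, map_mul, map_div₀, map_sub, map_one, hS]
      field_simp
      linear_combination (b x y * b v v - b v y * b x v) * h8
    obtain ⟨t, ht, et⟩ := Pk.exists_isom_of_linear E.sepK f hfb fun x =>
      PQ.ofHerm_q_sub.2 (hfb x x)
    have htv : t v = v := by rw [et, hf]; match_scalars; field_simp; ring
    refine exists_maxPair (hW.map (hK t ht)) hW (fun h => ?_)
      (Submodule.ne_bot_iff _ |>.2 ⟨v, ⟨⟨v, hv, htv⟩, hv⟩, hgd⟩)
    obtain ⟨v', hv', hv''⟩ : ∃ v' ∈ W, v' ∉ pt F K v := by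
      by_contra hc
      push Not at hc
      exact hne (Submodule.eq_of_le_of_finrank_eq hc (by rw [hW.finrank_eq, finrank_pt hgd]))
    obtain ⟨a, ha⟩ := exists_sub_smul_mem ((Submodule.span_singleton_le_iff_mem _ _).2 hv)
      (by rw [finrank_span_singleton hgd, hW.finrank_eq, hr]) hv'
      (fun h => hv'' ((Submodule.span_singleton_le_iff_mem _ _).2 (self_mem_pt v) h))
      (h ▸ ⟨v', hv', rfl⟩ : t v' ∈ W)
    have h10 : s - algebraMap F K a ≠ 0 := fun h => h9 (by rw [sub_eq_zero.1 h, hfix])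
    have h11 := (pt F K v).sub_mem
      ((Submodule.span_singleton_le_iff_mem _ _).2 (self_mem_pt v) ha)
      (smul_mem_pt (b v v' * ((1 - s) / b v v)) v)
    rw [et, hf, ← algebraMap_smul K a, show ∀ z : V, s • v' + z - algebraMap F K a • v' - z =
      (s - algebraMap F K a) • v' from fun z => by module] at h11
    exact hv'' (by simpa [h10] using smul_mem_pt' (s - algebraMap F K a)⁻¹ h11)
  -- a perpendicular pair
  obtain ⟨e, W, x, he0, he, hP, heW, hx, hxU, hex⟩ : ∃ e W x, e ≠ 0 ∧ Pk.q e ∈ Pk.Λ ∧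
      MaxPair K M (fun d => Pk.q d ∈ Pk.Λ) (pt F K e) W ∧ e ∈ W ∧ x ∈ W ∧ x ∉ pt F K e ∧
      b e x = 0 := by
    have red : ∀ d W x, Pk.q d ∈ Pk.Λ → MaxPair K M (fun d => Pk.q d ∈ Pk.Λ) (pt F K d) W →
        ∃ e, e ≠ 0 ∧ Pk.q e ∈ Pk.Λ ∧ e ∈ W ∧ pt F K e = pt F K d ∧ (b d x = 0 → b e x = 0) := by
      intro d W x hd hP
      obtain ⟨e, he, he0⟩ := Submodule.exists_mem_ne_zero_of_ne_bot hP.ne_bot
      obtain ⟨k, rfl⟩ := mem_pt.1 he.1
      exact ⟨_, he0, Pk.q_smul_mem hd k, he.2, pt_eq_of_mem he.1 he0, fun h => by simp [h]⟩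
    obtain ⟨x, hx, hxU⟩ := hP.exists_right
    obtain ⟨e, he0, he, heW, hpt, -⟩ := red d W x hd hP
    rw [← hpt] at hP hxU
    by_cases hex : b e x = 0
    · exact ⟨e, W, x, he0, he, hP, heW, hx, hxU, hex⟩
    have hD := hP.inf_eq_span hr ⟨self_mem_pt e, heW⟩ he0
    have h4 := finrank_le_perp (P := Pk) (Submodule.span K {e, x})
    have h5 := finrank_span_pair_le (F := K) e x
    obtain ⟨w, hw, hw0⟩ := exists_ne_zero_mem (X := perp Pk (Submodule.span K {e, x})) (by omega)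
    have hew : b e w = 0 := mem_perp_span.1 hw e (by simp)
    have hxw : b x w = 0 := mem_perp_span.1 hw x (by simp)
    obtain ⟨t, ht, et⟩ := has_eu_isom he hew (c := Pk.q w) (by simp)
    have hee := (hs e).1 he
    have hte : t e = e := by rw [et, eu_fix _ hee (Pk.eq_zero_symm hew)]
    have htx : t x = x - (Pk.q w * b e x) • e - b e x • w := by
      rw [et, eu_apply, Pk.eq_zero_symm hxw, hε, hkB]; module
    have h6 : t x ∉ W := fun h => by
      obtain ⟨a, ha⟩ := exists_sub_smul_mem (inf_le_right : pt F K e ⊓ W ≤ W)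
        (by rw [hP.codim_of_two hr, hP.right.finrank_eq]) hx (fun h => hxU h.1) h
      obtain ⟨k, hk⟩ := mem_pt.1 ha.1
      rw [htx, ← algebraMap_smul K a] at hk
      have h7 := congrArg (b e) hk
      simp only [map_sub, map_smul, hee, hew, smul_eq_mul, mul_zero, sub_zero] at h7
      have h8 : algebraMap F K a = 1 := mul_right_cancel₀ hex (by linear_combination h7)
      have h9 : b e x • w = (-(Pk.q w * b e x) - k) • e := by
        rw [h8] at hk; linear_combination (norm := module) hk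
      have h10 := congrArg (b x) h9
      simp only [map_smul, hxw, smul_eq_mul, mul_zero] at h10
      rw [(mul_eq_zero.1 h10.symm).resolve_right (B_ne_zero_symm (P := Pk) hex), zero_smul] at h9
      exact smul_ne_zero hex hw0 h9
    obtain ⟨h7, -⟩ := hP.of_le hP.right (hP.right.map (hK t ht))
      (fun h => h6 (h ▸ ⟨x, hx, rfl⟩)) (by
        rw [hD, Submodule.span_singleton_le_iff_mem]
        exact ⟨heW, e, heW, hte⟩)
    have h8 : ∀ y ∈ W, B y (t x) = 0 := fun y hy => by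
      obtain ⟨a, ha⟩ := exists_sub_smul_mem (inf_le_right : pt F K e ⊓ W ≤ W)
        (by rw [hP.codim_of_two hr, hP.right.finrank_eq]) hx (fun h => hxU h.1) hy
      rw [hD] at ha
      obtain ⟨a', ha'⟩ := Submodule.mem_span_singleton.1 ha
      have h9 : B e (t x) = 0 := by
        conv_lhs => rw [← hte]
        exact ((hM (hK t ht)).1 e x).trans (hiso' hP.right e heW x hx)
      have h10 : B x (t x) = 0 := by
        rw [hBK, htx]
        refine hT _ ?_
        simp only [map_sub, map_smul, smul_eq_mul, map_mul, hS, hq, hxw, mul_zero, map_zero]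
        ring
      rw [show y = a' • e + a • x by rw [ha']; abel]
      simp [h9, h10]
    obtain ⟨a, ha, d', -, hd', h9, h10⟩ := h7.exists_pt
    obtain ⟨e', h11, h12, h13, h14, h15⟩ := red d' _ (a (t x)) hd' h10
    refine ⟨e', _, a (t x), h11, h12, h14 ▸ h10, h13, ⟨_, ⟨x, hx, rfl⟩, rfl⟩, fun h => h6 ?_,
      h15 (E.mem_perp_pt.1 ?_)⟩
    · rwa [h14, ← h9, mem_map_le] at h
    · rw [← h9]
      rintro _ ⟨y, hy, rfl⟩
      exact ((hM ha).1 _ _).trans (h8 y hy)
  -- a transvection group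
  have key : ∀ c, Has M (eu P e 0 c) := by
    have hD := hP.inf_eq_span hr ⟨self_mem_pt e, heW⟩ he0
    have hW := hiso' hP.right
    obtain ⟨w, hw, hwx⟩ := exists_B_eq (P := Pk) E.sepK (H := K ∙ e) hxU 1
    have hwe := hw e (Submodule.mem_span_singleton_self e)
    obtain ⟨s, hs', es⟩ := has_eu_isom he (Pk.eq_zero_symm hwe) (c := Pk.q w) (by simp)
    obtain ⟨n, hn, hxn⟩ := exists_B_eq' (P := P) E.sep (H := F ∙ e) (u := x)
      (fun h => hxU ((Submodule.span_singleton_le_iff_mem _ _).2 (self_mem_pt e) h)) 1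
    have hen := hn e (Submodule.mem_span_singleton_self e)
    have h4 : ∀ y ∈ W, res s y = y + P.B y n • e := fun y hy => by
      obtain ⟨a, ha⟩ := exists_sub_smul_mem (inf_le_right : pt F K e ⊓ W ≤ W)
        (by rw [hP.codim_of_two hr, hP.right.finrank_eq]) hx (fun h => hxU h.1) hy
      rw [hD] at ha
      obtain ⟨a', ha'⟩ := Submodule.mem_span_singleton.1 ha
      have h5 : res (F := F) s e = e := by rw [res_apply, es, eu_fix _ ((hs e).1 he) hwe]
      have h6 : res (F := F) s x = x + e := by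
        rw [res_apply, es, eu_apply, hwx, hkB, hex]; simp
      rw [show y = a' • e + a • x by rw [ha']; abel]
      rw [map_add, map_smul, map_smul, h5, h6, map_add, LinearMap.add_apply, B_smul_left,
        B_smul_left, hen, hxn]
      simp only [RingHom.id_apply]
      module
    obtain ⟨ρ, hρ, hρn⟩ : ∃ ρ : V →ₗ[F] V, (∀ a : F, InT M W (a • ρ)) ∧ B (ρ n) n ≠ 0 := by
      obtain ⟨g, hg, d, -, hd, rfl⟩ := hP.right
      have h5 : b d (g⁻¹ n) ≠ 0 := fun h => by
        have := E.mem_perp_pt.2 h _ (mem_map_le'.1 hx)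
        rw [(P.Isom.inv_mem (hM hg)).1, hxn] at this
        exact one_ne_zero this
      refine ⟨cjm g (ktv (b d) (δ • d)), fun a => ?_, ?_⟩
      · have h6 : InT M (pt F K d) (a • ktv (b d) (δ • d)) := by
          refine ⟨(Has.res (has_eu_isom hd (w := 0) (c := -(algebraMap F K a * δ)) (by simp)
            (Pk.Λ.sub_mem ?_ Pk.q_zero)) hK).congr fun y => ?_, fun y => ?_, fun u hu => ?_⟩
          · change _ + _ = _
            simp [hfix, hδ]
          · rw [eu_apply, LinearMap.smul_apply, ktv_apply, ← algebraMap_smul K a, hε, hkB]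
            simp only [map_zero, LinearMap.zero_apply]
            module
          · exact Submodule.smul_mem _ _ (smul_mem_pt' _ (smul_mem_pt _ _))
          · obtain ⟨k, rfl⟩ := mem_pt.1 hu
            simp [ktv_apply, (hs d).1 hd]
        convert h6.conj hg using 1
        ext y; simp [cjm_apply]
      · rw [cjm_apply, show ∀ z, B (g z) n = B z (g⁻¹ n) from fun z => by
          conv_lhs => rw [← le_apply_inv g n]
          exact (hM hg).1 _ _, hBK, ktv_apply, smul_smul, LinearMap.map_smulₛₗ₂, smul_eq_mul,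
          map_mul τ, hδ]
        intro h
        obtain ⟨a, ha⟩ := exists_smul_of_T hr E.nd one_ne_zero (hT 1 (map_one τ))
          (hT (τ (b d (g⁻¹ n)) * b d (g⁻¹ n)) (by rw [map_mul, hττ, mul_comm]))
        rw [show τ (b d (g⁻¹ n)) * -δ * b d (g⁻¹ n) = (-a) • δ by
          rw [Algebra.smul_def, map_neg]; linear_combination (-δ) * ha, map_smul, smul_eq_mul,
          mul_eq_zero, neg_eq_zero] at h
        rw [h.resolve_right hTδ, map_zero, zero_mul] at ha
        exact mul_ne_zero (by simpa using h5) h5 ha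
    intro c
    have h2' : (2 : F) ≠ 0 := fun h => h2 (by rw [← map_ofNat (algebraMap F K), h, map_zero])
    have h5 := hρ (c / (2 * B (ρ n) n))
    obtain ⟨h6, h7⟩ := h5.conj_transv E.sep hM hW (hK s hs') heW h4
    obtain ⟨h8, h9⟩ := h5.conj_transv E.sep hM hW (M.inv_mem (hK s hs')) heW
      (inv_transv heW hen h4)
    refine (((h6.add h8).sub h5).sub h5).has.congr fun y => ?_
    rw [LinearMap.sub_apply, LinearMap.sub_apply, LinearMap.add_apply, h7, h9, alt_eu]
    simp only [show P.B = B from rfl, map_add, map_neg, map_smul, LinearMap.smul_apply,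
      LinearMap.add_apply, LinearMap.neg_apply, smul_eq_mul, map_zero, LinearMap.zero_apply]
    match_scalars <;> field_simp <;> ring
  refine isom_le_of_one E.sep hM (fun y hy => ?_) key
  obtain ⟨f, hf, hfe, -⟩ := Pk.exists_partner E.sepK ⊥ he0 he (by simp)
  set a := Pk.q y + δ with ha
  have h4 : B f (a • e) ≠ 0 := by
    rw [hBK, map_smul, ← hkB, hfe, smul_eq_mul, mul_one, ha, map_add, hT _ (hq y), zero_add]
    exact hTδ
  have h5 : B (a • e) f ≠ 0 := B_ne_zero_symm (P := P) h4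
  obtain ⟨h₁, h6, h7⟩ := htr (a • e) e (fun h => h4 (by simp [h])) he0
    (Pk.Λ.sub_mem (Pk.q_smul_mem he a) he)
  obtain ⟨h₂, h8, h9⟩ := htr f e (fun h => h4 (by simp [h])) he0 (Pk.Λ.sub_mem hf he)
  obtain ⟨h₃, h10, h11⟩ := htr y (f + a • e) hy (pair_ne_zero he hfe a) (by
    have h10 : δ ∈ Pk.Λ := by change _ + _ = _; simp [hδ]
    have := Pk.Λ.neg_mem (Pk.Λ.add_mem (q_pair hf he hfe a) h10)
    convert this using 1
    rw [ha]; ring)
  obtain ⟨t, ht, et⟩ := has_eu_conj (key (B (a • e) f)⁻¹) (hK _ h6) (hM (hK _ h6))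
  refine ⟨res h₃ * t * res h₂, M.mul_mem (M.mul_mem (hK _ h10) ht) (hK _ h8), ?_⟩
  rw [le_mul_apply, le_mul_apply, res_apply, res_apply, h9, et, res_apply, h7, alt_eu, ← h11]
  simp [h5]

theorem isMaximalIn_USp [Finite K] (hr : finrank F K = 2) (h2 : (2 : F) ≠ 0)
    (hB : B.SeparatingLeft) (hn : 6 ≤ finrank F V)
    (h1 : ∀ k : K, ∃ k' : K, ∀ x y, B (k • x) y = B x (k' • y))
    (h3 : ¬ ∀ (k : K) x y, B (k • x) y = B x (k • y)) :
    Geo.IsMaximalIn (PQ.ofAlt B hA).Isom (NK F K V ⊓ (PQ.ofAlt B hA).Isom) := by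
  have : FiniteDimensional F K := .of_finrank_pos (by omega)
  have : FiniteDimensional K V := Module.Finite.of_restrictScalars_finite F K V
  have h2' : (2 : K) ≠ 0 := by rw [← map_ofNat (algebraMap F K)]; simpa using h2
  obtain ⟨u, -, hu⟩ := exists_ne_zero_mem (X := (⊤ : Submodule F V)) (by rw [finrank_top]; omega)
  obtain ⟨τ, t1, t2, t3⟩ := exists_adjoint (P := PQ.ofAlt B hA) hB hu h1
  obtain ⟨T, I⟩ := exists_invol (hr ▸ Nat.prime_two) t2 t3 fun h => h3 fun k x y => by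
    have := t1 k x y
    rwa [h] at this
  obtain ⟨b, hb⟩ := exists_form T I.nd (PQ.ofAlt B hA).B t1
  obtain ⟨l, hl⟩ : ∃ l, τ l ≠ l := by
    by_contra hc
    push Not at hc
    exact I.ne (RingHom.ext hc)
  set δ := l - τ l with hδdef
  have hδ : τ δ = -δ := by simp [hδdef, t2]
  have hδ0 : δ ≠ 0 := sub_ne_zero.2 hl.symm
  let b' : V →ₛₗ[τ] V →ₗ[K] K := δ⁻¹ • b
  have hb' : ∀ x y, b' x y = δ⁻¹ * b x y := fun _ _ => rfl
  have hS : ∀ x y, τ (b' x y) = b' y x := fun x y => by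
    rw [hb', hb', form_symm I.nd I.T_τ t2 hb x y, show (PQ.ofAlt B hA).ε = -1 from rfl, map_mul,
      map_inv₀, hδ]
    simp
  have hc : (2⁻¹ : K) + τ 2⁻¹ = 1 := by rw [map_inv₀, map_ofNat]; field_simp; norm_num
  let T' : K →ₗ[F] F := T ∘ₗ LinearMap.mulLeft F δ
  have hT' : ∀ k, T' k = T (δ * k) := fun _ => rfl
  have hi := (algebraMap F K).injective
  have hBb : ∀ x y, B x y = T' (b' x y) := fun x y => by
    rw [hT', hb', mul_inv_cancel_left₀ hδ0]; exact hb x y
  have E : Ext (PQ.ofAlt B hA) (PQ.ofHerm t2 2⁻¹ hc b' hS) T' :=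
    ⟨fun k hk => (mul_eq_zero.1 (I.nd (δ * k) fun k' => by
      rw [mul_assoc]; exact hk k')).resolve_left hδ0, hBb, hB⟩
  have hm := Module.finrank_mul_finrank F K V
  rw [hr] at hm
  obtain ⟨g, hg, e⟩ := has_eu_isom (P := PQ.ofAlt B hA) (d := u) (w := 0) (c := 1) trivial
    (by simp) trivial
  have hg' : g ∉ NK F K V := not_mem_NK_of_transv (by omega) (by omega) hu (φ := B u) (by
    by_contra hc
    push Not at hc
    exact hu (hB u hc)) (hA u) fun x => by simp [e, alt_eu]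
  refine isMaximalIn_of inf_le_right (fun h => hg' (h hg).1) fun M h4 h5 ⟨g, h6, h7⟩ =>
    isom_le_USp hr h2' t2 t3 E hδ (fun h => ?_) (fun k hk => hi ?_) (by omega) h5
      (fun a ha => h4 ⟨res_mem_NK a, PQ.mem_isom_ofAlt.2 fun x y => ?_⟩) h6 fun h => h7 ⟨h, h5 h6⟩
  · have := I.tr (δ * δ)
    rw [← hT', h, map_zero, map_mul, hδ] at this
    exact mul_ne_zero h2' (mul_ne_zero hδ0 hδ0) (by linear_combination -this)
  · rw [hT', I.tr, map_mul, hδ, hk, map_zero]; ring
  · rw [hBb, hBb]; exact congrArg _ (ha.1 x y)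

open Matrix in
theorem fieldSub_USp {F : Type*} [Field F] [Fintype F] {m : ℕ} (hm : 3 ≤ m)
    (hodd : Odd (Fintype.card F))
    {K : Subalgebra F (Matrix (Fin m ⊕ Fin m) (Fin m ⊕ Fin m) F)} (hK : Geo.IsFieldSubalgebra 2 K)
    (hac : Geo.IsAdjointClosedFor (sympForm m F) K)
    (hnsa : ¬ Geo.IsSelfAdjointFor (sympForm m F) K) :
    Geo.IsMaximalIn (spGL m F) (Geo.subalgebraNormalizer K ⊓ spGL m F) := by
  have : Nonempty (Fin m ⊕ Fin m) := ⟨Sum.inl ⟨0, by omega⟩⟩
  refine fieldSub_elim hK fun E _ _ _ _ _ hE h1 h2 e => ?_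
  rw [e, spGL_eq', ← pull_inf]
  refine isMaximalIn_pull (isMaximalIn_USp hE (two_ne_zero_of_odd hodd) (spP_nd m)
    (by rw [finrank_sp]; omega) (fun k => ?_) fun h => hnsa fun k hk x y => ?_)
  · obtain ⟨a, ha, h3⟩ := h2 k
    obtain ⟨a', ha', h4⟩ := hac a ha
    obtain ⟨k', h5⟩ := h1 a' ha'
    refine ⟨k', fun x y => ?_⟩
    rw [← h3, ← h5]
    exact (spP_B _ _).trans ((h4 x y).trans (spP_B _ _).symm)
  · obtain ⟨k', h5⟩ := h1 k hk
    rw [h5, h5]
    exact (spP_B _ _).symm.trans ((h k' x y).trans (spP_B _ _))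

end H21
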