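import Mathlib
import Cfsg.Agent.Base
import Cfsg.Agent.Lib.ExtFld.USp

/-!
Transvections induced on a totally singular subspace, and the root elements they produce.
-/

set_option autoImplicit false
set_option linter.unusedSectionVars false

namespace H21

open Module Cfsg H97 H28

variable {F K V : Type*} [Field F] [Field K] [Algebra F K] [AddCommGroup V] [Module F V]
  [Module K V] [IsScalarTower F K V] {τ : K →+* K} {Pk : PQ K V τ} {T : K →ₗ[F] F} {σ : F →+* F}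
  {M : Subgroup (V ≃ₗ[F] V)} {P : PQ F V σ} {S : V → Prop} [FiniteDimensional F V]

variable (P M) in
/-- `M` induces on `U` all transvections whose axis is the perp of `n`. -/
def TV (U : Submodule F V) (n : V) : Prop :=
  ∀ e ∈ U, P.B n e = 0 → ∃ s ∈ M, ∀ w ∈ U, s w = w + P.B n w • e

variable {U : Submodule F V}

theorem TV.congr {n n' : V} (h : TV M P U n) (hn : ∀ w ∈ U, P.B n' w = P.B n w) : TV M P U n' :=
  fun e he h0 => by
    obtain ⟨s, hs, es⟩ := h e he (hn e he ▸ h0)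
    exact ⟨s, hs, fun w hw => by rw [es w hw, hn w hw]⟩

theorem tv_of_perp {n : V} (h : ∀ w ∈ U, P.B n w = 0) : TV M P U n :=
  fun _ _ _ => ⟨1, M.one_mem, fun w hw => by simp [h w hw]⟩

theorem TV.smul {n : V} (h : TV M P U n) (a : F) : TV M P U (a • n) := fun e he h0 => by
  by_cases ha : a = 0
  · exact ⟨1, M.one_mem, fun w hw => by simp [ha]⟩
  rw [B_smul_left, mul_eq_zero, map_eq_zero] at h0
  obtain ⟨s, hs, es⟩ := h (σ a • e) (U.smul_mem _ he) (by simp [h0.resolve_left ha])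
  exact ⟨s, hs, fun w hw => by rw [es w hw, B_smul_left, smul_smul, mul_comm]⟩

theorem TV.apply {n : V} (h : TV M P U n) {g : V ≃ₗ[F] V} (hg : g ∈ M) (hg' : g ∈ P.Isom)
    (hU : ∀ w ∈ U, g w ∈ U) : TV M P U (g n) := fun e he h0 => by
  have hU' : ∀ w ∈ U, g⁻¹ w ∈ U := fun w hw =>
    (mem_stab.1 (mem_stab_of_maps hU) _).2 (by rwa [le_apply_inv])
  have h1 : ∀ w, P.B n (g⁻¹ w) = P.B (g n) w := fun w => by rw [← hg'.1, le_apply_inv]
  obtain ⟨s, hs, es⟩ := h (g⁻¹ e) (hU' e he) (by rw [h1, h0])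
  refine ⟨g * s * g⁻¹, M.mul_mem (M.mul_mem hg hs) (M.inv_mem hg), fun w hw => ?_⟩
  rw [le_mul_apply, le_mul_apply, es _ (hU' w hw), map_add, map_smul, le_apply_inv, le_apply_inv,
    h1]

theorem TV.add (hM : M ≤ P.Isom) {n n' : V} (h : TV M P U n) (h' : TV M P U n') :
    TV M P U (n + n') := by
  by_cases h1 : ∃ e ∈ U, P.B n e = 0 ∧ P.B n' e ≠ 0
  · obtain ⟨e, he, h2, h3⟩ := h1
    obtain ⟨s, hs, es⟩ := h ((P.B n' e)⁻¹ • e) (U.smul_mem _ he) (by simp [h2])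
    have h4 : ∀ w ∈ U, s w ∈ U := fun w hw => by
      rw [es w hw]; exact U.add_mem hw (U.smul_mem _ (U.smul_mem _ he))
    refine (h'.apply (M.inv_mem hs) (hM (M.inv_mem hs)) fun w hw =>
      (mem_stab.1 (mem_stab_of_maps h4) _).2 (by rwa [le_apply_inv])).congr fun w hw => ?_
    rw [← (hM hs).1 (s⁻¹ n'), le_apply_inv, es w hw]
    simp [h3, add_comm]
  push Not at h1
  by_cases h2 : ∃ e ∈ U, P.B n e ≠ 0
  swap
  · push Not at h2
    exact h'.congr fun w hw => by simp [h2 w hw]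
  obtain ⟨e, he, h3⟩ := h2
  refine (h.smul (σ (1 + P.B n' e / P.B n e))).congr fun w hw => ?_
  have := h1 (w - (P.B n w / P.B n e) • e) (U.sub_mem hw (U.smul_mem _ he)) (by simp [h3])
  rw [map_sub, map_smul, smul_eq_mul, sub_eq_zero] at this
  rw [B_smul_left, P.σσ, map_add, LinearMap.add_apply, this]
  field_simp

theorem Ext.tv_all (E : Ext P Pk T) (hr : (finrank F K).Prime) (hM : M ≤ P.Isom) {u n₀ : V}
    (h : TV M P (pt F K u) n₀) (h0 : Pk.B u n₀ ≠ 0) {g : V ≃ₗ[F] V} (hg : g ∈ M)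
    (hgU : ∀ w ∈ pt F K u, g w ∈ pt F K u) {μ : K} (hμ : ∀ a, algebraMap F K a ≠ μ)
    (hgμ : ∀ y, Pk.B u (g y) = μ * Pk.B u y) (n : V) : TV M P (pt F K u) n := by
  let Z : Submodule F V :=
    { carrier := {n | TV M P (pt F K u) n}
      zero_mem' := tv_of_perp (by simp)
      add_mem' := fun ha hb => TV.add hM ha hb
      smul_mem' := fun a _ hb => TV.smul hb a }
  rcases eq_bot_or_top_of_mul hr (Δ := Z.map ((Pk.B u).restrictScalars F)) hμ (by
    rintro _ ⟨z, hz, rfl⟩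
    exact ⟨g z, TV.apply hz hg (hM hg) hgU, hgμ z⟩) with h1 | h1
  · have : Pk.B u n₀ ∈ Z.map ((Pk.B u).restrictScalars F) := ⟨n₀, h, rfl⟩
    rw [h1] at this
    exact absurd this h0
  obtain ⟨z, hz, e⟩ : Pk.B u n ∈ Z.map ((Pk.B u).restrictScalars F) := h1 ▸ Submodule.mem_top
  refine TV.congr hz fun w hw => ?_
  have := mem_perp'.1 (E.mem_perp_pt.2 (show Pk.B u (n - z) = 0 by
    rw [map_sub, sub_eq_zero]; exact e.symm)) w hw
  rwa [map_sub, LinearMap.sub_apply, sub_eq_zero] at this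

theorem Ext.exists_XW (E : Ext P Pk T) (hM : M ≤ P.Isom) (hS : ∀ d, S d → Pk.q d ∈ Pk.Λ)
    (hX : ∀ d, Pk.q d ∈ Pk.Λ → XLe Pk (M.comap res) d) {W : Submodule F V} (hW : Good K M S W)
    {y e : V} (hy : y ∈ perp P W) (hyW : y ∉ W) (he : e ∈ W) :
    ∃ s ∈ M, (∀ w ∈ W, s w = w) ∧ s y = y + e := by
  have : FiniteDimensional K V := Module.Finite.of_restrictScalars_finite F K V
  obtain ⟨g, hg, d, -, hd, rfl⟩ := hW
  rw [mem_map_le'] at hyW he
  obtain ⟨k, hk⟩ := mem_pt.1 he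
  have h1 : Pk.B d (g⁻¹ y) = 0 := E.mem_perp_pt.1 fun u hu => by
    rw [← (hM hg).1, le_apply_inv]; exact hy _ ⟨u, hu, rfl⟩
  obtain ⟨w, hw, hwy⟩ := exists_B_eq E.sepK (H := K ∙ d) hyW k
  have hwd := hw d (Submodule.mem_span_singleton_self d)
  obtain ⟨t, ht, et⟩ := Has.of_comap (hX d (hS d hd) w (Pk.q w) (Pk.eq_zero_symm hwd) (by simp))
  refine ⟨g * t * g⁻¹, M.mul_mem (M.mul_mem hg ht) (M.inv_mem hg), ?_, ?_⟩
  · rintro _ ⟨u, hu, rfl⟩
    obtain ⟨k', rfl⟩ := mem_pt.1 hu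
    rw [LinearEquiv.coe_coe, le_mul_apply, le_mul_apply, le_inv_apply_apply, et,
      eu_fix _ (by simp [Pk.self_eq_zero (hS d hd)]) (by simp [hwd])]
  · rw [le_mul_apply, le_mul_apply, et, eu_apply, h1, hwy]
    simp [hk, le_apply_inv]

theorem Ext.tv_of_pair (E : Ext P Pk T) (hM : M ≤ P.Isom) (hS : ∀ d, S d → Pk.q d ∈ Pk.Λ)
    (hX : ∀ d, Pk.q d ∈ Pk.Λ → XLe Pk (M.comap res) d) {W : Submodule F V}
    (hP : MaxPair K M S U W) (hD : finrank F ↥(U ⊓ W) + 1 = finrank F K) (hUW : U ≤ perp P W) :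
    ∃ n, (∃ u ∈ U, P.B n u ≠ 0) ∧ TV M P U n := by
  obtain ⟨u, hu, huW⟩ := hP.exists_left
  obtain ⟨n, h1, h2⟩ := exists_B_eq E.sep (H := U ⊓ W) (u := u) (fun h => huW h.2) 1
  have h3 : ∀ w ∈ U, w - P.B n w • u ∈ U ⊓ W := fun w hw => by
    obtain ⟨a, ha⟩ := exists_sub_smul_mem (inf_le_left : U ⊓ W ≤ U)
      (by rw [hD, hP.left.finrank_eq]) hu (fun h => huW h.2) hw
    have := h1 _ ha
    rw [map_sub, map_smul, h2, smul_eq_mul, mul_one, sub_eq_zero] at this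
    rwa [this]
  refine ⟨n, ⟨u, hu, by simp [h2]⟩, fun e he h0 => ?_⟩
  obtain ⟨s, hs, h4, h5⟩ := E.exists_XW hM hS hX hP.right (hUW hu) huW
    (show e ∈ W by simpa [h0] using (h3 e he).2)
  refine ⟨s, hs, fun w hw => ?_⟩
  have := h4 _ (h3 w hw).2
  rw [map_sub, map_smul, h5, sub_eq_iff_eq_add] at this
  rw [this]; module

/-- Conjugation by an element inducing a transvection on `U`. -/
theorem InT.conj_tv (hP : P.B.SeparatingLeft) (hM : M ≤ P.Isom)
    {ρ : V →ₗ[F] V} (h : InT M U ρ) (hU : ∀ u ∈ U, ∀ w ∈ U, P.B u w = 0) {n e : V}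
    (hn : TV M P U n) (he : e ∈ U) (hne : P.B n e = 0) :
    Has M (eu P e (-ρ n) (-P.B n (ρ n))) := by
  obtain ⟨s, hs, h1⟩ := hn e he hne
  have h2 := h.conj hs
  rw [mem_stab_iff_map.1 (mem_stab_of_maps fun y hy => by
    rw [h1 y hy]; exact U.add_mem hy (U.smul_mem _ he))] at h2
  refine (h2.sub h).has.congr fun y => ?_
  have h3 := h.ker_perp hP hM hU (z := s⁻¹ y - (y + (P.ε * P.B e y) • n)) fun w hw => by
    rw [map_sub, ← (hM hs).1, le_apply_inv, h1 w hw, map_add, map_add, LinearMap.add_apply,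
      B_smul_left, map_smul, P.symm n w, smul_eq_mul]
    linear_combination (-(σ (P.B n w) * P.B e y)) * P.εε
  rw [map_sub, sub_eq_zero, map_add, map_smul] at h3
  have h4 := h.skew hM hU n y
  rw [LinearMap.sub_apply, cjm_apply, h1 _ (h.mem _), h3, eu_apply, map_add, map_smul, map_neg,
    LinearMap.neg_apply, h4, smul_eq_mul]
  module

theorem le_Wd_of_tv (hP : P.B.SeparatingLeft) (hM : M ≤ P.Isom) (hU : ∀ u ∈ U, P.q u ∈ P.Λ)
    (h : ∀ n, TV M P U n) {e₀ w₀ : V} (he₀ : e₀ ∈ U) (h0 : e₀ ≠ 0) (hw₀ : w₀ ∈ U)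
    (hw : w₀ ∉ F ∙ e₀) (hW : w₀ ∈ Wd P M e₀ (hU _ he₀)) {e : V} (he : e ∈ U) (he0 : e ≠ 0) :
    U ≤ Wd P M e (hU _ he) := by
  have h1 : U ≤ Wd P M e₀ (hU _ he₀) := fun z hz => by
    obtain ⟨n, h2, h3⟩ := exists_B_eq hP hw 1
    have h4 := h2 e₀ (Submodule.mem_span_singleton_self _)
    obtain ⟨s, hs, es⟩ := h n (z - P.B n z • w₀) (U.sub_mem hz (U.smul_mem _ hw₀)) (by simp [h3])
    have h5 := Wd_apply (hx' := hU _ he₀) hW hs (hM hs) (by simp [es _ he₀, h4])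
    rw [es _ hw₀, h3, one_smul, Submodule.add_mem_iff_right _ hW] at h5
    simpa using Submodule.add_mem _ h5 (Submodule.smul_mem _ (P.B n z) hW)
  have step : ∀ a (ha : a ∈ U) b (hb : b ∈ U), a ≠ 0 → b ∉ F ∙ a → U ≤ Wd P M a (hU _ ha) →
      U ≤ Wd P M b (hU _ hb) := fun a ha b hb ha0 hab h2 z hz => by
    have h3 : a ∉ F ∙ (b - a) := fun h3 => by
      obtain ⟨k, hk⟩ := Submodule.mem_span_singleton.1 h3
      have hk0 : k ≠ 0 := by rintro rfl; exact ha0 (by simpa using hk.symm)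
      refine hab (Submodule.mem_span_singleton.2 ⟨k⁻¹ + 1, ?_⟩)
      rw [add_smul, one_smul]
      nth_rewrite 1 [← hk]
      rw [smul_smul, inv_mul_cancel₀ hk0]; simp
    obtain ⟨n, h4, h5⟩ := exists_B_eq hP h3 1
    obtain ⟨s, hs, es⟩ := h n (b - a) (U.sub_mem hb ha)
      (h4 _ (Submodule.mem_span_singleton_self _))
    have h6 : s⁻¹ z ∈ U := (mem_stab.1 (mem_stab_of_maps fun w hw => by
      rw [es w hw]; exact U.add_mem hw (U.smul_mem _ (U.sub_mem hb ha))) _).2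
        (by rwa [le_apply_inv])
    have := Wd_apply (hx' := hU _ hb) (h2 h6) hs (hM hs) (by simp [es _ ha, h5])
    rwa [le_apply_inv] at this
  by_cases h2 : e ∈ F ∙ e₀
  · have hw0 : w₀ ≠ 0 := by rintro rfl; simp at hw
    refine step w₀ hw₀ e he hw0 (fun h3 => hw ?_) (step e₀ he₀ w₀ hw₀ h0 hw h1)
    obtain ⟨a, rfl⟩ := Submodule.mem_span_singleton.1 h3
    have ha : a ≠ 0 := by rintro rfl; simp at he0
    exact (Submodule.smul_mem_iff _ ha).1 h2
  · exact step e₀ he₀ e he h0 h2 h1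

/-- The final step for extensions of degree at least three. -/
theorem Ext.perp_le_Wd_of_three (hr : 3 ≤ finrank F K) (E : Ext P Pk T) (hM : M ≤ P.Isom)
    (hX : ∀ d, Pk.q d ∈ Pk.Λ → XLe Pk (M.comap res) d) {u u' : V} (hu : Pk.q u ∈ Pk.Λ)
    (huu : Pk.B u u' ≠ 0) (hU : P.q u ∈ P.Λ) (hU' : ∀ y ∈ pt F K u', P.q y ∈ P.Λ)
    (h : pt F K u ≤ Wd P M u hU)
    (h' : ∀ e (he : e ∈ pt F K u'), e ≠ 0 → pt F K u' ≤ Wd P M e (hU' e he)) {z : V}
    (hz : P.B u z = 0) : z ∈ Wd P M u hU := by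
  have hu'0 : u' ≠ 0 := by rintro rfl; simp at huu
  have h1 := finrank_inf_ker (pt F K u') (P.B u)
  rw [finrank_pt hu'0] at h1
  have h2 : ∀ e ∈ pt F K u', P.B u e = 0 → e ∈ Wd P M u hU := fun e he hue => by
    by_cases he0 : e = 0
    · simp [he0]
    obtain ⟨w, hw, hwe⟩ : ∃ w ∈ pt F K u' ⊓ LinearMap.ker (P.B u), w ∉ F ∙ e := by
      by_contra hc
      push Not at hc
      have h2 := Submodule.finrank_mono (show pt F K u' ⊓ LinearMap.ker (P.B u) ≤ F ∙ e from hc)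
      have h3 := finrank_span_singleton_le (F := F) e
      omega
    obtain ⟨z, h3, h4⟩ := exists_B_eq' E.sep hwe 1
    have h5 : ∀ x ∈ pt F K u', P.B x ((Pk.B u' z / Pk.B u' u) • u) = P.B x z := fun x hx => by
      have := E.mem_perp_pt.2 (show Pk.B u' (z - (Pk.B u' z / Pk.B u' u) • u) = 0 by
        simp [B_ne_zero_symm huu]) x hx
      rwa [map_sub, sub_eq_zero, eq_comm] at this
    obtain ⟨c, -, t, ht, et⟩ := (h' e he he0 hw.1).2 1
    have h6 := Wd_apply (hx' := hU) (h (smul_mem_pt (Pk.B u' z / Pk.B u' u) u)) ht (hM ht) (by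
      rw [et, eu_fix _ (P.eq_zero_symm hue) (by rw [one_smul]; exact P.eq_zero_symm hw.2)])
    rw [et, eu_apply, one_smul, h5 e he, h5 w hw.1, h3 e (Submodule.mem_span_singleton_self e),
      h4] at h6
    simpa [Submodule.add_mem_iff_right _ (h (smul_mem_pt _ u))] using h6
  obtain ⟨e, he, he0⟩ := exists_ne_zero_mem (X := pt F K u' ⊓ LinearMap.ker (P.B u)) (by omega)
  have h3 : ∀ z, Pk.B u z = 0 → z ∈ Wd P M u hU := fun z hz => by
    obtain ⟨k, rfl⟩ := mem_pt.1 he.1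
    refine perp_le_of_inv_of_ne h (fun w hw z hz => ?_) (h2 _ he.1 he.2) (by
      rw [map_smul, smul_eq_mul]; exact mul_ne_zero (left_ne_zero_of_smul he0) huu) hz
    obtain ⟨t, ht, et⟩ := Has.of_comap (hX u hu w (Pk.q w) hw (by simp))
    exact et z ▸ Wd_apply hz ht (hM ht)
      (by rw [et, eu_fix _ (Pk.self_eq_zero hu) (Pk.eq_zero_symm hw)])
  have h4 : Pk.B u (z - (Pk.B u z / Pk.B u u') • u') = 0 := by simp [huu]
  have h5 := E.B_zero h4
  rw [map_sub, hz, zero_sub, neg_eq_zero] at h5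
  simpa using Submodule.add_mem _ (h3 _ h4) (h2 _ (smul_mem_pt _ u') h5)

/-- If a vector of `W` outside `K u` is perpendicular to `u` then all of `W` is. -/
theorem MaxPair.perp_of_perp (hX : ∀ d, Pk.q d ∈ Pk.Λ → XLe Pk (M.comap res) d)
    (h4 : 4 ≤ finrank K V) {u w : V} (hu : Pk.q u ∈ Pk.Λ) (hu0 : u ≠ 0) {W : Submodule F V}
    (hP : MaxPair K M S (pt F K u) W) (hw : w ∈ W) (hwU : w ∉ pt F K u) (huw : Pk.B u w = 0)
    {y : V} (hy : y ∈ W) : Pk.B u y = 0 := by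
  have : FiniteDimensional K V := Module.Finite.of_restrictScalars_finite F K V
  by_contra hβ
  obtain ⟨d, hd, hdU⟩ : ∃ d ∈ perp Pk (Submodule.span K {u, w}), d ∉ K ∙ u := by
    by_contra hc
    push Not at hc
    have h1 := Submodule.finrank_mono (show perp Pk (Submodule.span K {u, w}) ≤ _ from hc)
    have h2 := finrank_le_perp (P := Pk) (Submodule.span K {u, w})
    have h3 := finrank_span_pair_le (F := K) u w
    have h4 := finrank_span_singleton_le (F := K) u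
    omega
  have hud : Pk.B u d = 0 := mem_perp_span.1 hd u (by simp)
  have hwd : Pk.B w d = 0 := mem_perp_span.1 hd w (by simp)
  have hd0 : d ≠ 0 := by rintro rfl; simp at hdU
  have h0 : Pk.ε * Pk.B u y ≠ 0 := mul_ne_zero Pk.ε_ne_zero hβ
  have h1 : pt F K u ⊔ pt F K d ≤ pt F K u ⊔ W := sup_le le_sup_left fun z hz => by
    obtain ⟨k, rfl⟩ := mem_pt.1 hz
    set d' := (-(Pk.ε * Pk.B u y)⁻¹ * k) • d with hd'
    obtain ⟨t, ht, et⟩ := Has.of_comap (hX u hu d' (Pk.q d') (by simp [hd', hud]) (by simp))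
    have h2 : Pk.B d' u = 0 := Pk.eq_zero_symm (by simp [hd', hud])
    have h3 := hP.stab ht (fun z hz _ => by
      obtain ⟨k', rfl⟩ := mem_pt.1 hz
      rw [et, eu_fix _ (by simp [Pk.self_eq_zero hu]) (by simp [h2])]) hw hwU
      (by rwa [et, eu_fix _ huw (Pk.eq_zero_symm (by simp [hd', hwd]))]) y hy
    rw [et, eu_apply, hd', smul_smul, ← mul_assoc, mul_neg, mul_inv_cancel₀ h0, neg_one_mul,
      neg_smul k d, sub_neg_eq_add] at h3
    exact (Submodule.add_mem_iff_right _ (Submodule.add_mem _ (Submodule.mem_sup_right hy)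
      (Submodule.mem_sup_left (smul_mem_pt _ u)))).1 (Submodule.mem_sup_right h3)
  have h2 : pt F K u ⊓ pt F K d = ⊥ := by
    rw [eq_bot_iff]
    intro z hz
    by_contra hz0
    exact hdU (pt_eq_of_mem hz.1 hz0 ▸ pt_eq_of_mem hz.2 hz0 ▸ self_mem_pt d : d ∈ pt F K u)
  have h3 := Submodule.finrank_mono h1
  have h5 := Submodule.finrank_sup_add_finrank_inf_eq (pt F K u) (pt F K d)
  have h6 := Submodule.finrank_sup_add_finrank_inf_eq (pt F K u) W
  have h7 : finrank F ↥(pt F K u ⊓ W) ≠ 0 := fun e => hP.ne_bot (Submodule.finrank_eq_zero.1 e)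
  rw [h2, finrank_bot, finrank_pt hd0] at h5
  rw [hP.right.finrank_eq] at h6
  omega

theorem MaxPair.codim_one_of_perp (hr : (finrank F K).Prime) (hPk : Pk.B.SeparatingLeft)
    (hX : ∀ d, Pk.q d ∈ Pk.Λ → XLe Pk (M.comap res) d) {u : V} (hu : Pk.q u ∈ Pk.Λ) (hu0 : u ≠ 0)
    {W : Submodule F V} (hP : MaxPair K M S (pt F K u) W) (h : ∀ y ∈ W, Pk.B u y = 0) :
    finrank F ↥(pt F K u ⊓ W) + 1 = finrank F K := by
  have : FiniteDimensional K V := Module.Finite.of_restrictScalars_finite F K V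
  obtain ⟨x, hx, hxU⟩ := hP.exists_right
  obtain ⟨w, hw, hwx⟩ := exists_B_eq hPk (H := K ∙ u) hxU 1
  have hwu := hw u (Submodule.mem_span_singleton_self u)
  refine hP.codim_one hr hu0 ((Pk.B w).restrictScalars F) (fun k => by simp [hwu]) hx
    (by simp [hwx]) fun k => ?_
  obtain ⟨t, ht, et⟩ := Has.of_comap (hX u hu (τ k • w) (Pk.q (τ k • w))
    (by simp [Pk.eq_zero_symm hwu]) (by simp))
  exact ⟨t, ht, fun y hy => by simp [et, eu_apply, h y hy, B_smul_left, Pk.σσ]⟩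

/-- A singular vector perpendicular to `z` and not to `x`, from a hyperbolic pair in `z^⊥`. -/
theorem exists_sing_perp_of_pair (hP : P.B.SeparatingLeft) {e f x z : V} (he : P.q e ∈ P.Λ)
    (hf : P.q f ∈ P.Λ) (hef : P.B e f = 1) (hez : P.B e z = 0) (hfz : P.B f z = 0)
    (hx : x ∉ F ∙ z) : ∃ d, P.q d ∈ P.Λ ∧ P.B d z = 0 ∧ P.B d x ≠ 0 := by
  by_cases h1 : P.B e x = 0
  swap
  · exact ⟨e, he, hez, h1⟩
  by_cases h2 : P.B f x = 0
  swap
  · exact ⟨f, hf, hfz, h2⟩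
  have hee := P.self_eq_zero he
  have hff := P.self_eq_zero hf
  have hfe : P.B f e = P.ε := B_fe hef
  have hx' : x ∉ Submodule.span F {e, f} ⊔ F ∙ z := by
    intro hh
    obtain ⟨y, hy, y', hy', rfl⟩ := Submodule.mem_sup.1 hh
    obtain ⟨a, b, rfl⟩ := Submodule.mem_span_pair.1 hy
    obtain ⟨c, rfl⟩ := Submodule.mem_span_singleton.1 hy'
    simp only [map_add, map_smul, hee, hef, hez, hfz, hff, hfe, smul_eq_mul, mul_zero, mul_one,
      zero_add, add_zero, mul_eq_zero] at h1 h2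
    rw [h1, h2.resolve_right P.ε_ne_zero] at hx
    exact hx (by simpa using hy')
  obtain ⟨a, ha, hax⟩ := exists_orth_of_notMem P.σσ P.B hP _ hx'
  have hae := ha e (Submodule.mem_sup_left (Submodule.subset_span (by simp)))
  have haf := ha f (Submodule.mem_sup_left (Submodule.subset_span (by simp)))
  have haz := ha z (Submodule.mem_sup_right (Submodule.mem_span_singleton_self z))
  refine ⟨a + (e + (0 - P.q a) • f), by simpa using q_add_pair he hf hef hae haf 0, ?_, ?_⟩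
  · simp [haz, hez, hfz, B_smul_left]
  · simp [hax, h1, h2, B_smul_left]

end H21
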