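import Mathlib
import Cfsg.Agent.Base
import Cfsg.Agent.Lib.ExtFld.Ind

/-!
Overgroups of the orthogonal group over an extension field of prime degree in the orthogonal group,
odd characteristic: from induced transvections to root elements.
-/

set_option autoImplicit false
set_option linter.unusedSectionVars false

namespace H21

open Module Cfsg H97 H28

section General

variable {F V : Type*} [Field F] [AddCommGroup V] [Module F V] [FiniteDimensional F V]
  {σ : F →+* F} {P : PQ F V σ} {M : Subgroup (V ≃ₗ[F] V)} {U : Submodule F V}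

variable (P M U) in
/-- `1 + ν` lies in `M` and in the unipotent radical of the stabiliser of `U`. -/
structure InQ (ν : V →ₗ[F] V) : Prop where
  has : Has M (fun x => x + ν x)
  mem : ∀ x, ν x ∈ perp P U
  mem' : ∀ x ∈ perp P U, ν x ∈ U
  ker : ∀ x ∈ U, ν x = 0

theorem InQ.comm {ν ν' : V →ₗ[F] V} (h : InQ P M U ν) (h' : InQ P M U ν') :
    InT M U (ν ∘ₗ ν' - ν' ∘ₗ ν) := by
  obtain ⟨g, hg, e⟩ := h.has
  obtain ⟨g', hg', e'⟩ := h'.has
  refine ⟨⟨g * g' * (g' * g)⁻¹, M.mul_mem (M.mul_mem hg hg') (M.inv_mem (M.mul_mem hg' hg)),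
    fun z => ?_⟩, fun x => U.sub_mem (h.mem' _ (h'.mem x)) (h'.mem' _ (h.mem x)),
    fun u hu => by simp [h.ker u hu, h'.ker u hu]⟩
  obtain ⟨y, rfl⟩ := (g' * g).surjective z
  rw [le_mul_apply, le_inv_apply_apply]
  simp only [le_mul_apply, e, e', map_add, LinearMap.sub_apply, LinearMap.comp_apply,
    h.ker _ (h.mem' _ (h.mem _)), h.ker _ (h'.mem' _ (h.mem _)), h.ker _ (h'.mem' _ (h'.mem _)),
    h'.ker _ (h.mem' _ (h.mem _)), h'.ker _ (h'.mem' _ (h.mem _)), h'.ker _ (h.mem' _ (h'.mem _)),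
    map_zero]
  abel

theorem InQ.conj {ν : V →ₗ[F] V} (h : InQ P M U ν) {s : V ≃ₗ[F] V} (hs : s ∈ M)
    (hs' : s ∈ P.Isom) (hU : ∀ w ∈ U, s w ∈ U) : InQ P M U (cjm s ν) := by
  have h1 := mem_stab_of_maps hU
  have h2 := stab_perp hs' h1
  refine ⟨(h.has.conj hs).congr fun x => by rw [map_add, le_apply_inv, cjm_apply],
    fun x => (mem_stab.1 h2 _).1 (h.mem _), fun x hx => hU _ (h.mem' _ ?_), fun x hx => ?_⟩
  · exact (mem_stab.1 h2 (s⁻¹ x)).2 (by rwa [le_apply_inv])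
  · rw [cjm_apply, h.ker _ ((mem_stab.1 h1 _).2 (by rwa [le_apply_inv])), map_zero]

variable {Q : QuadraticForm F V}

theorem quad_B_self (x : V) : (PQ.ofQuad Q).B x x = 2 * Q x := by
  rw [ofQuad_B, QuadraticMap.polar_self, two_nsmul, two_mul]

theorem quad_B_comm (x y : V) : (PQ.ofQuad Q).B x y = (PQ.ofQuad Q).B y x :=
  QuadraticMap.polar_comm Q x y

theorem quad_add (x y : V) : Q (x + y) = Q x + Q y + (PQ.ofQuad Q).B x y := by
  rw [ofQuad_B, QuadraticMap.polar]; ring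

theorem quad_smul (a : F) (x : V) : Q (a • x) = a * a * Q x := by
  rw [QuadraticMap.map_smul, smul_eq_mul]

theorem quad_eu (d w : V) (c : F) (x : V) : eu (PQ.ofQuad Q) d w c x =
    x + ((PQ.ofQuad Q).B w x - c * (PQ.ofQuad Q).B d x) • d - (PQ.ofQuad Q).B d x • w := by
  rw [eu_apply, show (PQ.ofQuad Q).ε = 1 from rfl, one_mul, one_mul]

theorem exists_nonsing_perp (hQ : (PQ.ofQuad Q).B.SeparatingLeft) {Y : Submodule F V}
    (hY : Y ⊓ perp (PQ.ofQuad Q) Y = ⊥) (h : finrank F Y < finrank F V) :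
    ∃ z ∈ perp (PQ.ofQuad Q) Y, Q z ≠ 0 := by
  by_contra hc
  push Not at hc
  refine perp_ne_bot hQ (W := Y) (by rintro rfl; simp at h) (eq_bot_iff.2 fun z hz => ?_)
  rw [← perp_nondeg hQ hY]
  exact ⟨hz, fun w hw => polar_eq_zero_of_ts hc w hw z hz⟩

theorem nondeg_sup_span {Y : Submodule F V} (hY : Y ⊓ perp P Y = ⊥) {a : V} (ha : a ∈ perp P Y)
    (haa : P.B a a ≠ 0) : (Y ⊔ F ∙ a) ⊓ perp P (Y ⊔ F ∙ a) = ⊥ := by
  rw [eq_bot_iff]
  rintro z ⟨hz, hz'⟩
  obtain ⟨y, hy, y', hy', rfl⟩ := Submodule.mem_sup.1 hz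
  obtain ⟨c, rfl⟩ := Submodule.mem_span_singleton.1 hy'
  have h1 := hz' a (Submodule.mem_sup_right (Submodule.mem_span_singleton_self a))
  rw [map_add, map_smul, mem_perp'.1 ha y hy, zero_add, smul_eq_mul, mul_eq_zero] at h1
  rw [h1.resolve_right haa, zero_smul, add_zero] at hz' ⊢
  exact hY ▸ ⟨hy, perp_anti le_sup_left hz'⟩

theorem nondeg_span_pair {u w : V} (hu : P.B u u = 0) (huw : P.B u w ≠ 0) :
    Submodule.span F {u, w} ⊓ perp P (Submodule.span F {u, w}) = ⊥ := by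
  rw [eq_bot_iff]
  rintro z ⟨hz, hz'⟩
  obtain ⟨a, b, rfl⟩ := Submodule.mem_span_pair.1 hz
  have h1 := mem_perp_span.1 hz' u (by simp)
  have h2 := mem_perp_span.1 hz' w (by simp)
  simp only [map_add, map_smul, hu, smul_eq_mul, mul_zero, zero_add, mul_eq_zero, huw,
    or_false] at h1 h2
  simp only [h1, zero_mul, add_zero, mul_eq_zero, B_ne_zero_symm huw, or_false] at h2
  simp [h1, h2]

theorem exists_sq_add_sq [Finite F] (h2 : (2 : F) ≠ 0) {a b : F} (ha : a ≠ 0) (hb : b ≠ 0)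
    (c : F) : ∃ s t : F, s * s * a + t * t * b = c := by
  have := Fintype.ofFinite F
  have h1 : Fintype.card F % 2 = 1 := Nat.odd_iff.1 (by
    by_contra h
    exact h2 (two_eq_zero_of_not_odd h))
  obtain ⟨s, t, h⟩ := FiniteField.exists_root_sum_quadratic
    (f := Polynomial.C a * Polynomial.X ^ 2) (g := Polynomial.C b * Polynomial.X ^ 2 - Polynomial.C c)
    (Polynomial.degree_C_mul_X_pow 2 ha) (by
      rw [Polynomial.degree_sub_C (by rw [Polynomial.degree_C_mul_X_pow 2 hb]; decide),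
        Polynomial.degree_C_mul_X_pow 2 hb]; rfl) h1
  refine ⟨s, t, ?_⟩
  simp only [Polynomial.eval_mul, Polynomial.eval_C, Polynomial.eval_pow, Polynomial.eval_X,
    Polynomial.eval_sub] at h
  linear_combination h

theorem refl_apply {y : V} {s : V ≃ₗ[F] V} (hs : ∀ x, s x = (PQ.ofQuad Q).qrefl (-(Q y)⁻¹) y x)
    (x : V) : s x = x - ((Q y)⁻¹ * (PQ.ofQuad Q).B y x) • y := by
  rw [hs, PQ.qrefl_apply]; module

end General

variable {F K V : Type*} [Field F] [Field K] [Algebra F K] [AddCommGroup V] [Module F V]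
  [Module K V] [IsScalarTower F K V] {T : K →ₗ[F] F} {M : Subgroup (V ≃ₗ[F] V)}
  [FiniteDimensional F V] {Q : QuadraticForm F V} {Qk : QuadraticForm K V}

theorem InQ.of_eu {σ : F →+* F} {τ : K →+* K} {P : PQ F V σ} {Pk : PQ K V τ} (E : Ext P Pk T)
    {u d : V} {c : K} (hu : Pk.q u ∈ Pk.Λ) (hd : Pk.B u d = 0)
    (h : Has (M.comap (res (K := K))) (eu Pk u d c)) :
    InQ P M (pt F K u) ((eu Pk u d c - LinearMap.id).restrictScalars F) := by
  have huu := Pk.self_eq_zero hu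
  refine ⟨(Has.of_comap h).congr fun x => by simp, fun x => E.mem_perp_pt.2 ?_, fun x hx => ?_,
    fun x hx => ?_⟩
  · simp [eu_apply, huu, hd]
  · simpa [eu_apply, E.mem_perp_pt.1 hx] using smul_mem_pt _ u
  · obtain ⟨k, rfl⟩ := mem_pt.1 hx
    simp [eu_apply, huu, Pk.eq_zero_symm hd]

theorem exists_sq_notMem (hr : 1 < finrank F K) (h2 : (2 : K) ≠ 0) :
    ∃ l : K, ∀ a : F, algebraMap F K a ≠ l * l := by
  obtain ⟨l, hl⟩ := exists_notMem_range hr
  by_contra hc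
  push Not at hc
  obtain ⟨a, ha⟩ := hc l
  obtain ⟨b, hb⟩ := hc (l + 1)
  refine hl ((b - a - 1) / 2) ?_
  rw [map_div₀, map_ofNat, div_eq_iff h2, map_sub, map_sub, ha, hb, map_one]; ring

/-- A transvection of a `K`-point is not semilinear in odd characteristic. -/
theorem not_semilinear_transv (h2 : (2 : K) ≠ 0) {e u₀ : V} (he : e ≠ 0) (ψ : Dual F V)
    (hψ : ψ e = 0) (hu₀ : u₀ ∈ pt F K e) (hψu : ψ u₀ ≠ 0) {k k' : K}
    (hk : ∀ a, algebraMap F K a ≠ k)
    (h : ∀ y ∈ pt F K e, k' • y + ψ (k' • y) • e = k • (y + ψ y • e)) : False := by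
  have inj := smul_left_injective K he
  have h1 := h e (self_mem_pt e)
  rw [hψ, zero_smul, add_zero, ← algebraMap_smul K (ψ _), ← add_smul] at h1
  replace h1 : k' + algebraMap F K (ψ (k' • e)) = k := inj h1
  set δ := ψ (k' • e) with hδ
  have h3 : ψ (k • e) = δ := by
    rw [← h1, add_smul, algebraMap_smul, map_add, ψ.map_smul, hψ]; simp [hδ]
  have h4 : ∀ y ∈ pt F K e, algebraMap F K (ψ (k' • y)) • e =
      (k * algebraMap F K (ψ y)) • e + algebraMap F K δ • y := fun y hy => by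
    have := h y hy
    rw [← algebraMap_smul K (ψ _), ← algebraMap_smul K (ψ y)] at this
    rw [← h1] at this ⊢
    linear_combination (norm := module) this
  by_cases h5 : δ = 0
  · have := h4 u₀ hu₀
    rw [h5, map_zero, zero_smul, add_zero] at this
    refine hk (ψ (k' • u₀) / ψ u₀) ?_
    rw [map_div₀, div_eq_iff (by simpa using hψu)]
    exact inj this
  · have := h4 _ (smul_mem_pt k e)
    rw [h3, smul_smul (algebraMap F K δ) k e, ← add_smul] at this
    refine hk (ψ (k' • k • e) / (2 * δ)) ?_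
    rw [map_div₀, map_mul, map_ofNat, div_eq_iff (mul_ne_zero h2 (by simpa using h5)), inj this]
    ring

variable (Q Qk T M) in
/-- The standing hypotheses for an orthogonal group over an extension field. -/
structure OO : Prop where
  E : Ext (PQ.ofQuad Q) (PQ.ofQuad Qk) T
  hQ : ∀ v, Q v = T (Qk v)
  two : (2 : K) ≠ 0
  hr : (finrank F K).Prime
  hM : M ≤ (PQ.ofQuad Q).Isom
  hC : ∀ a ∈ (PQ.ofQuad Qk).Isom, ∀ b ∈ (PQ.ofQuad Qk).Isom, res (a * b * a⁻¹ * b⁻¹) ∈ M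

theorem OO.xle (H : OO T M Q Qk) (d : V) (hd : (PQ.ofQuad Qk).q d ∈ (PQ.ofQuad Qk).Λ) :
    XLe (PQ.ofQuad Qk) (M.comap res) d := by
  have : FiniteDimensional K V := Module.Finite.of_restrictScalars_finite F K V
  obtain ⟨a, h1, h2⟩ := exists_ne_zero_ne_neg_one H.hr.one_lt
  exact xle_of_comm H.E.sepK H.hC hd (fun l hl => by
    rw [show l = 0 from hl]; exact has_id.congr fun y => by rw [eu_zero]) h1 h2

theorem OO.has_eu (H : OO T M Q Qk) {d w : V} (hd : Qk d = 0) (hw : (PQ.ofQuad Qk).B d w = 0) :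
    Has M (eu (PQ.ofQuad Qk) d w (Qk w)) :=
  Has.of_comap (H.xle d hd w _ hw (sub_self _))

theorem OO.sing_pt (H : OO T M Q Qk) {d : V} (hd : Qk d = 0) :
    ∀ y ∈ pt F K d, (PQ.ofQuad Q).q y ∈ (PQ.ofQuad Q).Λ := fun y hy => by
  obtain ⟨k, rfl⟩ := mem_pt.1 hy
  rw [ofQuad_q_mem, H.hQ, QuadraticMap.map_smul, hd, smul_zero, map_zero]

theorem OO.sing (H : OO T M Q Qk) {W : Submodule F V} (h : Good K M (fun d => Qk d = 0) W) :
    ∀ y ∈ W, (PQ.ofQuad Q).q y ∈ (PQ.ofQuad Q).Λ := by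
  obtain ⟨g, hg, d, -, hd, rfl⟩ := h
  rintro _ ⟨y, hy, rfl⟩
  exact isom_q (H.hM hg) (H.sing_pt hd y hy)

theorem OO.exists_dil (H : OO T M Q Qk) {u : V} (hu : Qk u = 0) (hu0 : u ≠ 0) {c : K}
    (hc : c ≠ 0) : ∃ g ∈ (PQ.ofQuad Qk).Isom, res g ∈ M ∧ g u = (c * c) • u := by
  have : FiniteDimensional K V := Module.Finite.of_restrictScalars_finite F K V
  set b := (PQ.ofQuad Qk).B with hb
  obtain ⟨v, hv, hvu, -⟩ := (PQ.ofQuad Qk).exists_partner H.E.sepK ⊥ hu0 hu (by simp)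
  have huv : b u v = 1 := (quad_B_comm u v).trans hvu
  have huu : b u u = 0 := by rw [hb, quad_B_self, hu, mul_zero]
  have hvv : b v v = 0 := (PQ.ofQuad Qk).self_eq_zero hv
  have key : ∀ c : K, c ≠ 0 → ∃ s ∈ (PQ.ofQuad Qk).Isom, s u = -c • v ∧ s v = -c⁻¹ • u := by
    intro c hc
    have h1 : Qk (u + c • v) = c := by
      rw [quad_add, quad_smul, hu, show Qk v = 0 from hv, map_smul, ← hb, huv]; simp
    obtain ⟨s, hs, es⟩ := has_refl_isom H.E.sepK (y := u + c • v) (by rwa [h1])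
    refine ⟨s, hs, ?_, ?_⟩ <;>
      simp only [refl_apply es, h1, ← hb, map_add, map_smul, LinearMap.add_apply,
        LinearMap.smul_apply, huu, huv, hvv, show b v u = 1 from hvu, smul_eq_mul] <;>
      match_scalars <;> field_simp <;> ring
  obtain ⟨s, hs, h1, h2⟩ := key 1 one_ne_zero
  obtain ⟨t, ht, h3, h4⟩ := key c hc
  refine ⟨s * t * s⁻¹ * t⁻¹, Subgroup.mul_mem _ (Subgroup.mul_mem _ (Subgroup.mul_mem _ hs ht)
    (Subgroup.inv_mem _ hs)) (Subgroup.inv_mem _ ht), H.hC s hs t ht, ?_⟩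
  have h5 : t⁻¹ u = -c • v := t.injective (by
    rw [le_apply_inv, map_smul, h4, smul_smul]; simp [hc])
  have h6 : s⁻¹ v = -u := s.injective (by rw [le_apply_inv, map_neg, h1]; simp)
  simp only [le_mul_apply, h5, h6, h3, h2, map_smul, map_neg]
  module

theorem OO.tv_all (H : OO T M Q Qk) {u : V} (hu : Qk u = 0) (hu0 : u ≠ 0) {W : Submodule F V}
    (hP : MaxPair K M (fun d => Qk d = 0) (pt F K u) W) (h : ∀ y ∈ W, (PQ.ofQuad Qk).B u y = 0)
    (n : V) : TV M (PQ.ofQuad Q) (pt F K u) n := by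
  have hD := hP.codim_one_of_perp H.hr H.E.sepK H.xle hu hu0 h
  obtain ⟨n₀, ⟨y, hy, h1⟩, h2⟩ := H.E.tv_of_pair H.hM (fun d hd => hd) H.xle hP hD
    (le_perp_comm fun y hy => H.E.mem_perp_pt.2 (h y hy))
  obtain ⟨l, hl⟩ := exists_sq_notMem H.hr.one_lt H.two
  have hl0 : l ≠ 0 := fun h => hl 0 (by simp [h])
  obtain ⟨g, hg, hgM, e⟩ := H.exists_dil hu hu0 (inv_ne_zero hl0)
  refine H.E.tv_all H.hr H.hM h2 (fun h => h1 (mem_perp'.1 (H.E.mem_perp_pt.2 h) y hy)) hgM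
    (fun w hw => ?_) hl (fun y => ?_) n
  · obtain ⟨k, rfl⟩ := mem_pt.1 hw
    rw [res_apply, map_smul, e, smul_smul]; exact smul_mem_pt _ _
  · rw [res_apply, ← hg.1 u y, e, B_smul_left, RingHom.id_apply]; field_simp

local notation "𝑃" => PQ.ofQuad Q
local notation "𝑃k" => PQ.ofQuad Qk

theorem OO.exists_inT (H : OO T M Q Qk) (h3 : 3 ≤ finrank K V) {u : V} (hu : Qk u = 0)
    (hu0 : u ≠ 0) (h : ∀ n, TV M (PQ.ofQuad Q) (pt F K u) n) :
    ∃ a : V →ₗ[F] V, (∃ y, a y ≠ 0) ∧ ∀ c : F, InT M (pt F K u) (c • a) := by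
  have : FiniteDimensional K V := Module.Finite.of_restrictScalars_finite F K V
  have huu : (𝑃k).B u u = 0 := (𝑃k).self_eq_zero hu
  obtain ⟨l, hl⟩ := exists_notMem_range H.hr.one_lt
  obtain ⟨n, h1, h2⟩ := exists_B_eq H.E.sep (H := F ∙ u) (u := l • u) (fun h => by
    obtain ⟨a, ha⟩ := Submodule.mem_span_singleton.1 h
    exact hl a (smul_left_injective K hu0 (by simpa using ha))) 1
  have hnu := h1 u (Submodule.mem_span_singleton_self u)
  obtain ⟨s, hs, es⟩ := h n u (self_mem_pt u) hnu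
  have hsU : ∀ w ∈ pt F K u, s w ∈ pt F K u := fun w hw => by
    rw [es w hw]; exact Submodule.add_mem _ hw (Submodule.smul_mem _ _ (self_mem_pt u))
  let N : V → V →ₗ[F] V := fun d => (eu 𝑃k u d (Qk d) - LinearMap.id).restrictScalars F
  have hN : ∀ d y, N d y = ((𝑃k).B d y - Qk d * (𝑃k).B u y) • u - (𝑃k).B u y • d := fun d y => by
    simp only [N, LinearMap.restrictScalars_apply, LinearMap.sub_apply, LinearMap.id_apply]
    rw [quad_eu]; abel
  have hNQ : ∀ d, (𝑃k).B u d = 0 → InQ 𝑃 M (pt F K u) (N d) := fun d hd =>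
    InQ.of_eu H.E hu hd (H.xle u hu d _ hd (sub_self _))
  have hν : ∀ d, (𝑃k).B u d = 0 → InQ 𝑃 M (pt F K u) (cjm s (N d)) := fun d hd =>
    (hNQ d hd).conj hs (H.hM hs) hsU
  have hcomm : ∀ ν, InQ 𝑃 M (pt F K u) ν → ∀ d y, (ν ∘ₗ N d - N d ∘ₗ ν) y =
      -ν ((𝑃k).B u y • d) - (𝑃k).B d (ν y) • u := fun ν hν d y => by
    rw [LinearMap.sub_apply, LinearMap.comp_apply, LinearMap.comp_apply, hN, hN, map_sub,
      hν.ker _ (smul_mem_pt _ _), H.E.mem_perp_pt.1 (hν.mem y)]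
    simp
  by_cases hc : ∃ d d', (𝑃k).B u d = 0 ∧ (𝑃k).B u d' = 0 ∧
      ∃ y, (cjm s (N d) ∘ₗ N d' - N d' ∘ₗ cjm s (N d)) y ≠ 0
  · obtain ⟨d, d', hd, hd', hy⟩ := hc
    refine ⟨_, hy, fun c => ?_⟩
    convert (hν d hd).comm (hNQ (c • d') (by rw [← algebraMap_smul K, map_smul, hd', smul_zero]))
      using 1
    ext y
    rw [LinearMap.smul_apply, hcomm _ (hν d hd), hcomm _ (hν d hd), smul_comm',
      LinearMap.map_smul _ c,
      ← algebraMap_smul K c d', B_smul_left, RingHom.id_apply, mul_smul, algebraMap_smul]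
    module
  exfalso
  push Not at hc
  obtain ⟨v, -, hvu, -⟩ := (𝑃k).exists_partner H.E.sepK ⊥ hu0 hu (by simp)
  have huv : (𝑃k).B u v = 1 := (quad_B_comm u v).trans hvu
  have hlin : ∀ d z, (𝑃k).B u d = 0 → (𝑃k).B u z = 0 →
      s ((𝑃k).B d (s⁻¹ (l • z)) • u) = l • s ((𝑃k).B d (s⁻¹ z) • u) := fun d z hd hz => by
    have h4 : ∀ z, (𝑃k).B u z = 0 → s ((𝑃k).B d (s⁻¹ z) • u) = -(𝑃k).B z (cjm s (N d) v) • u :=
      fun z hz => by
        have h5 := hc d z hd hz v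
        have h6 : (𝑃k).B u (s⁻¹ z) = 0 := H.E.mem_perp_pt.1
          ((mem_stab.1 (stab_perp (H.hM hs) (mem_stab_of_maps hsU)) _).2
            (by rw [le_apply_inv]; exact H.E.mem_perp_pt.2 hz))
        rw [hcomm _ (hν d hd), huv, one_smul, cjm_apply, hN, h6] at h5
        simp only [mul_zero, sub_zero, zero_smul] at h5
        linear_combination (norm := module) -h5
    rw [h4 z hz, h4 _ (by simp [hz]), B_smul_left, RingHom.id_apply]
    module
  obtain ⟨z, hz, hzU⟩ : ∃ z ∈ perp 𝑃k (K ∙ u), z ∉ K ∙ u := by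
    by_contra hc
    push Not at hc
    have h1 := Submodule.finrank_mono (show perp 𝑃k (K ∙ u) ≤ _ from hc)
    have h2 := finrank_le_perp (P := 𝑃k) (K ∙ u)
    have h4 := finrank_span_singleton_le (F := K) u
    omega
  rw [mem_perp_singleton] at hz
  have hsz : (𝑃k).B u (s z) = 0 := H.E.mem_perp_pt.1
    ((mem_stab.1 (stab_perp (H.hM hs) (mem_stab_of_maps hsU)) _).1 (H.E.mem_perp_pt.2 hz))
  obtain ⟨a, k', h4⟩ : ∃ a k' : K, a • u + k' • z = s⁻¹ (l • s z) := by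
    rw [← Submodule.mem_span_pair]
    by_contra h4
    obtain ⟨d, h5, h6⟩ := exists_B_eq H.E.sepK h4 1
    have := hlin d (s z) ((𝑃k).eq_zero_symm (h5 u (Submodule.subset_span (by simp)))) hsz
    rw [h6, le_inv_apply_apply, h5 z (Submodule.subset_span (by simp))] at this
    simp [hu0] at this
  refine not_semilinear_transv H.two hu0 ((𝑃).B n) hnu (smul_mem_pt l u) (by rw [h2]; simp) hl (k' := k')
    fun y hy => ?_
  obtain ⟨β, rfl⟩ := mem_pt.1 hy
  obtain ⟨d, h5, h6⟩ := exists_B_eq H.E.sepK hzU β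
  have h7 := h5 u (Submodule.mem_span_singleton_self u)
  have := hlin d (s z) ((𝑃k).eq_zero_symm h7) hsz
  rw [← h4, le_inv_apply_apply, map_add, LinearMap.map_smul, LinearMap.map_smul, h6, h7, smul_zero, zero_add,
    smul_eq_mul, mul_smul] at this
  rw [← es _ hy, ← es _ (smul_mem_pt' k' hy), this]

theorem InT.alt (hM : M ≤ (PQ.ofQuad Q).Isom) {U : Submodule F V} {a : V →ₗ[F] V} (h : InT M U a)
    (hU : ∀ y ∈ U, (PQ.ofQuad Q).q y ∈ (PQ.ofQuad Q).Λ) (y : V) : (PQ.ofQuad Q).B y (a y) = 0 := by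
  obtain ⟨g, hg, e⟩ := h.has
  have := PQ.mem_isom_ofQuad.1 (hM hg) y
  rw [e, quad_add, show Q (a y) = 0 from hU _ (h.mem y)] at this
  linear_combination this

/-- Root elements on a subspace on which all transvections are induced. -/
theorem le_Wd_of_inT (hP : (PQ.ofQuad Q).B.SeparatingLeft) (hM : M ≤ (PQ.ofQuad Q).Isom)
    {U : Submodule F V} (hU : ∀ y ∈ U, (PQ.ofQuad Q).q y ∈ (PQ.ofQuad Q).Λ)
    (h : ∀ n, TV M (PQ.ofQuad Q) U n) {a : V →ₗ[F] V} (ha : ∃ y, a y ≠ 0)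
    (haT : ∀ c : F, InT M U (c • a)) {e : V} (he : e ∈ U) (he0 : e ≠ 0) :
    U ≤ Wd (PQ.ofQuad Q) M e (hU e he) := by
  have hUU : ∀ u ∈ U, ∀ w ∈ U, (𝑃).B u w = 0 := polar_eq_zero_of_ts hU
  have ha1 : InT M U a := by simpa using haT 1
  obtain ⟨n, hn⟩ := ha
  have hval : ∀ w ∈ U, (0 : F) - (𝑃).q w ∈ (𝑃).Λ := fun w hw => by simpa using hU w hw
  by_cases h1 : ∃ e' ∈ U, (𝑃).B n e' = 0 ∧ e' ∉ F ∙ a n
  · obtain ⟨e', h1, h2, h3⟩ := h1
    have h0 : e' ≠ 0 := by rintro rfl; simp at h3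
    refine le_Wd_of_tv hP hM hU h h1 h0 (ha1.mem n) (fun h4 => h3 ?_)
      ⟨hUU _ h1 _ (ha1.mem n), fun c => ⟨0, hval _ (U.smul_mem _ (ha1.mem n)), ?_⟩⟩ he he0
    · obtain ⟨c, hc⟩ := Submodule.mem_span_singleton.1 h4
      have hc0 : c ≠ 0 := by rintro rfl; exact hn (by simpa using hc.symm)
      rw [← hc]
      simpa [Submodule.span_singleton_smul_eq (IsUnit.mk0 c hc0)] using
        Submodule.mem_span_singleton_self e'
    · simpa [ha1.alt hM hU n] using (haT (-c)).conj_tv hP hM hUU (h n) h1 h2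
  push Not at h1
  obtain ⟨u, hu, hnu⟩ : ∃ u ∈ U, (𝑃).B n u = 1 := by
    by_contra hc
    push Not at hc
    refine hn (ha1.ker_perp hP hM hUU (mem_perp'.2 fun w hw => ?_))
    by_contra h2
    exact hc (((𝑃).B n w)⁻¹ • w) (U.smul_mem _ hw) (by simp [h2])
  have h2 : u ∉ F ∙ a n := fun h2 => by
    obtain ⟨c, rfl⟩ := Submodule.mem_span_singleton.1 h2
    simp [ha1.alt hM hU n] at hnu
  have h3 : ∀ y, a y = (𝑃).B u y • a n - (𝑃).B (a n) y • u := by
    obtain ⟨n', h3, h4⟩ := exists_B_eq hP (H := F ∙ u) (u := a n) (fun h3 => by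
      obtain ⟨c, hc⟩ := Submodule.mem_span_singleton.1 h3
      have := ha1.alt hM hU n
      rw [← hc, map_smul, hnu, smul_eq_mul, mul_one] at this
      exact hn (by rw [← hc, this, zero_smul])) 1
    have h5 := h3 u (Submodule.mem_span_singleton_self u)
    have h6 : ∀ w ∈ U, w = (𝑃).B n w • u + (𝑃).B n' w • a n := fun w hw => by
      obtain ⟨c, hc⟩ := Submodule.mem_span_singleton.1
        (h1 (w - (𝑃).B n w • u) (U.sub_mem hw (U.smul_mem _ hu)) (by simp [hnu]))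
      have := congrArg ((𝑃).B n') hc
      rw [map_smul, map_sub, map_smul, h4, h5, smul_zero, sub_zero, smul_eq_mul, mul_one] at this
      rw [← this, hc]; abel
    have h7 : a n' = -u := by
      rw [h6 _ (ha1.mem n'), ha1.alt hM hU n', ← neg_neg ((𝑃).B n _), ← ha1.skew hM hUU,
        quad_B_comm, h4]
      simp
    intro y
    have h8 := ha1.ker_perp hP hM hUU (z := y - (𝑃).B u y • n - (𝑃).B (a n) y • n') fun w hw => by
      rw [h6 w hw]
      simp only [map_add, map_sub, map_smul, LinearMap.add_apply, LinearMap.smul_apply,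
        smul_eq_mul, quad_B_comm u n, quad_B_comm u n', quad_B_comm (a n) n, quad_B_comm (a n) n',
        hnu, h4, h5, ha1.alt hM hU n]
      ring
    rw [map_sub, map_sub, map_smul, map_smul, h7] at h8
    linear_combination (norm := module) h8
  have hu0 : u ≠ 0 := by rintro rfl; simp at h2
  refine le_Wd_of_tv hP hM hU h hu hu0 (ha1.mem n) (fun h4 => ?_)
    ⟨hUU _ hu _ (ha1.mem n), fun c => ⟨0, hval _ (U.smul_mem _ (ha1.mem n)),
      (haT (-c)).has.congr fun y => ?_⟩⟩ he he0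
  · obtain ⟨c, hc⟩ := Submodule.mem_span_singleton.1 h4
    have := ha1.alt hM hU n
    rw [← hc, map_smul, hnu, smul_eq_mul, mul_one] at this
    exact hn (by rw [← hc, this, zero_smul])
  · rw [LinearMap.smul_apply, h3 y, quad_eu, B_smul_left, RingHom.id_apply]
    module

theorem OO.le_Wd (H : OO T M Q Qk) (h3 : 3 ≤ finrank K V) {u : V} (hu : Qk u = 0) (hu0 : u ≠ 0)
    {W : Submodule F V} (hP : MaxPair K M (fun d => Qk d = 0) (pt F K u) W)
    (h : ∀ y ∈ W, (PQ.ofQuad Qk).B u y = 0) {e : V} (he : e ∈ pt F K u) (he0 : e ≠ 0) :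
    pt F K u ≤ Wd (PQ.ofQuad Q) M e (H.sing_pt hu e he) := by
  obtain ⟨a, h1, h2⟩ := H.exists_inT h3 hu hu0 (H.tv_all hu hu0 hP h)
  exact le_Wd_of_inT H.E.sep H.hM _ (H.tv_all hu hu0 hP h) h1 h2 he he0

/-- The final step when the degree is at least three. -/
theorem OO.EG_le_of_three (H : OO T M Q Qk) (hr : 3 ≤ finrank F K) (h3 : 3 ≤ finrank K V) {u : V}
    (hu : Qk u = 0) (hu0 : u ≠ 0) (h : ∀ e (he : e ∈ pt F K u), e ≠ 0 →
      pt F K u ≤ Wd (PQ.ofQuad Q) M e (H.sing_pt hu e he)) : EG (PQ.ofQuad Q) ≤ M := by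
  have : FiniteDimensional K V := Module.Finite.of_restrictScalars_finite F K V
  have huu : (𝑃k).B u u = 0 := (𝑃k).self_eq_zero hu
  obtain ⟨v, hv, hvu, -⟩ := (𝑃k).exists_partner H.E.sepK ⊥ hu0 hu (by simp)
  have huv : (𝑃k).B u v = 1 := (quad_B_comm u v).trans hvu
  obtain ⟨w, hw, hw0⟩ := exists_nonsing_perp H.E.sepK (nondeg_span_pair huu (by simp [huv]) :
    Submodule.span K {u, v} ⊓ _ = ⊥) (by have := finrank_span_pair_le (F := K) u v; omega)
  obtain ⟨k, hk⟩ : ∃ k : K, T (k * k * Qk w) ≠ 0 := by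
    by_contra hc
    push Not at hc
    refine mul_ne_zero H.two hw0 (H.E.nd _ fun k => ?_)
    have h1 := hc (k + 1)
    rw [show (k + 1) * (k + 1) * Qk w = k * k * Qk w + 1 * 1 * Qk w + 2 * Qk w * k by ring, map_add,
      map_add, hc, hc] at h1
    simpa using h1
  have huw : (𝑃k).B u (k • w) = 0 := by simp [mem_perp_span.1 hw u (by simp)]
  have hvw : (𝑃k).B v (k • w) = 0 := by simp [mem_perp_span.1 hw v (by simp)]
  obtain ⟨t, ht, et⟩ := H.xle v hv _ _ hvw (sub_self _)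
  have h1 : (𝑃k).B u (t u) = -(k * k * Qk w) := by
    rw [et, quad_eu, hvu, (𝑃k).eq_zero_symm huw, one_smul, map_sub, map_add, huu, huw, map_smul,
      huv, ← quad_smul]
    simp [PQ.ofQuad]
  have h2 : (𝑃).B u (t u) ≠ 0 := by rw [H.E.B, h1, map_neg]; exact neg_ne_zero.2 hk
  have h4 : Qk (t u) = 0 := by
    obtain ⟨t', ht', et'⟩ := has_eu_isom hv hvw (c := (𝑃k).q (k • w)) (by simp)
    rw [et, ← et', PQ.mem_isom_ofQuad.1 ht', hu]
  have h5 : XLe 𝑃 M u := xle_of_Wd_quad fun z hz =>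
    H.E.perp_le_Wd_of_three hr H.hM H.xle hu (u' := t u) (fun h => h2 (H.E.B_zero h))
      (H.sing_pt hu u (self_mem_pt u)) (H.sing_pt h4) (h u (self_mem_pt u) hu0) (fun e he he0 => by
        obtain ⟨a, rfl⟩ := mem_pt.1 he
        intro y hy
        obtain ⟨b, rfl⟩ := mem_pt.1 hy
        have := Wd_apply (hx' := H.sing_pt h4 _ he) (h (a • u) (smul_mem_pt a u)
          (fun h0 => he0 (by rw [← map_smul, h0, map_zero])) (smul_mem_pt b u)) ht (H.hM ht)
          (t.map_smul a u)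
        rwa [res_apply, map_smul] at this) hz
  exact EG_le_of_xle H.E.sep (H.sing_pt hu u (self_mem_pt u)) (H.sing_pt h4 _ (self_mem_pt _)) h5
    (h5.apply ht (H.hM ht)) h2

end H21
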