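import Mathlib
import Cfsg.Agent.Base
import Cfsg.Agent.Lib.ExtFld.OO

/-!
Maximality of the orthogonal group over an extension field of prime degree in the orthogonal
group, odd characteristic, dimension at least four over the larger field.
-/

set_option autoImplicit false
set_option linter.unusedSectionVars false

namespace H21

open Module Cfsg H97 H28

variable {F K V : Type*} [Field F] [Field K] [Algebra F K] [AddCommGroup V] [Module F V]
  [Module K V] [IsScalarTower F K V] {T : K →ₗ[F] F} {M : Subgroup (V ≃ₗ[F] V)}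
  [FiniteDimensional F V] {Q : QuadraticForm F V} {Qk : QuadraticForm K V}

local notation "𝑃" => PQ.ofQuad Q
local notation "𝑃k" => PQ.ofQuad Qk

theorem nondeg_span_singleton {σ : F →+* F} {P : PQ F V σ} {v : V} (h : P.B v v ≠ 0) :
    (F ∙ v) ⊓ perp P (F ∙ v) = ⊥ := by
  simpa using nondeg_sup_span (P := P) (Y := ⊥) (by simp) (a := v) (by simp [mem_perp]) h

theorem OO.exists_maxPair [Finite K] (H : OO T M Q Qk) (h4 : 4 ≤ finrank K V) {g : V ≃ₗ[F] V}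
    (hg : g ∈ M) (hg' : g ∉ NK F K V) :
    ∃ d W, d ≠ 0 ∧ Qk d = 0 ∧ MaxPair K M (fun d => Qk d = 0) (pt F K d) W := by
  have : FiniteDimensional K V := Module.Finite.of_restrictScalars_finite F K V
  obtain ⟨d, hd0, hd, hne⟩ : ∃ d, d ≠ 0 ∧ (𝑃k).q d ∈ (𝑃k).Λ ∧
      (pt F K d).map (g : V →ₗ[F] V) ≠ pt F K (g d) := by
    by_contra hc
    push Not at hc
    exact hg' (mem_NK_of_map_sing H.hr.one_lt (isoK_quad Qk) H.E.sepK (by omega) (by omega) hc)
  have hgd : g d ≠ 0 := by simpa using hd0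
  have hW := (good_pt (K := K) (M := M) (S := fun d => Qk d = 0) hd0 hd).map hg
  have hv : g d ∈ (pt F K d).map (g : V →ₗ[F] V) := ⟨d, self_mem_pt _, rfl⟩
  set v := g d
  set W := (pt F K d).map (g : V →ₗ[F] V)
  by_cases h1 : ∃ y ∈ W, y ≠ 0 ∧ Qk y = 0
  · obtain ⟨y, hy, hy0, hy'⟩ := h1
    exact H21.exists_maxPair hW (good_pt hy0 hy') (fun h => hne (by
      rw [h, pt_eq_of_mem (h ▸ hv) hgd])) (Submodule.ne_bot_iff _ |>.2 ⟨y, ⟨hy, self_mem_pt _⟩, hy0⟩)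
  push Not at h1
  have hvv : (𝑃k).B v v ≠ 0 := by rw [quad_B_self]; exact mul_ne_zero H.two (h1 v hv hgd)
  obtain ⟨v', hv', hv''⟩ : ∃ v' ∈ W, v' ∉ pt F K v := by
    by_contra hc
    push Not at hc
    exact hne (Submodule.eq_of_le_of_finrank_eq hc (by rw [hW.finrank_eq, finrank_pt hgd]))
  obtain ⟨e, f, he, hf, hef, h2, h3⟩ := (isoK_quad Qk).exists_pair_in H.E.sepK
    (nondeg_span_singleton hvv) (Y := ⊥) bot_le (by
      have h1 := finrank_le_perp (P := 𝑃k) (K ∙ v)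
      have h2 := finrank_span_singleton_le (F := K) v
      simp only [finrank_bot]; omega)
  rw [sup_bot_eq, mem_perp_singleton] at h2 h3
  obtain ⟨d₀, h5, h6, h7⟩ := exists_sing_perp_of_pair H.E.sepK he hf hef ((𝑃k).eq_zero_symm h2)
    ((𝑃k).eq_zero_symm h3) hv''
  obtain ⟨d₁, hd₁, hd₁'⟩ : ∃ d ∈ perp (𝑃k) (Submodule.span K {d₀, v}), d ∉ K ∙ d₀ := by
    by_contra hc
    push Not at hc
    have h1 := Submodule.finrank_mono (show perp (𝑃k) (Submodule.span K {d₀, v}) ≤ _ from hc)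
    have h2 := finrank_le_perp (P := 𝑃k) (Submodule.span K {d₀, v})
    have h3 := finrank_span_pair_le (F := K) d₀ v
    have h4 := finrank_span_singleton_le (F := K) d₀
    omega
  have h8 : (𝑃k).B d₀ d₁ = 0 := mem_perp_span.1 hd₁ d₀ (by simp)
  have h9 : (𝑃k).B v d₁ = 0 := mem_perp_span.1 hd₁ v (by simp)
  obtain ⟨t, ht, et⟩ := H.has_eu h5 h8
  have htv : t v = v := by rw [et, eu_fix _ h6 ((𝑃k).eq_zero_symm h9)]
  refine H21.exists_maxPair (hW.map ht) hW (fun h => ?_)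
    (Submodule.ne_bot_iff _ |>.2 ⟨v, ⟨⟨v, hv, htv⟩, hv⟩, hgd⟩)
  have hst : ∀ y ∈ W, t y - y ∈ W := fun y hy => W.sub_mem (h ▸ ⟨y, hy, rfl⟩) hy
  have h10 := hst v' hv'
  set y := t v' - v'
  have hy : y = ((𝑃k).B d₁ v' - Qk d₁ * (𝑃k).B d₀ v') • d₀ + (-(𝑃k).B d₀ v') • d₁ := by
    simp only [y, et, quad_eu]; module
  have h00 := (𝑃k).self_eq_zero h5
  have hy0 : y ≠ 0 := fun h0 => hd₁' (by
    rw [h0, eq_comm, add_eq_zero_iff_neg_eq] at hy
    rw [← Submodule.smul_mem_iff _ (neg_ne_zero.2 h7), ← hy]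
    exact Submodule.neg_mem _ (Submodule.smul_mem _ _ (Submodule.mem_span_singleton_self _)))
  have h11 : Qk d₁ ≠ 0 := fun h0 => h1 y h10 hy0 (by
    rw [hy, quad_add, quad_smul, quad_smul, h0, show Qk d₀ = 0 from h5]
    simp [h8])
  have h12 := hst y h10
  have h13 : t y - y = (-(𝑃k).B d₀ v' * (2 * Qk d₁)) • d₀ := by
    rw [et, quad_eu, hy]
    simp only [map_add, map_smul, h00, h8, (𝑃k).eq_zero_symm h8, quad_B_self d₁, smul_eq_mul]
    module
  rw [h13] at h12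
  refine h1 _ h12 (smul_ne_zero (mul_ne_zero (neg_ne_zero.2 h7) (mul_ne_zero H.two h11)) ?_)
    (by rw [quad_smul, show Qk d₀ = 0 from h5, mul_zero])
  rintro rfl
  simp at h7

/-- Vectors of a non-degenerate complement of dimension at least two are moved by commutators of
reflections. -/
theorem OO.exists_move (H : OO T M Q Qk) {Y : Submodule K V} (hY : Y ⊓ perp (𝑃k) Y = ⊥)
    (h2 : finrank K Y + 2 ≤ finrank K V) {y : V} (hy : y ∈ perp (𝑃k) Y) (hy0 : y ≠ 0) :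
    ∃ t : V ≃ₗ[K] V, res t ∈ M ∧ t ∈ (𝑃k).Isom ∧ (∀ z ∈ Y, t z = z) ∧ t y ≠ y := by
  have : FiniteDimensional K V := Module.Finite.of_restrictScalars_finite F K V
  obtain ⟨a, ha, ha0, hay⟩ : ∃ a ∈ perp (𝑃k) Y, Qk a ≠ 0 ∧ (𝑃k).B a y ≠ 0 := by
    by_cases h : Qk y = 0
    swap
    · exact ⟨y, hy, h, by rw [quad_B_self]; exact mul_ne_zero H.two h⟩
    obtain ⟨z, hz, hzy⟩ : ∃ z ∈ perp (𝑃k) Y, (𝑃k).B z y ≠ 0 := by
      by_contra hc
      push Not at hc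
      exact hy0 (show y ∈ (⊥ : Submodule K V) from perp_nondeg H.E.sepK hY ▸ ⟨hy, hc⟩)
    refine ⟨z + ((1 - Qk z) / (𝑃k).B z y) • y, Submodule.add_mem _ hz (Submodule.smul_mem _ _ hy),
      ?_, by simpa [quad_B_self, h] using hzy⟩
    rw [quad_add, quad_smul, h, map_smul, smul_eq_mul, div_mul_cancel₀ _ hzy]
    simp
  have haa : (𝑃k).B a a ≠ 0 := by rw [quad_B_self]; exact mul_ne_zero H.two ha0
  obtain ⟨z, hz, hz0⟩ := exists_nonsing_perp H.E.sepK (nondeg_sup_span hY ha haa) (by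
    have h1 := finrank_sup_le' Y (K ∙ a)
    have h3 := finrank_span_singleton_le (F := K) a
    omega)
  rw [perp_sup] at hz
  have haz : (𝑃k).B a z = 0 := mem_perp_singleton.1 hz.2
  obtain ⟨k, hk, hk'⟩ : ∃ k : K, k ≠ 0 ∧ Qk a + k * k * Qk z ≠ 0 := by
    obtain ⟨l, hl⟩ := exists_sq_notMem H.hr.one_lt H.two
    by_contra hc
    push Not at hc
    refine hl 1 (mul_right_cancel₀ hz0 ?_)
    rw [map_one]
    linear_combination hc 1 one_ne_zero - hc l (fun h => hl 0 (by simp [h]))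
  set x := a + k • z with hx
  have hx0 : Qk x ≠ 0 := by rwa [hx, quad_add, quad_smul, map_smul, haz, smul_zero, add_zero]
  have hxY : x ∈ perp (𝑃k) Y := Submodule.add_mem _ ha (Submodule.smul_mem _ _ hz.1)
  obtain ⟨s, hs, es⟩ := has_refl_isom H.E.sepK ha0
  obtain ⟨t, ht, et⟩ := has_refl_isom H.E.sepK hx0
  have hI := (𝑃k).Isom
  refine ⟨s⁻¹ * t⁻¹ * s⁻¹⁻¹ * t⁻¹⁻¹, H.hC _ (Subgroup.inv_mem _ hs) _ (Subgroup.inv_mem _ ht),
    by simp only [inv_inv]; exact Subgroup.mul_mem _ (Subgroup.mul_mem _ (Subgroup.mul_mem _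
      (Subgroup.inv_mem _ hs) (Subgroup.inv_mem _ ht)) hs) ht, fun w hw => ?_, fun h => ?_⟩
  · have h1 : s w = w := by simp [refl_apply es, mem_perp'.1 ha w hw]
    have h2 : t w = w := by simp [refl_apply et, mem_perp'.1 hxY w hw]
    have h3 : s⁻¹ w = w := by conv_lhs => rw [← h1, le_inv_apply_apply]
    have h4 : t⁻¹ w = w := by conv_lhs => rw [← h2, le_inv_apply_apply]
    simp only [inv_inv, le_mul_apply, h1, h2, h3, h4]
  · have h1 : s (t y) = t (s y) := by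
      conv_rhs => rw [← h]
      simp only [inv_inv, le_mul_apply, le_apply_inv]
    have h2 := congrArg ((𝑃k).B z) h1
    have h3 : (𝑃k).B x a = (𝑃k).B a a := by simp [hx, (𝑃k).eq_zero_symm haz]
    have h4 : (𝑃k).B z x = k * (2 * Qk z) := by simp [hx, (𝑃k).eq_zero_symm haz, quad_B_self]
    simp only [refl_apply es, refl_apply et, map_sub, map_smul, (𝑃k).eq_zero_symm haz, h3, h4,
      smul_eq_mul] at h2
    have h5 : (Qk x)⁻¹ * ((Qk a)⁻¹ * (𝑃k).B a y * (𝑃k).B a a) * (k * (2 * Qk z)) = 0 := by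
      linear_combination -h2
    simp [hx0, ha0, hay, haa, hk, hz0, H.two] at h5

theorem OO.exists_perp_pair [Finite K] (H : OO T M Q Qk) (h4 : 4 ≤ finrank K V) {u : V}
    (hu : Qk u = 0) (hu0 : u ≠ 0) {W : Submodule F V}
    (hP : MaxPair K M (fun d => Qk d = 0) (pt F K u) W) :
    ∃ d W, d ≠ 0 ∧ Qk d = 0 ∧ MaxPair K M (fun d => Qk d = 0) (pt F K d) W ∧
      ∀ y ∈ W, (𝑃k).B d y = 0 := by
  have : FiniteDimensional K V := Module.Finite.of_restrictScalars_finite F K V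
  by_cases h1 : ∃ w ∈ W, w ∉ pt F K u ∧ (𝑃k).B u w = 0
  · obtain ⟨w, hw, h1, h2⟩ := h1
    exact ⟨u, W, hu0, hu, hP, fun y hy => hP.perp_of_perp H.xle h4 hu hu0 hw h1 h2 hy⟩
  push Not at h1
  have huu : (𝑃k).B u u = 0 := (𝑃k).self_eq_zero hu
  obtain ⟨w, hw, hwU⟩ := hP.exists_right
  have hβ := h1 w hw hwU
  set Y := Submodule.span K {u, w} with hYdef
  have hY : Y ⊓ perp (𝑃k) Y = ⊥ := nondeg_span_pair huu hβ
  have hY2 : finrank K Y ≤ 2 := finrank_span_pair_le u w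
  have huY : u ∈ Y := Submodule.subset_span (by simp)
  have hwY : w ∈ Y := Submodule.subset_span (by simp)
  have hUY : ∀ z ∈ pt F K u, z ∈ Y := fun z hz => by
    obtain ⟨k, rfl⟩ := mem_pt.1 hz; exact Y.smul_mem k huY
  have hWY : ∀ y ∈ W, y ∈ Y := fun y hy => by
    obtain ⟨y₁, h2, y₀, h3, rfl⟩ := Submodule.mem_sup.1
      ((isCompl_perp hY).sup_eq_top ▸ Submodule.mem_top : y ∈ Y ⊔ perp (𝑃k) Y)
    by_cases h0 : y₀ = 0
    · simpa [h0] using h2
    obtain ⟨t, ht, ht', h5, h6⟩ := H.exists_move hY (by omega) h3 h0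
    have h7 := W.sub_mem (hP.stab ht (fun z hz _ => h5 z (hUY z hz)) hw hwU
      (by rwa [res_apply, h5 w hwY]) _ hy) hy
    rw [res_apply, map_add, h5 _ h2, add_sub_add_left_eq_sub] at h7
    have h8 : t y₀ - y₀ ∈ perp (𝑃k) Y := Submodule.sub_mem _ (fun z hz => by
      rw [← h5 z hz, ht'.1]; exact h3 z hz) h3
    have h9 : t y₀ - y₀ ∈ pt F K u := by
      by_contra h9
      exact h1 _ h7 h9 (h8 u huY)
    exact absurd (sub_eq_zero.1 (show _ ∈ (⊥ : Submodule K V) from hY ▸ ⟨hUY _ h9, h8⟩)) h6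
  obtain ⟨e, he, he0⟩ := Submodule.exists_mem_ne_zero_of_ne_bot hP.ne_bot
  obtain ⟨δ, rfl⟩ := mem_pt.1 he.1
  obtain ⟨d, hd, hQd⟩ : ∃ d ∈ perp (𝑃k) Y, Qk d = δ / (𝑃k).B u w := by
    obtain ⟨a, ha, ha0⟩ := exists_nonsing_perp H.E.sepK hY (by omega)
    obtain ⟨z, hz, hz0⟩ := exists_nonsing_perp H.E.sepK (nondeg_sup_span hY ha (by
      rw [quad_B_self]; exact mul_ne_zero H.two ha0)) (by
        have h1 := finrank_sup_le' Y (K ∙ a)
        have h3 := finrank_span_singleton_le (F := K) a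
        omega)
    rw [perp_sup] at hz
    obtain ⟨s, t, h⟩ := exists_sq_add_sq H.two ha0 hz0 (δ / (𝑃k).B u w)
    refine ⟨s • a + t • z, Submodule.add_mem _ (Submodule.smul_mem _ _ ha)
      (Submodule.smul_mem _ _ hz.1), ?_⟩
    rw [quad_add, quad_smul, quad_smul, ← h]
    simp [mem_perp_singleton.1 hz.2]
  obtain ⟨t, ht, et⟩ := H.has_eu hu (hd u huY)
  have htw : t w = w - δ • u - (𝑃k).B u w • d := by
    rw [et, quad_eu, mem_perp'.1 hd w hwY, hQd, div_mul_cancel₀ _ hβ]; module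
  have h2 : t w ∉ W := fun h => by
    have h3 : (𝑃k).B u w • d ∈ Y := by
      have := Y.sub_mem (Y.sub_mem hwY (Y.smul_mem δ huY)) (hWY _ h)
      rwa [htw, sub_sub_cancel] at this
    have h5 : d = 0 := show d ∈ (⊥ : Submodule K V) from hY ▸ ⟨(Y.smul_mem_iff hβ).1 h3, hd⟩
    rw [h5, map_zero, eq_comm, div_eq_zero_iff] at hQd
    exact he0 (by rw [hQd.resolve_right hβ, zero_smul])
  obtain ⟨h3, -⟩ := hP.of_le hP.right (hP.right.map ht) (fun h => h2 (h ▸ ⟨w, hw, rfl⟩))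
    fun z hz => ⟨hz.2, z, hz.2, by
      obtain ⟨k, rfl⟩ := mem_pt.1 hz.1
      rw [LinearEquiv.coe_coe, et, eu_fix _ (by simp [huu]) (by simp [mem_perp'.1 hd u huY])]⟩
  have hWW := polar_eq_zero_of_ts (H.sing hP.right)
  have h5 : ∀ y ∈ W, (𝑃).B y (t w) = 0 := fun y hy => by
    rw [htw, map_sub, map_sub, hWW y hy w hw, hWW y hy _ he.2,
      H.E.B_zero (by simp [hd y (hWY y hy)])]
    simp
  obtain ⟨a, ha, d', h6, h7, h8, h9⟩ := h3.exists_pt
  refine ⟨d', _, h6, h7, h9, fun y hy => h9.perp_of_perp H.xle h4 h7 h6 (w := a (t w))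
    ⟨_, ⟨w, hw, rfl⟩, rfl⟩ (fun h => h2 ?_) (H.E.mem_perp_pt.1 ?_) hy⟩
  · rwa [← h8, mem_map_le] at h
  · rw [← h8]
    rintro _ ⟨y, hy, rfl⟩
    exact ((H.hM ha).1 _ _).trans (h5 y hy)

/-- The final step for quadratic extensions, given the irreducibility on `x^⊥ / x`. -/
theorem OO.EG_le_of_two (H : OO T M Q Qk) (hr : finrank F K = 2) (h3 : 3 ≤ finrank K V)
    (htr : ∀ x y, x ≠ 0 → y ≠ 0 → Qk x = 0 → Qk y = 0 → ∃ g ∈ EG (𝑃k), g x = y)
    (hirr : ∀ x, x ≠ 0 → Qk x = 0 → ∀ N : Submodule F V, pt F K x ≤ N →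
      (∀ g ∈ M, g x = x → ∀ z ∈ N, g z ∈ N) → ∀ y ∈ N, y ∉ pt F K x → (𝑃k).B x y = 0 →
      ∀ z, (𝑃k).B x z = 0 → z ∈ N)
    {u : V} (hu : Qk u = 0) (hu0 : u ≠ 0) {W : Submodule F V}
    (hP : MaxPair K M (fun d => Qk d = 0) (pt F K u) W) (h : ∀ y ∈ W, (𝑃k).B u y = 0) :
    EG (𝑃) ≤ M := by
  have : FiniteDimensional K V := Module.Finite.of_restrictScalars_finite F K V
  have hs : ∀ d, (𝑃k).q d ∈ (𝑃k).Λ → (𝑃).q d ∈ (𝑃).Λ := fun d hd =>
    H.sing_pt hd d (self_mem_pt d)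
  have hE : EG (𝑃k) ≤ M.comap res := EG_le fun d w c hd => H.xle d hd w c
  have h1 : ∀ x (hx : Qk x = 0), x ≠ 0 → pt F K x ≤ Wd (𝑃) M x (hs x hx) := fun x hx hx0 y hy => by
    obtain ⟨g, hg, rfl⟩ := htr u x hu0 hx0 hu hx
    obtain ⟨k, rfl⟩ := mem_pt.1 hy
    have := Wd_apply (hx' := hs _ hx) (H.le_Wd h3 hu hu0 hP h (self_mem_pt u) hu0 (smul_mem_pt k u))
      (hE hg) (H.hM (hE hg)) rfl
    rwa [res_apply, map_smul] at this
  obtain ⟨e, he, he0⟩ := Submodule.exists_mem_ne_zero_of_ne_bot hP.ne_bot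
  have hpt := pt_eq_of_mem he.1 he0
  obtain ⟨w, hw, hwU⟩ := hP.exists_right
  obtain ⟨g, hg, d, -, hd, rfl⟩ := hP.right
  obtain ⟨d', hd', rfl⟩ := he.2
  rw [LinearEquiv.coe_coe] at he he0 hpt
  have hd'0 : d' ≠ 0 := by rintro rfl; simp at he0
  have hpt' := pt_eq_of_mem hd' hd'0
  have h2 : Qk d' = 0 := by
    obtain ⟨k, rfl⟩ := mem_pt.1 hd'
    rw [quad_smul, hd, mul_zero]
  have h4 : Qk (g d') = 0 := by
    obtain ⟨k, hk⟩ := mem_pt.1 he.1
    rw [← hk, quad_smul, hu, mul_zero]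
  have h5 : ∀ z, (𝑃k).B (g d') z = 0 → z ∈ Wd (𝑃) M (g d') (hs _ h4) := by
    refine hirr _ he0 h4 _ (h1 _ h4 he0) (fun t ht e z hz => Wd_apply hz ht (H.hM ht) e) w ?_
      (hpt ▸ hwU) ?_
    · obtain ⟨y, hy, rfl⟩ := hw
      exact Wd_apply (h1 d' h2 hd'0 (hpt' ▸ hy)) hg (H.hM hg) rfl
    · obtain ⟨k, hk⟩ := mem_pt.1 he.1
      rw [← hk, B_smul_left, h w hw, mul_zero]
  refine H.E.EG_le_of_xle hs H.hM (fun x y h1 h2 h3 h4 => ?_) he0 h4
    (xle_of_Wd_quad fun z hz => H.E.perp_le_Wd hr hs H.hM (fun x hx' hx0' z hz => ?_) hg hd'0 h2 h4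
      (by rw [hpt, hpt']; exact hP.ne.symm) hz)
  · obtain ⟨t, h5, h6⟩ := htr x y h1 h2 h3 h4
    exact ⟨res t, hE h5, h6⟩
  · obtain ⟨t, h6, h7⟩ := htr (g d') x he0 hx0' h4 hx'
    have := Wd_apply (hx' := hs x hx') (h5 (t⁻¹ z) (by
      rw [← (EG_le_isom h6).1, h7, le_apply_inv, hz])) (hE h6) (H.hM (hE h6)) h7
    rwa [res_apply, le_apply_inv] at this

theorem OO.EG_le [Finite K] (H : OO T M Q Qk) (h4 : 4 ≤ finrank K V)
    (h5 : finrank F K = 2 → 5 ≤ finrank K V) {g : V ≃ₗ[F] V} (hg : g ∈ M) (hg' : g ∉ NK F K V) :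
    EG (𝑃) ≤ M := by
  have : FiniteDimensional K V := Module.Finite.of_restrictScalars_finite F K V
  obtain ⟨u, W, hu0, hu, hP⟩ := H.exists_maxPair h4 hg hg'
  obtain ⟨u, W, hu0, hu, hP, h⟩ := H.exists_perp_pair h4 hu hu0 hP
  by_cases hr : finrank F K = 2
  · refine H.EG_le_of_two hr (by omega) (fun x y hx hy h1 h2 =>
      (isoK_quad Qk).exists_EG_apply_eq H.E.sepK (h5 hr) hx hy
        ((𝑃k).Λ.sub_mem h1 h2)) (fun x hx0 hx N _ hN y hy h1 h2 z hz => ?_) hu hu0 hP h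
    refine perp_le_of_inv (isoK_quad Qk) H.E.sepK (h5 hr) (h5 hr) hx
      (fun d w c h3 h6 h7 h8 h9 z hz => ?_) hy h1 h2 hz
    obtain ⟨t, ht, e⟩ := Has.of_comap (H.xle d h3 w c h6 h7)
    exact e z ▸ hN t ht (by rw [e, eu_fix _ h8 h9]) z hz
  · have := H.hr.two_le
    exact H.EG_le_of_three (by omega) (by omega) hu hu0 fun e he he0 =>
      H.le_Wd (by omega) hu hu0 hP h he he0

/-- The quadratic form over `K` whose trace is `Q`. -/
theorem exists_OO [Finite K] (hr : (finrank F K).Prime) (h2 : (2 : F) ≠ 0)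
    (hQ : (QuadraticMap.polarBilin Q).SeparatingLeft) (hn : 5 ≤ finrank F V)
    (h1 : ∀ (k : K) x y, QuadraticMap.polar Q (k • x) y = QuadraticMap.polar Q x (k • y)) :
    ∃ (T : K →ₗ[F] F) (Qk : QuadraticForm K V), (∀ v, Q v = T (Qk v)) ∧ ∀ M,
      NK F K V ⊓ EG (𝑃) ≤ M → M ≤ EG (𝑃) → OO T M Q Qk := by
  have : Finite F := Finite.of_injective _ (algebraMap F K).injective
  have : FiniteDimensional F K := .of_finrank_pos hr.pos
  have : FiniteDimensional K V := Module.Finite.of_restrictScalars_finite F K V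
  have h2' : (2 : K) ≠ 0 := by rw [← map_ofNat (algebraMap F K)]; exact (map_ne_zero _).2 h2
  obtain ⟨b, hb⟩ := exists_form (τ := RingHom.id K) (Algebra.trace F K) nd_trace (𝑃).B h1
  have hS : ∀ x y, b y x = b x y := fun x y => by
    simpa [PQ.ofQuad] using form_symm (τ := RingHom.id K) nd_trace (fun _ => rfl) (fun _ => rfl)
      hb x y
  let Qk : QuadraticForm K V := (2⁻¹ : K) • LinearMap.BilinMap.toQuadraticMap b
  have hQk : ∀ v, Qk v = 2⁻¹ * b v v := fun _ => rfl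
  have hB : ∀ x y, (PQ.ofQuad Qk).B x y = b x y := fun x y => by
    rw [ofQuad_B, QuadraticMap.polar, hQk, hQk, hQk]
    simp only [map_add, LinearMap.add_apply, hS x y]
    field_simp; ring
  have hQQ : ∀ v, Q v = Algebra.trace F K (Qk v) := fun v => mul_left_cancel₀ h2 (by
    rw [← quad_B_self, hb, ← hB, quad_B_self, two_mul, two_mul, map_add])
  have hI : ∀ a ∈ (PQ.ofQuad Qk).Isom, res a ∈ (𝑃).Isom := fun a ha =>
    PQ.mem_isom_ofQuad.2 fun x => by rw [hQQ, hQQ, res_apply, PQ.mem_isom_ofQuad.1 ha]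
  refine ⟨_, Qk, hQQ, fun M h3 h4 => ⟨⟨nd_trace, fun x y => by rw [hB, hb], hQ⟩, hQQ, h2', hr,
    h4.trans EG_le_isom, fun a ha b hb => h3 ⟨res_mem_NK _, ?_⟩⟩⟩
  simp only [map_mul, map_inv]
  exact (isoK_quad Q).commutator_mem_EG hQ hn (hI a ha) (hI b hb)

theorem isMaximalIn_OO [Finite K] (hr : (finrank F K).Prime) (h2 : (2 : F) ≠ 0)
    (hQ : (QuadraticMap.polarBilin Q).SeparatingLeft) (h4 : 4 ≤ finrank K V)
    (h5 : finrank F K = 2 → 5 ≤ finrank K V)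
    (h1 : ∀ (k : K) x y, QuadraticMap.polar Q (k • x) y = QuadraticMap.polar Q x (k • y)) :
    Geo.IsMaximalIn (EG (𝑃)) (NK F K V ⊓ EG (𝑃)) := by
  have : Finite F := Finite.of_injective _ (algebraMap F K).injective
  have hn : 5 ≤ finrank F V := by
    have := Nat.mul_le_mul hr.two_le h4
    rw [Module.finrank_mul_finrank] at this
    omega
  obtain ⟨T, Qk, -, H⟩ := exists_OO hr h2 hQ hn h1
  obtain ⟨x, -, hx0, hx⟩ := isoK_quad Q ⊤ (by rw [finrank_top]; omega)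
  obtain ⟨g, hg, hg'⟩ := exists_EG_not_NK (K := K) (P := 𝑃) hr.one_lt hQ hn hx0 hx
  exact isMaximalIn_of inf_le_right (fun h => hg' (h hg).1) fun M h3 h6 ⟨g, h7, h8⟩ =>
    (H M h3 h6).EG_le h4 h5 h7 fun h => h8 ⟨h, h6 h7⟩

open Matrix in
theorem fieldSub_OO {ι : Type} [Fintype ι] [DecidableEq ι] {F : Type*} [Field F] [Fintype F]
    (hodd : Odd (Fintype.card F)) {Q : QuadraticForm F (ι → F)}
    (hQ : (QuadraticMap.polarBilin Q).SeparatingLeft) {r : ℕ} (hr : r.Prime)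
    (h4 : 3 * r < Fintype.card ι) (h5 : r = 2 → 8 < Fintype.card ι)
    {K : Subalgebra F (Matrix ι ι F)} (hK : Geo.IsFieldSubalgebra r K)
    (hsa : Geo.IsSelfAdjointFor (QuadraticMap.polar Q) K) :
    Geo.IsMaximalIn (Geo.omegaGL Q) (Geo.subalgebraNormalizer K ⊓ Geo.omegaGL Q) := by
  have : Nonempty ι := Fintype.card_pos_iff.1 (by omega)
  have := hr.two_le
  refine fieldSub_elim hK fun E _ _ _ _ _ hE h1 h2 e => ?_
  rw [e, omegaGL_eq hQ (by omega), ← pull_inf]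
  have hm := Module.finrank_mul_finrank F E (ι → F)
  rw [hE, finrank_fintype_fun_eq_card] at hm
  refine isMaximalIn_pull (isMaximalIn_OO (hE ▸ hr) (two_ne_zero_of_odd hodd) hQ ?_ (fun h => ?_)
    fun k x y => ?_)
  · rw [← hm, mul_comm] at h4
    exact Nat.lt_of_mul_lt_mul_left h4
  · have := h5 (hE ▸ h)
    rw [← hE, h] at hm
    omega
  · obtain ⟨a, ha, h3⟩ := h2 k
    rw [← h3, ← h3, hsa a ha]

end H21
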