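import Mathlib
import Cfsg.Agent.Base

/-!
Polynomial functions of bounded weighted degree over a finite field, a weighted Chevalley-Warning
theorem, and the invariance lemma for a subgroup acting freely off one coset.
-/

set_option autoImplicit false
set_option linter.unusedSectionVars false

namespace H21

open Module Finset

section PD

variable {F ι : Type*} [Field F] [Fintype ι] (w : ι → ℕ)

/-- Functions `F^ι → E` of weighted degree at most `d`. -/
def PD (E : Type*) [AddCommGroup E] [Module F E] (d : ℕ) : Submodule F ((ι → F) → E) :=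
  Submodule.span F {g | ∃ (m : ι → ℕ) (e : E), ∑ i, w i * m i ≤ d ∧
    g = fun x => (∏ i, x i ^ m i) • e}

variable {w} {E E' E'' : Type*} [AddCommGroup E] [Module F E] [AddCommGroup E'] [Module F E']
  [AddCommGroup E''] [Module F E''] {d d' : ℕ}

theorem PD.const (e : E) : (fun _ => e) ∈ PD (F := F) w E d :=
  Submodule.subset_span ⟨0, e, by simp, by simp⟩

theorem PD.coord (i : ι) (e : E) : (fun x : ι → F => x i • e) ∈ PD w E (w i) := by
  classical
  refine Submodule.subset_span ⟨Pi.single i 1, e, ?_, ?_⟩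
  · simp [Pi.single_apply]
  · ext x
    simp [Pi.single_apply, pow_ite]

theorem PD.mono (h : d ≤ d') {g : (ι → F) → E} (hg : g ∈ PD w E d) : g ∈ PD w E d' :=
  Submodule.span_mono (by rintro _ ⟨m, e, h1, rfl⟩; exact ⟨m, e, h1.trans h, rfl⟩) hg

theorem PD.congr {g g' : (ι → F) → E} (hg : g ∈ PD w E d) (h : ∀ x, g' x = g x) :
    g' ∈ PD w E d := (funext h : g' = g) ▸ hg

theorem PD.map (L : E →ₗ[F] E') {g : (ι → F) → E} (hg : g ∈ PD w E d) :
    (fun x => L (g x)) ∈ PD w E' d := by
  induction hg using Submodule.span_induction with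
  | mem _ h =>
    obtain ⟨m, e, h1, rfl⟩ := h
    exact Submodule.subset_span ⟨m, L e, h1, by simp⟩
  | zero => exact PD.congr (Submodule.zero_mem _) (by simp)
  | add a b _ _ ha hb => exact PD.congr (Submodule.add_mem _ ha hb) (by simp)
  | smul c a _ ha => exact PD.congr (Submodule.smul_mem _ c ha) (by simp)

theorem PD.bil (B : E →ₗ[F] E' →ₗ[F] E'') {g : (ι → F) → E} {g' : (ι → F) → E'}
    (hg : g ∈ PD w E d) (hg' : g' ∈ PD w E' d') :
    (fun x => B (g x) (g' x)) ∈ PD w E'' (d + d') := by
  induction hg using Submodule.span_induction with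
  | mem _ h =>
    obtain ⟨m, e, h1, rfl⟩ := h
    induction hg' using Submodule.span_induction with
    | mem _ h =>
      obtain ⟨m', e', h2, rfl⟩ := h
      refine Submodule.subset_span ⟨m + m', B e e', ?_, ?_⟩
      · simp only [Pi.add_apply, mul_add, sum_add_distrib]; omega
      · ext x
        simp only [Pi.add_apply, pow_add, prod_mul_distrib, map_smul, LinearMap.smul_apply,
          smul_smul, mul_comm]
    | zero => exact PD.congr (Submodule.zero_mem _) (by simp)
    | add a b _ _ ha hb => exact PD.congr (Submodule.add_mem _ ha hb) (by simp)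
    | smul c a _ ha => exact PD.congr (Submodule.smul_mem _ c ha) (by simp)
  | zero => exact PD.congr (Submodule.zero_mem _) (by simp)
  | add a b _ _ ha hb => exact PD.congr (Submodule.add_mem _ ha hb) (by simp)
  | smul c a _ ha => exact PD.congr (Submodule.smul_mem _ c ha) (by simp)

theorem PD.add {g g' : (ι → F) → E} (hg : g ∈ PD w E d) (hg' : g' ∈ PD w E d) :
    (fun x => g x + g' x) ∈ PD w E d := Submodule.add_mem _ hg hg'

theorem PD.sub {g g' : (ι → F) → E} (hg : g ∈ PD w E d) (hg' : g' ∈ PD w E d) :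
    (fun x => g x - g' x) ∈ PD w E d := Submodule.sub_mem _ hg hg'

theorem PD.neg {g : (ι → F) → E} (hg : g ∈ PD w E d) : (fun x => -g x) ∈ PD w E d :=
  Submodule.neg_mem _ hg

theorem PD.sum {α : Type*} (s : Finset α) {g : α → (ι → F) → E} (hg : ∀ a ∈ s, g a ∈ PD w E d) :
    (fun x => ∑ a ∈ s, g a x) ∈ PD w E d :=
  PD.congr (Submodule.sum_mem _ hg) (by simp)

theorem PD.mul {A : Type*} [Ring A] [Algebra F A] {g g' : (ι → F) → A} (hg : g ∈ PD w A d)
    (hg' : g' ∈ PD w A d') : (fun x => g x * g' x) ∈ PD w A (d + d') :=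
  PD.bil (LinearMap.mul F A) hg hg'

theorem PD.pow {A : Type*} [Ring A] [Algebra F A] {g : (ι → F) → A} (hg : g ∈ PD w A d) (n : ℕ) :
    (fun x => g x ^ n) ∈ PD w A (n * d) := by
  induction n with
  | zero => exact PD.congr (PD.const 1) (by simp)
  | succ n ih => exact PD.congr (Nat.succ_mul n d ▸ PD.mul ih hg) (by simp [pow_succ])

theorem PD.prod {A α : Type*} [CommRing A] [Algebra F A] (s : Finset α) {g : α → (ι → F) → A}
    (hg : ∀ a, g a ∈ PD w A d) : (fun x => ∏ a ∈ s, g a x) ∈ PD w A (#s * d) := by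
  classical
  induction s using Finset.induction_on with
  | empty => exact PD.congr (PD.const 1) (by simp)
  | insert a s ha ih =>
    rw [card_insert_of_notMem ha, Nat.succ_mul]
    exact PD.congr (PD.mul ih (hg a)) (by simp [prod_insert ha, mul_comm])

theorem PD.det {A n : Type*} [CommRing A] [Algebra F A] [Fintype n] [DecidableEq n]
    {g : (ι → F) → Matrix n n A} (hg : ∀ i j, (fun x => g x i j) ∈ PD w A d) :
    (fun x => (g x).det) ∈ PD w A (Fintype.card n * d) := by
  refine PD.congr (PD.sum univ (g := fun (s : Equiv.Perm n) x =>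
    (Equiv.Perm.sign s : ℤ) • ∏ i, g x (s i) i) fun s _ => ?_) fun x => by
      rw [Matrix.det_apply]; rfl
  exact PD.map ((Equiv.Perm.sign s : ℤ) • LinearMap.id) (PD.prod univ fun i => hg (s i) i)

variable [Fintype F] [DecidableEq ι]

theorem PD.sum_eq_zero (h : d < (∑ i, w i) * (Fintype.card F - 1)) {g : (ι → F) → E}
    (hg : g ∈ PD w E d) : ∑ x, g x = 0 := by
  induction hg using Submodule.span_induction with
  | mem _ hg =>
    obtain ⟨m, e, h1, rfl⟩ := hg
    obtain ⟨i, hi⟩ : ∃ i, m i < Fintype.card F - 1 := by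
      by_contra hc
      push Not at hc
      have : (∑ i, w i) * (Fintype.card F - 1) ≤ ∑ i, w i * m i := by
        rw [sum_mul]; exact sum_le_sum fun i _ => Nat.mul_le_mul_left _ (hc i)
      omega
    rw [← sum_smul, ← Fintype.piFinset_univ, ← prod_univ_sum (fun _ => univ) fun i (y : F) => y ^ m i,
      prod_eq_zero (mem_univ i) (FiniteField.sum_pow_lt_card_sub_one F _ hi), zero_smul]
  | zero => simp
  | add a b _ _ ha hb => simp [sum_add_distrib, ha, hb]
  | smul c a _ ha => simp [← smul_sum, ha]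

/-- The weighted Chevalley-Warning theorem. -/
theorem PD.exists_zero (h : d < ∑ i, w i) {g : (ι → F) → F} (hg : g ∈ PD w F d) (h0 : g 0 = 0) :
    ∃ x, x ≠ 0 ∧ g x = 0 := by
  by_contra hc
  push Not at hc
  have hq : 0 < Fintype.card F - 1 := by have := Fintype.one_lt_card (α := F); omega
  have h1 := PD.sum_eq_zero (d := (Fintype.card F - 1) * d)
    (by rw [mul_comm]; exact Nat.mul_lt_mul_of_pos_right h hq)
    (PD.sub (PD.const (1 : F)) (PD.pow hg (Fintype.card F - 1)))
  rw [sum_eq_single 0 (fun x _ hx => by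
    rw [FiniteField.pow_card_sub_one_eq_one _ (hc x hx), sub_self]) (by simp)] at h1
  simp [h0, hq.ne'] at h1

end PD

/-- A vector fixed by `S` is fixed by the group when a subgroup of `S` acts freely on the other
cosets and its sum annihilates the module. -/
theorem fixed_of_free {G E A : Type*} [Group G] [Finite G] [AddCommGroup E] [AddGroup A] [Fintype A]
    (S : Subgroup G) (ρ : G →* AddMonoid.End E) {e : E} (he : ∀ s ∈ S, ρ s e = e) (t : A → G)
    (ht : ∀ a b, t (a + b) = t a * t b) (hfree : ∀ g, g ∉ S → ∀ a, g⁻¹ * t a * g ∈ S → a = 0)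
    (htS : ∀ a, t a ∈ S) (hsum : ∀ x, ∑ a, ρ (t a) x = 0) (g : G) : ρ g e = e := by
  classical
  have := Fintype.ofFinite (G ⧸ S)
  have ht0 : t 0 = 1 := by simpa using ht 0 0
  have hneg : ∀ a, t (-a) = (t a)⁻¹ := fun a =>
    eq_inv_of_mul_eq_one_left (by rw [← ht, neg_add_cancel, ht0])
  let f : G ⧸ S → E := fun x => ρ x.out e
  have hf : ∀ g : G, f (g : G ⧸ S) = ρ g e := fun g => by
    obtain ⟨s, hs⟩ := QuotientGroup.mk_out_eq_mul S g
    simp only [f, hs, map_mul, AddMonoid.End.coe_mul, Function.comp_apply, he s s.2]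
  have hf' : ∀ (g : G) (x : G ⧸ S), f (g • x) = ρ g (f x) := fun g x => by
    induction x using QuotientGroup.induction_on with
    | H y => rw [MulAction.Quotient.smul_mk, hf, hf, smul_eq_mul, map_mul]; rfl
  have h1 : ρ g (∑ x, f x) = ∑ x, f x := by
    rw [map_sum]
    simp only [← hf']
    exact Equiv.sum_comp (MulAction.toPerm g) f
  have h2 : ∑ x ∈ univ.erase ((1 : G) : G ⧸ S), f x = 0 := by
    let R : Setoid (G ⧸ S) := ⟨fun x y => ∃ a, x = t a • y, fun x => ⟨0, by simp [ht0]⟩,
      fun ⟨a, h⟩ => ⟨-a, by simp [h, hneg]⟩,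
      fun ⟨a, h⟩ ⟨b, h'⟩ => ⟨a + b, by rw [h, h', ht, mul_smul]⟩⟩
    refine sum_cancels_of_partition_cancels R fun x hx => ?_
    induction x using QuotientGroup.induction_on with
    | H y =>
    have hy : y ∉ S := fun h => (mem_erase.1 hx).1 (QuotientGroup.eq.2 (by simpa using h))
    rw [← hsum (f y)]
    symm
    refine sum_bij (fun a _ => t a • (y : G ⧸ S)) (fun a _ => ?_) (fun a _ b _ h => ?_)
      (fun z hz => ?_) fun a _ => (hf' _ _).symm
    · refine mem_filter.2 ⟨mem_erase.2 ⟨fun h => hy ?_, mem_univ _⟩, a, rfl⟩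
      rw [MulAction.Quotient.smul_mk, QuotientGroup.eq] at h
      simpa using S.mul_mem (S.inv_mem (htS a)) (S.inv_mem h)
    · rw [MulAction.Quotient.smul_mk, MulAction.Quotient.smul_mk, QuotientGroup.eq] at h
      have := hfree y hy (-a + b) (by simpa [ht, hneg, mul_assoc] using h)
      exact neg_add_eq_zero.1 this
    · obtain ⟨a, ha⟩ := (mem_filter.1 hz).2
      exact ⟨a, mem_univ _, ha.symm⟩
  rw [← add_sum_erase _ _ (mem_univ ((1 : G) : G ⧸ S)), h2, add_zero, hf, map_one] at h1
  exact h1

end H21
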