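import Mathlib
import Cfsg.Agent.Base
import Cfsg.Agent.Lib.ExtFld.PD
import Cfsg.Agent.Lib.ExtFld.OO2

/-!
A group all of whose point stabilisers are semilinear is semilinear, when a unipotent subgroup of
small degree acts freely on the other conjugates of the point.
-/

set_option autoImplicit false
set_option linter.unusedSectionVars false

namespace H21

open Module Cfsg H97 H28 Finset

theorem PD.comp_neg {F ι E : Type*} [Field F] [Fintype ι] {w : ι → ℕ} [AddCommGroup E] [Module F E]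
    {d : ℕ} {g : (ι → F) → E} (hg : g ∈ PD w E d) : (fun x => g (-x)) ∈ PD w E d := by
  induction hg using Submodule.span_induction with
  | mem _ h =>
    obtain ⟨m, e, h1, rfl⟩ := h
    refine Submodule.subset_span ⟨m, (∏ i, (-1 : F) ^ m i) • e, h1, ?_⟩
    ext x
    simp only [Pi.neg_apply, smul_smul, ← prod_mul_distrib, ← mul_pow, mul_neg, mul_one]
  | zero => exact Submodule.zero_mem _
  | add a b _ _ ha hb => exact Submodule.add_mem _ ha hb
  | smul c a _ ha => exact Submodule.smul_mem _ c ha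

variable {F K V : Type*} [Field F] [Field K] [Algebra F K] [AddCommGroup V] [Module F V]
  [Module K V] [IsScalarTower F K V] {M : Subgroup (V ≃ₗ[F] V)}

/-- Conjugation on the endomorphism algebra. -/
def cjE : (V ≃ₗ[F] V) →* Module.End F (Module.End F V) where
  toFun g := LinearMap.mulLeft F (g : V →ₗ[F] V) ∘ₗ
    LinearMap.mulRight F ((g⁻¹ : V ≃ₗ[F] V) : V →ₗ[F] V)
  map_one' := by ext a x; rfl
  map_mul' g h := by ext a x; rfl

theorem cjE_apply (g : V ≃ₗ[F] V) (a : Module.End F V) (x : V) : cjE g a x = g (a (g⁻¹ x)) := rfl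

/-- Conjugation on the endomorphisms of the endomorphism algebra. -/
def cjEE : (V ≃ₗ[F] V) →* AddMonoid.End (Module.End F (Module.End F V)) where
  toFun g := AddMonoidHom.mk' (fun ω => cjE g * ω * cjE g⁻¹) fun a b => by
    rw [mul_add, add_mul]
  map_one' := by
    ext ω : 1
    show cjE 1 * ω * cjE 1⁻¹ = ω
    simp
  map_mul' g h := by
    ext ω : 1
    show cjE (g * h) * ω * cjE (g * h)⁻¹ = cjE g * (cjE h * ω * cjE h⁻¹) * cjE g⁻¹
    simp [mul_assoc]

theorem cjEE_apply (g : V ≃ₗ[F] V) (ω : Module.End F (Module.End F V)) :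
    cjEE g ω = cjE g * ω * cjE g⁻¹ := rfl

variable (F V) in
/-- Multiplication by a unit of `K`. -/
def sc : Kˣ →* (V ≃ₗ[F] V) where
  toFun k := res (F := F) (LinearEquiv.smulOfUnit k)
  map_one' := by ext x; simp [res_apply, LinearEquiv.smulOfUnit]
  map_mul' a b := by ext x; simp [res_apply, LinearEquiv.smulOfUnit, mul_smul]

theorem sc_apply (k : Kˣ) (x : V) : sc F V k x = (k : K) • x := rfl

theorem mem_NK_of_fix [Fintype Kˣ] [Finite K] [FiniteDimensional F K] (hV : ∀ a : V, ∃ b, b ∉ K ∙ a)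
    {g : V ≃ₗ[F] V} (h : cjEE g (∑ k : Kˣ, cjE (sc F V k)) = ∑ k : Kˣ, cjE (sc F V k)) :
    g ∈ NK F K V := by
  classical
  have := Fintype.ofFinite K
  set e := ∑ k : Kˣ, cjE (sc F V k) with he
  have e1 : ∀ (a : Module.End F V) x, e a x = ∑ k : Kˣ, (k : K) • a (((k⁻¹ : Kˣ) : K) • x) :=
    fun a x => by
      simp only [he, LinearMap.sum_apply, cjE_apply, ← map_inv, sc_apply]
  have e2 : ∀ (a : Module.End F V) (k : K) x, e a (k • x) = k • e a x := fun a k x => by
    by_cases hk : k = 0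
    · simp [hk]
    rw [e1, e1, smul_sum, ← Equiv.sum_comp (Equiv.mulLeft (Units.mk0 k hk))]
    refine sum_congr rfl fun j _ => ?_
    simp only [Equiv.coe_mulLeft, Units.val_mul, Units.val_mk0, mul_inv_rev, smul_smul,
      Units.val_inv_eq_inv_val, inv_mul_cancel_right₀ hk]
  have e3 : ∀ a : V →ₗ[K] V, ∀ x, e (a.restrictScalars F) x = -a x := fun a x => by
    rw [e1]
    simp only [LinearMap.restrictScalars_apply, map_smul, smul_smul, Units.mul_inv, one_smul,
      sum_const, card_univ]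
    rw [← Nat.card_eq_fintype_card, Nat.card_units, Nat.card_eq_fintype_card,
      ← Nat.cast_smul_eq_nsmul K, Nat.cast_sub Fintype.card_pos]
    simp
  have e4 : ∀ (a : V →ₗ[K] V) (k : K) x, g (a (g⁻¹ (k • x))) = k • g (a (g⁻¹ x)) := fun a k x => by
    have h1 : ∀ x, e (cjE g (a.restrictScalars F)) x = -g (a (g⁻¹ x)) := fun x => by
      rw [← h, cjEE_apply, Module.End.mul_apply, Module.End.mul_apply, ← Module.End.mul_apply
        (cjE g⁻¹), ← map_mul, inv_mul_cancel, map_one, Module.End.one_apply, cjE_apply, e3, map_neg]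
    have := e2 (cjE g (a.restrictScalars F)) k x
    rwa [h1, h1, smul_neg, neg_inj] at this
  rw [← inv_mem_iff]
  refine mem_NK_of fun k => ?_
  let φ : V →+ V :=
    { toFun := fun y => g⁻¹ (k • g y)
      map_zero' := by simp
      map_add' := fun x y => by simp }
  obtain ⟨k', hk'⟩ := exists_scalar_of_forall hV φ fun y => by
    obtain ⟨C, hC⟩ := (K ∙ y).exists_isCompl
    let a : V →ₗ[K] V := (K ∙ y).subtype ∘ₗ (K ∙ y).projectionOnto C hC
    have h1 : a y = y := by
      simpa [a] using congrArg Subtype.val (Submodule.projectionOnto_apply_left hC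
        ⟨y, Submodule.mem_span_singleton_self y⟩)
    have h2 := e4 a k (g y)
    rw [le_inv_apply_apply, h1] at h2
    have h3 : φ y = a (g⁻¹ (k • g y)) := g.injective (by rw [h2]; exact le_apply_inv _ _)
    rw [h3]
    exact Submodule.coe_mem _
  exact ⟨k', fun x => by simpa [φ, le_apply_inv] using hk' (g⁻¹ x)⟩

theorem fix_of_mem_NK [Fintype Kˣ] {v : V} (hv : v ≠ 0) {g : V ≃ₗ[F] V} (hg : g ∈ NK F K V) :
    cjEE g (∑ k : Kˣ, cjE (sc F V k)) = ∑ k : Kˣ, cjE (sc F V k) := by
  choose θ hθ using hg.1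
  have hgv : g v ≠ 0 := by simpa using hv
  have h0 : ∀ k : Kˣ, θ k ≠ 0 := fun k h => by
    have := hθ k v
    rw [h, zero_smul] at this
    simp [hv] at this
  let θ' : Kˣ → Kˣ := fun k => Units.mk0 _ (h0 k)
  have hinj : Function.Injective θ' := fun a b h => by
    have h1 : θ a = θ b := congrArg Units.val h
    have : g ((a : K) • v) = g ((b : K) • v) := by rw [hθ, hθ, h1]
    exact Units.ext (smul_left_injective K hv (g.injective this))
  rw [map_sum]
  refine (sum_congr rfl fun k _ => ?_).trans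
    (Equiv.sum_comp (Equiv.ofBijective θ' (Finite.injective_iff_bijective.1 hinj)) _)
  rw [cjEE_apply, ← map_mul, ← map_mul]
  congr 1
  ext x
  simp [le_mul_apply, sc_apply, hθ, le_apply_inv, θ']

/-- The invariance lemma. -/
theorem le_NK_of_free [Finite K] [FiniteDimensional F V] (hV : ∀ a : V, ∃ b, b ∉ K ∙ a)
    {U : Submodule F V} (hS : ∀ s ∈ M, U.map (s : V →ₗ[F] V) = U → s ∈ NK F K V)
    {F₀ ι : Type*} [Field F₀] [Fintype F₀] [Fintype ι] [Algebra F₀ F] [Module F₀ V]
    [IsScalarTower F₀ F V] (t : (ι → F₀) → V ≃ₗ[F] V) (htM : ∀ a, t a ∈ M)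
    (ht : ∀ a b, t (a + b) = t a * t b) (htU : ∀ a, U.map (t a : V →ₗ[F] V) = U)
    (hfree : ∀ g ∈ M, ∀ a, g⁻¹ * t a * g ∈ NK F K V → U.map ((g⁻¹ * t a * g : V ≃ₗ[F] V) : V →ₗ[F] V) = U →
      a = 0 ∨ U.map (g : V →ₗ[F] V) = U) {d : ℕ}
    (hd : (fun x => (t x : Module.End F V)) ∈ PD (fun _ => 1) (Module.End F V) d)
    (hlt : 4 * d < Fintype.card ι * (Fintype.card F₀ - 1)) : M ≤ NK F K V := by
  classical
  have : Finite F := Finite.of_injective _ (algebraMap F K).injective
  have : Finite V := Module.finite_of_finite F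
  have : Finite (V ≃ₗ[F] V) := Finite.of_injective _ DFunLike.coe_injective
  have : FiniteDimensional F K := Module.Finite.of_finite
  have := Fintype.ofFinite Kˣ
  obtain ⟨v, hv⟩ := hV 0
  have hv0 : v ≠ 0 := by rintro rfl; simp at hv
  have ht0 : t 0 = 1 := by simpa using ht 0 0
  have hneg : ∀ a, t (-a) = (t a)⁻¹ := fun a =>
    eq_inv_of_mul_eq_one_left (by rw [← ht, neg_add_cancel, ht0])
  intro g hg
  refine mem_NK_of_fix hV (fixed_of_free ((stab U).subgroupOf M) (cjEE.comp M.subtype)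
    (fun s hs => fix_of_mem_NK hv0 (hS s s.2 (mem_stab_iff_map.1 hs))) (fun a => ⟨t a, htM a⟩)
    (fun a b => Subtype.ext (ht a b)) (fun g hg a ha => ?_) (fun a => mem_stab_iff_map.2 (htU a))
    (fun ω => ?_) ⟨g, hg⟩)
  · have h1 := mem_stab_iff_map.1 ha
    exact (hfree g g.2 a (hS _ (g⁻¹ * ⟨t a, htM a⟩ * g).2 h1) h1).resolve_right
      fun h => hg (mem_stab_iff_map.2 h)
  · ext a : 1
    rw [LinearMap.sum_apply]
    have h1 := PD.mul hd (PD.mul (PD.map (ω.restrictScalars F₀)
      (PD.mul (PD.comp_neg hd) (PD.mul (PD.const (d := 0) a) hd))) (PD.comp_neg hd))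
    refine (sum_congr rfl fun x _ => ?_).trans (PD.sum_eq_zero (by simpa using by omega) h1)
    simp only [hneg]
    rfl

end H21
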