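import Mathlib
import Cfsg.Agent.Base
import Cfsg.Agent.Lib.ExtFld.TI

/-!
The three-dimensional orthogonal group over an extension field: overgroups that meet the centre of
the unipotent radical of a point stabiliser trivially.
-/

set_option autoImplicit false
set_option linter.unusedSectionVars false

namespace H21

open Module Cfsg H97 H28

section General

variable {F V : Type*} [Field F] [AddCommGroup V] [Module F V] [FiniteDimensional F V]
  {σ : F →+* F} {P : PQ F V σ} {M : Subgroup (V ≃ₗ[F] V)} {U : Submodule F V}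

theorem finrank_map_add_inf_ker {V' : Type*} [AddCommGroup V'] [Module F V'] (X : Submodule F V)
    (n : V →ₗ[F] V') : finrank F (X.map n) + finrank F ↥(X ⊓ LinearMap.ker n) = finrank F X := by
  have h := LinearMap.finrank_range_add_finrank_ker (n.domRestrict X)
  rw [LinearMap.range_domRestrict, LinearMap.ker_domRestrict] at h
  rw [← h, ← Submodule.finrank_map_subtype_eq X (Submodule.comap _ _), Submodule.map_comap_subtype]

theorem finrank_le_of_nil {X : Submodule F V} {n : V →ₗ[F] V} (h : ∀ x ∈ X, n x ∈ X) (j : ℕ)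
    (hj : ∀ x ∈ X, (n ^ j) x = 0) : finrank F X ≤ j * finrank F ↥(X ⊓ LinearMap.ker n) := by
  induction j generalizing X with
  | zero =>
    rw [(Submodule.eq_bot_iff X).2 (by simpa using hj)]; simp
  | succ j ih =>
    have h1 := ih (X := X.map n) (by rintro _ ⟨x, hx, rfl⟩; exact ⟨_, h x hx, rfl⟩)
      (by rintro _ ⟨x, hx, rfl⟩; simpa [pow_succ] using hj x hx)
    have h2 := finrank_map_add_inf_ker X n
    have h3 : finrank F ↥(X.map n ⊓ LinearMap.ker n) ≤ finrank F ↥(X ⊓ LinearMap.ker n) :=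
      Submodule.finrank_mono (inf_le_inf_right _ (by rintro _ ⟨x, hx, rfl⟩; exact h x hx))
    have := Nat.mul_le_mul_left j h3
    rw [Nat.succ_mul]; omega

theorem inQ_of (hM : M ≤ P.Isom) {s : V ≃ₗ[F] V} (hs : s ∈ M) (h1 : ∀ w ∈ U, s w = w)
    (h2 : ∀ x ∈ perp P U, s x - x ∈ U) : InQ P M U ((s : V →ₗ[F] V) - LinearMap.id) :=
  ⟨⟨s, hs, fun x => by simp⟩, fun x w hw => by
    simp only [LinearMap.sub_apply, LinearEquiv.coe_coe, LinearMap.id_apply, map_sub]
    rw [← (hM hs).1 w x, h1 w hw, sub_self], fun x hx => h2 x hx, fun x hx => by simp [h1 x hx]⟩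

theorem inT_of (hP : P.B.SeparatingLeft) (hM : M ≤ P.Isom) (hU : U ≤ perp P U) {s : V ≃ₗ[F] V}
    (hs : s ∈ M) (h1 : ∀ w ∈ perp P U, s w = w) : InT M U ((s : V →ₗ[F] V) - LinearMap.id) :=
  ⟨⟨s, hs, fun x => by simp⟩, fun x => perp_perp hP U ▸ fun w hw => by
    simp only [LinearMap.sub_apply, LinearEquiv.coe_coe, LinearMap.id_apply, map_sub]
    rw [← (hM hs).1 w x, h1 w hw, sub_self], fun x hx => by simp [h1 x (hU hx)]⟩

end General

variable {F K V : Type*} [Field F] [Field K] [Algebra F K] [AddCommGroup V] [Module F V]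
  [Module K V] [IsScalarTower F K V] {T : K →ₗ[F] F} {M : Subgroup (V ≃ₗ[F] V)}
  [FiniteDimensional F V] [FiniteDimensional K V] {Q : QuadraticForm F V} {Qk : QuadraticForm K V}

theorem not_quad (hr : (finrank F K).Prime) (h3 : 3 ≤ finrank F K) {l : K}
    (hl : ∀ a, algebraMap F K a ≠ l) (a b : F) : l * l ≠ a • l + b • 1 := fun h => by
  have : FiniteDimensional F K := .of_finrank_pos hr.pos
  rcases eq_bot_or_top_of_mul hr (Δ := Submodule.span F {l, 1}) hl (fun k hk => by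
    obtain ⟨c, d, rfl⟩ := Submodule.mem_span_pair.1 hk
    exact Submodule.mem_span_pair.2 ⟨c * a + d, c * b, by
      rw [mul_add, mul_smul_comm, mul_smul_comm, h, mul_one]; module⟩) with h1 | h1
  · exact one_ne_zero (show (1 : K) ∈ (⊥ : Submodule F K) from
      h1 ▸ Submodule.subset_span (by simp))
  · have := finrank_span_pair_le (F := F) l 1
    rw [h1, finrank_top] at this
    omega

/-- A semilinear map fixing two independent vectors of a `K`-point fixes the point. -/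
theorem fix_of_NK (hr : (finrank F K).Prime) {s : V ≃ₗ[F] V} (hs : s ∈ NK F K V) {d : V}
    (h : 2 ≤ finrank F ↥(pt F K d ⊓ LinearMap.ker ((s : V →ₗ[F] V) - LinearMap.id))) :
    ∀ y ∈ pt F K d, s y = y := by
  have hN : ∀ y, y ∈ LinearMap.ker ((s : V →ₗ[F] V) - LinearMap.id) ↔ s y = y := fun y => by
    simp [sub_eq_zero]
  obtain ⟨x, hx, hx0⟩ := exists_ne_zero_mem (h.trans' one_le_two)
  obtain ⟨y, hy, hyx⟩ : ∃ y ∈ pt F K d ⊓ LinearMap.ker ((s : V →ₗ[F] V) - LinearMap.id),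
      y ∉ F ∙ x := by
    by_contra hc
    push Not at hc
    have h2 := Submodule.finrank_mono (show _ ≤ F ∙ x from hc)
    have h3 := finrank_span_singleton_le (F := F) x
    omega
  rw [← pt_eq_of_mem hx.1 hx0] at hy ⊢
  obtain ⟨l, rfl⟩ := mem_pt.1 hy.1
  obtain ⟨l', hl'⟩ := hs.1 l
  have h1 : l' = l := smul_left_injective K hx0 (by
    simpa only [(hN _).1 hx.2, (hN _).1 hy.2] using (hl' x).symm)
  exact fun y hy' => (hN y).1 (pt_le_of_mul hr (l := l) (k₀ := 1)
    (fun a ha => hyx (by rw [← ha, algebraMap_smul]; exact Submodule.smul_mem _ _ (by simp)))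
    one_ne_zero (by simpa using hx.2)
    (fun k hk => by rw [hN] at hk ⊢; rw [mul_smul, hl', hk, h1]) hy')

local notation "𝑃" => PQ.ofQuad Q
local notation "𝑃k" => PQ.ofQuad Qk

variable (F Qk) in
/-- The nilpotent part of an Eichler element over `K`. -/
noncomputable def Nq (u d : V) : V →ₗ[F] V := (eu 𝑃k u d (Qk d) - LinearMap.id).restrictScalars F

theorem Nq_apply (u d y : V) :
    Nq F Qk u d y = ((𝑃k).B d y - Qk d * (𝑃k).B u y) • u - (𝑃k).B u y • d := by
  simp only [Nq, LinearMap.restrictScalars_apply, LinearMap.sub_apply, LinearMap.id_apply]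
  rw [quad_eu]; abel

theorem Nq_smul (u d : V) (k : K) (y : V) : Nq F Qk u d (k • y) = k • Nq F Qk u d y :=
  (eu 𝑃k u d (Qk d) - LinearMap.id).map_smul k y

theorem OO.inQ (H : OO T M Q Qk) {u d : V} (hu : Qk u = 0) (hd : (𝑃k).B u d = 0) :
    InQ 𝑃 M (pt F K u) (Nq F Qk u d) :=
  InQ.of_eu H.E hu hd (H.xle u hu d _ hd (sub_self _))

theorem OO.linear_of_inQ (H : OO T M Q Qk) {u : V} (hu : Qk u = 0) (hu0 : u ≠ 0)
    (hA : ∀ a, InT M (pt F K u) a → ∀ y, a y = 0) {ν : V →ₗ[F] V} (hν : InQ 𝑃 M (pt F K u) ν)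
    (k : K) (y : V) : ν (k • y) = k • ν y := by
  have huu : (𝑃k).B u u = 0 := (𝑃k).self_eq_zero hu
  obtain ⟨v, -, hvu, -⟩ := (𝑃k).exists_partner H.E.sepK ⊥ hu0 hu (by simp)
  have huv : (𝑃k).B u v = 1 := (quad_B_comm u v).trans hvu
  have h1 : (𝑃k).B u (-ν v) = 0 := by rw [map_neg, H.E.mem_perp_pt.1 (hν.mem v), neg_zero]
  have h2 : ∀ d, (𝑃k).B u d = 0 → ν d = Nq F Qk u (-ν v) d := fun d hd => by
    have := hA _ (hν.comm (H.inQ hu hd)) v
    rw [LinearMap.sub_apply, LinearMap.comp_apply, LinearMap.comp_apply, Nq_apply, Nq_apply,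
      map_sub, hν.ker _ (smul_mem_pt _ _), H.E.mem_perp_pt.1 (hν.mem v), huv, one_smul] at this
    rw [Nq_apply, hd, map_neg, LinearMap.neg_apply, quad_B_comm]
    linear_combination (norm := module) -this
  obtain ⟨g, hg, e⟩ := hν.has
  obtain ⟨t, ht, e'⟩ := (H.inQ hu h1).has
  simp only at e e'
  have h3 := hA _ (inT_of H.E.sep H.hM (U := pt F K u) (fun y hy => H.E.mem_perp_pt.2 (by
    obtain ⟨k, rfl⟩ := mem_pt.1 hy; simp [huu])) (M.mul_mem (M.inv_mem ht) hg) fun w hw => by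
      rw [le_mul_apply, e, h2 w (H.E.mem_perp_pt.1 hw), ← e', le_inv_apply_apply])
  have h4 : ∀ y, ν y = Nq F Qk u (-ν v) y := fun y => by
    have := congrArg t (sub_eq_zero.1 (h3 y))
    rw [LinearEquiv.coe_coe, le_mul_apply, le_apply_inv, e, LinearMap.id_apply, e'] at this
    exact add_left_cancel this
  rw [h4, h4 y, Nq_smul]

theorem OO.exists_dil' (H : OO T M Q Qk) {u v : V} (hu : Qk u = 0) (hv : Qk v = 0)
    (huv : (𝑃k).B u v = 1) {c : K} (hc : c ≠ 0) : ∃ g : V ≃ₗ[K] V, res g ∈ M ∧ g u = (c * c) • u ∧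
      g v = (c * c)⁻¹ • v ∧ ∀ z, (𝑃k).B u z = 0 → (𝑃k).B v z = 0 → g z = z := by
  have hvu : (𝑃k).B v u = 1 := (quad_B_comm v u).trans huv
  have huu : (𝑃k).B u u = 0 := (𝑃k).self_eq_zero hu
  have hvv : (𝑃k).B v v = 0 := (𝑃k).self_eq_zero hv
  have key : ∀ c : K, c ≠ 0 → ∃ s ∈ (𝑃k).Isom, s u = -c • v ∧ s v = -c⁻¹ • u ∧
      s⁻¹ u = -c • v ∧ s⁻¹ v = -c⁻¹ • u ∧
      ∀ z, (𝑃k).B u z = 0 → (𝑃k).B v z = 0 → s z = z ∧ s⁻¹ z = z := by
    intro c hc
    have h1 : Qk (u + c • v) = c := by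
      rw [quad_add, quad_smul, hu, hv, map_smul, huv]; simp
    obtain ⟨s, hs, es⟩ := has_refl_isom H.E.sepK (y := u + c • v) (by rwa [h1])
    have h2 : s u = -c • v ∧ s v = -c⁻¹ • u := by
      constructor <;>
      simp only [refl_apply es, h1, map_add, map_smul, LinearMap.add_apply,
        LinearMap.smul_apply, huu, huv, hvv, hvu, smul_eq_mul] <;>
      match_scalars <;> field_simp <;> ring
    refine ⟨s, hs, h2.1, h2.2, s.injective ?_, s.injective ?_, fun z h3 h4 => ?_⟩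
    · rw [le_apply_inv, map_smul, h2.2, smul_smul]; simp [hc]
    · rw [le_apply_inv, map_smul, h2.1, smul_smul]; simp [hc]
    · have : s z = z := by simp [refl_apply es, h3, h4]
      exact ⟨this, s.injective (by rw [le_apply_inv, this])⟩
  obtain ⟨s, hs, h1, h2, h3, h4, h5⟩ := key 1 one_ne_zero
  obtain ⟨t, ht, h6, h7, h8, h9, h10⟩ := key c hc
  refine ⟨s * t * s⁻¹ * t⁻¹, H.hC s hs t ht, ?_, ?_, fun z hz hz' => ?_⟩
  · simp only [le_mul_apply, h1, h2, h3, h4, h6, h7, h8, h9, map_smul]; module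
  · simp only [le_mul_apply, h1, h2, h3, h4, h6, h7, h8, h9, map_smul, mul_inv]; module
  · simp only [le_mul_apply, h5 z hz hz', h10 z hz hz']

variable (Qk) in
/-- A standard basis of a three-dimensional orthogonal space. -/
structure Fr (u z v : V) : Prop where
  hu : Qk u = 0
  hv : Qk v = 0
  hz : Qk z ≠ 0
  huv : (𝑃k).B u v = 1
  huz : (𝑃k).B u z = 0
  hvz : (𝑃k).B v z = 0
  span : ∀ y, ∃ a b : K, y = a • u + b • z + (𝑃k).B u y • v

theorem OO.exists_fr (H : OO T M Q Qk) (h3 : finrank K V = 3) {u : V} (hu : Qk u = 0)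
    (hu0 : u ≠ 0) : ∃ z v, Fr Qk u z v := by
  have huu : (𝑃k).B u u = 0 := (𝑃k).self_eq_zero hu
  obtain ⟨v, hv, hvu, -⟩ := (𝑃k).exists_partner H.E.sepK ⊥ hu0 hu (by simp)
  have huv : (𝑃k).B u v = 1 := (quad_B_comm u v).trans hvu
  have hY : Submodule.span K {u, v} ⊓ perp 𝑃k (Submodule.span K {u, v}) = ⊥ :=
    nondeg_span_pair huu (by simp [huv])
  have h2 := finrank_span_pair_le (F := K) u v
  obtain ⟨z, hz, hz0⟩ := exists_nonsing_perp H.E.sepK hY (by omega)
  have huz := mem_perp_span.1 hz u (by simp)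
  have hvz := mem_perp_span.1 hz v (by simp)
  refine ⟨z, v, hu, hv, hz0, huv, huz, hvz, fun y => ?_⟩
  have hzz : (𝑃k).B z z ≠ 0 := by rw [quad_B_self]; exact mul_ne_zero H.two hz0
  have h4 : Submodule.span K {u, v} ⊔ K ∙ z = ⊤ := by
    by_contra hc
    obtain ⟨w, hw, hw0⟩ := exists_nonsing_perp H.E.sepK (nondeg_sup_span hY hz hzz)
      (Submodule.finrank_lt hc)
    have hww : (𝑃k).B w w ≠ 0 := by rw [quad_B_self]; exact mul_ne_zero H.two hw0
    have nm : ∀ {Y : Submodule K V} {a : V}, a ∈ perp 𝑃k Y → (𝑃k).B a a ≠ 0 → a ∉ Y :=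
      fun h1 h2 h => h2 (h1 _ h)
    have h5 := Submodule.finrank_sup_span_singleton (nm hw hww)
    have h6 := Submodule.finrank_sup_span_singleton (nm hz hzz)
    have h7 := Submodule.finrank_sup_span_singleton (p := K ∙ u) (v := v) fun h => by
      obtain ⟨a, rfl⟩ := Submodule.mem_span_singleton.1 h
      simp [huu] at huv
    rw [← Submodule.span_insert, finrank_span_singleton hu0] at h7
    have h8 := Submodule.finrank_le ((Submodule.span K {u, v} ⊔ K ∙ z) ⊔ K ∙ w)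
    omega
  obtain ⟨y₁, h5, y₂, h6, rfl⟩ := Submodule.mem_sup.1 (h4 ▸ Submodule.mem_top : y ∈ _ ⊔ _)
  obtain ⟨a, c, rfl⟩ := Submodule.mem_span_pair.1 h5
  obtain ⟨b, rfl⟩ := Submodule.mem_span_singleton.1 h6
  exact ⟨a, b, by simp [huu, huv, huz]; abel⟩

theorem Fr.ker (h2 : (2 : K) ≠ 0) {u z v : V} (h : Fr Qk u z v) {κ : K} (hκ : κ ≠ 0) {y : V}
    (hy : Nq F Qk u (κ • z) y = 0) : y ∈ pt F K u := by
  have huu : (𝑃k).B u u = 0 := (𝑃k).self_eq_zero h.hu
  have hzz : (𝑃k).B z z ≠ 0 := by rw [quad_B_self]; exact mul_ne_zero h2 h.hz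
  have h1 := congrArg ((𝑃k).B z) hy
  rw [Nq_apply] at hy h1
  simp only [map_sub, map_smul, (𝑃k).eq_zero_symm h.huz, smul_eq_mul, mul_zero, zero_sub, map_zero,
    neg_eq_zero, mul_eq_zero, hκ, hzz, or_false] at h1
  obtain ⟨a, b, e⟩ := h.span y
  have h3 := congrArg ((𝑃k).B v) hy
  rw [h1] at e h3
  rw [e] at h3 ⊢
  simp only [map_add, map_sub, map_smul, (𝑃k).eq_zero_symm h.huz, smul_eq_mul, mul_zero, zero_smul,
    add_zero, sub_zero, LinearMap.smul_apply, RingHom.id_apply, zero_add, map_zero,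
    (quad_B_comm v u).trans h.huv, mul_one, mul_eq_zero, hκ, hzz, or_false, false_or] at h3
  simpa [h3] using smul_mem_pt a u

theorem OO.scalar_on_pt (H : OO T M Q Qk) {u z v : V} (h : Fr Qk u z v)
    (hA : ∀ a, InT M (pt F K u) a → ∀ y, a y = 0) {s : V ≃ₗ[F] V} (hs : s ∈ M)
    (hsU : ∀ w ∈ pt F K u, s w ∈ pt F K u) (l : K) :
    (∀ d y, (𝑃k).B u d = 0 → Nq F Qk u d (s⁻¹ (l • s y)) = s⁻¹ (l • s (Nq F Qk u d y))) ∧
    ∃ k : K, ∀ y ∈ pt F K u, s⁻¹ (l • s y) = k • y := by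
  have hu0 : u ≠ 0 := by rintro rfl; simpa using h.huv
  have h1 : ∀ d y, (𝑃k).B u d = 0 →
      Nq F Qk u d (s⁻¹ (l • s y)) = s⁻¹ (l • s (Nq F Qk u d y)) := fun d y hd => by
    have := H.linear_of_inQ h.hu hu0 hA ((H.inQ h.hu hd).conj hs (H.hM hs) hsU) l (s y)
    rw [cjm_apply, cjm_apply'] at this
    rw [← this, le_inv_apply_apply]
  have hzz : (𝑃k).B z z ≠ 0 := by rw [quad_B_self]; exact mul_ne_zero H.two h.hz
  have h2 := stab_perp (H.hM hs) (mem_stab_of_maps hsU)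
  have h3 : (𝑃k).B u (s⁻¹ (l • s z)) = 0 := H.E.mem_perp_pt.1 ((mem_stab.1 h2 _).2 (by
    rw [le_apply_inv, H.E.mem_perp_pt, map_smul,
      H.E.mem_perp_pt.1 ((mem_stab.1 h2 _).1 (H.E.mem_perp_pt.2 h.huz)), smul_zero]))
  refine ⟨h1, (𝑃k).B z (s⁻¹ (l • s z)) / (𝑃k).B z z, fun y hy => ?_⟩
  obtain ⟨κ, rfl⟩ := mem_pt.1 hy
  have := h1 ((κ / (𝑃k).B z z) • z) z (by simp [h.huz])
  rw [Nq_apply, Nq_apply, h3, h.huz, B_smul_left, B_smul_left] at this
  simp only [RingHom.id_apply, mul_zero, sub_zero, zero_smul, div_mul_cancel₀ _ hzz] at this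
  rw [← this, smul_smul]
  congr 1; ring

theorem OO.mem_NK_of_stab (H : OO T M Q Qk) (hr : 3 ≤ finrank F K) {u z v : V} (h : Fr Qk u z v)
    (hA : ∀ a, InT M (pt F K u) a → ∀ y, a y = 0) {s : V ≃ₗ[F] V} (hs : s ∈ M)
    (hsU : ∀ w ∈ pt F K u, s w ∈ pt F K u) : s ∈ NK F K V := by
  have : FiniteDimensional F K := .of_finrank_pos H.hr.pos
  have hu0 : u ≠ 0 := by rintro rfl; simpa using h.huv
  have hsU' : ∀ w ∈ pt F K u, s⁻¹ w ∈ pt F K u := fun w hw =>
    (mem_stab.1 (mem_stab_of_maps hsU) _).2 (by rwa [le_apply_inv])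
  have hp := stab_perp (H.hM hs) (mem_stab_of_maps hsU)
  have dil : ∀ c : K, c ≠ 0 → ∃ g : V ≃ₗ[K] V, res g ∈ M ∧ (∀ y ∈ pt F K u, g y = (c * c) • y) ∧
      g v = (c * c)⁻¹ • v ∧ g z = z ∧ ∀ y ∈ perp 𝑃 (pt F K u), g y - y ∈ pt F K u := fun c hc => by
    obtain ⟨g, hg, h1, h2, h3⟩ := H.exists_dil' h.hu h.hv h.huv hc
    refine ⟨g, hg, fun y hy => ?_, h2, h3 z h.huz h.hvz, fun y hy => ?_⟩
    · obtain ⟨k, rfl⟩ := mem_pt.1 hy
      rw [map_smul, h1, smul_comm]
    · obtain ⟨a, b, e⟩ := h.span y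
      rw [H.E.mem_perp_pt.1 hy] at e
      refine mem_pt.2 ⟨a * (c * c) - a, ?_⟩
      rw [e]; simp only [map_add, map_smul, h1, h3 z h.huz h.hvz]; module
  have lin : ∀ c : K, c ≠ 0 → ∃ g : V ≃ₗ[K] V, (∀ y ∈ pt F K u, g y = (c * c) • y) ∧
      g v = (c * c)⁻¹ • v ∧ g z = z ∧ ∀ (l : K) y, g (s⁻¹ (l • s y)) = s⁻¹ (l • s (g y)) := by
    intro c hc
    obtain ⟨g, hg, h1, h2, h3, h4⟩ := dil c hc
    obtain ⟨k, hk⟩ := (H.scalar_on_pt h hA (M.inv_mem hs) hsU' c).2
    simp only [inv_inv] at hk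
    have hk0 : k ≠ 0 := by
      rintro rfl
      simpa [hc, hu0] using hk u (self_mem_pt u)
    obtain ⟨g', hg', h5, -, -, h6⟩ := dil k⁻¹ (inv_ne_zero hk0)
    have h7 := H.linear_of_inQ h.hu hu0 hA (inQ_of H.hM (s := s * res g * s⁻¹ * res g')
      (M.mul_mem (M.mul_mem (M.mul_mem hs hg) (M.inv_mem hs)) hg') (fun w hw => by
        have h7 := smul_mem_pt' (k⁻¹ * k⁻¹) hw
        have h8 := hk _ (smul_mem_pt' k h7)
        rw [← hk _ h7, le_inv_apply_apply] at h8
        simp only [le_mul_apply, res_apply]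
        rw [h5 w hw, h1 _ (hsU' _ h7), mul_smul c, h8, hk _ h7, smul_smul, smul_smul]
        field_simp; simp) fun x hx => by
        have h7 : g' x ∈ perp 𝑃 (pt F K u) := by
          have := h6 x hx
          obtain ⟨a, ha⟩ := mem_pt.1 this
          rw [← sub_add_cancel (g' x) x, ← ha]
          exact Submodule.add_mem _ (H.E.mem_perp_pt.2 (by simp [(𝑃k).self_eq_zero h.hu])) hx
        have := Submodule.add_mem _ (hsU _ (h4 _ ((mem_stab.1 hp (s⁻¹ (g' x))).2
          (by rwa [le_apply_inv])))) (h6 x hx)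
        simpa [le_mul_apply, res_apply, le_apply_inv] using this)
    refine ⟨g, h1, h2, h3, fun l y => s.injective ?_⟩
    have := h7 l (g'⁻¹ (s y))
    simp only [LinearMap.sub_apply, LinearEquiv.coe_coe, LinearMap.id_apply, le_mul_apply,
      res_apply, smul_sub, sub_left_inj, LinearEquiv.map_smul, le_apply_inv,
      le_inv_apply_apply] at this
    rw [this, le_apply_inv]
  rw [← inv_mem_iff]
  refine mem_NK_of fun l => ?_
  obtain ⟨h1, k, hk⟩ := H.scalar_on_pt h hA hs hsU l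
  let ψ : V →+ V :=
    { toFun := fun y => s⁻¹ (l • s y) - k • y
      map_zero' := by simp
      map_add' := fun x y => by simp only [map_add, smul_add]; abel }
  have hψ : ∀ y, ψ y = s⁻¹ (l • s y) - k • y := fun _ => rfl
  have hψU : ∀ y ∈ pt F K u, ψ y = 0 := fun y hy => by rw [hψ, hk y hy, sub_self]
  have hψN : ∀ y, ψ (Nq F Qk u ((1 : K) • z) y) = 0 → ψ y ∈ pt F K u := fun y hy =>
    h.ker H.two one_ne_zero (by
      rw [hψ, map_sub, h1 _ _ (by simp [h.huz]), Nq_smul, ← hψ, hy])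
  obtain ⟨μ, hμ⟩ := exists_notMem_range H.hr.one_lt
  have hq := not_quad H.hr hr hμ
  have hμ0 : μ ≠ 0 := fun h => hμ 0 (by simp [h])
  have hψz : ∀ b : K, ψ (b • z) = 0 := fun b => by
    obtain ⟨g, h2, -, h3, h4⟩ := lin μ hμ0
    have h5 := hψN (b • z) (hψU _ (by simpa [Nq_apply, h.huz] using smul_mem_pt _ u))
    have h6 := h2 _ h5
    rw [hψ, map_sub, h4, g.map_smul k, g.map_smul b, h3, ← hψ, ← sub_eq_zero] at h6
    refine (smul_eq_zero.1 (show (1 - μ * μ) • ψ (b • z) = 0 by rwa [sub_smul, one_smul])).resolve_left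
      fun h7 => hq 0 1 ?_
    rw [zero_smul, zero_add, one_smul]; linear_combination -h7
  have hψv : ∀ b : K, ψ (b • v) = 0 := fun b => by
    have h2 : ∀ c : K, c ≠ 0 → ψ ((c * c * b) • v) = (c * c)⁻¹ • ψ (b • v) := fun c hc => by
      obtain ⟨g, h2, h3, -, h4⟩ := lin c⁻¹ (inv_ne_zero hc)
      have h5 := hψN (b • v) (by
        rw [Nq_apply, map_sub, hψU _ (smul_mem_pt _ u), smul_smul, hψz, sub_self])
      have h6 := h2 _ h5
      rw [hψ, map_sub, h4, g.map_smul k, g.map_smul b, h3, ← hψ, ← hψ, smul_smul, ← mul_inv,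
        inv_inv, mul_comm b] at h6
      exact h6
    have h3 : μ + 1 ≠ 0 := fun h => hμ (-1) (by rw [map_neg, map_one]; linear_combination -h)
    have h4 : μ - 1 ≠ 0 := fun h => hμ 1 (by rw [map_one]; linear_combination -h)
    have h5 : ψ (((μ + 1) * (μ + 1) * b) • v) + ψ (((μ - 1) * (μ - 1) * b) • v) =
        ψ ((μ * μ * b) • v) + ψ ((μ * μ * b) • v) + ψ (b • v) + ψ (b • v) := by
      simp only [← map_add]; congr 1; module
    rw [h2 _ h3, h2 _ h4, h2 _ hμ0] at h5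
    by_contra h6
    have h7 : ((μ + 1) * (μ + 1))⁻¹ + ((μ - 1) * (μ - 1))⁻¹ = 2 * (μ * μ)⁻¹ + 2 :=
      smul_left_injective K h6 (by linear_combination (norm := module) h5)
    have h8 : 2 * ((μ * μ + 1) * ((μ * μ - μ - 1) * (μ * μ + μ - 1))) = 0 := by
      field_simp at h7
      linear_combination -h7
    simp only [mul_eq_zero, H.two, false_or] at h8
    rcases h8 with h8 | h8 | h8
    · exact hq 0 (-1) (by simp; linear_combination h8)
    · exact hq 1 1 (by simp; linear_combination h8)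
    · exact hq (-1) 1 (by simp; linear_combination h8)
  refine ⟨k, fun x => ?_⟩
  obtain ⟨a, b, e⟩ := h.span (s⁻¹ x)
  have := hψ (s⁻¹ x)
  rw [le_apply_inv] at this
  rw [← sub_eq_zero, ← this, e, map_add, map_add, hψU _ (smul_mem_pt a u), hψz, hψv]
  simp

theorem PD.smulK {ι E : Type*} [Fintype ι] {w : ι → ℕ} {d : ℕ} [AddCommGroup E] [Module F E]
    [Module K E] [IsScalarTower F K E] {g : (ι → F) → K} (hg : g ∈ PD w K d) (e : E) :
    (fun x => g x • e) ∈ PD w E d :=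
  PD.map ((LinearMap.toSpanSingleton K E e).restrictScalars F) hg

theorem PD.nq {ι : Type*} [Fintype ι] {w : ι → ℕ} {g : (ι → F) → K} (hg : g ∈ PD w K 1) (u z : V) :
    (fun x => Nq F Qk u (g x • z)) ∈ PD w (Module.End F V) 2 := by
  refine PD.congr (PD.map (LinearMap.restrictScalarsₗ F K V V F) (PD.sub
    (PD.mono one_le_two (PD.smulK hg (((𝑃k).B z).smulRight u - ((𝑃k).B u).smulRight z)))
    (PD.smulK (PD.mul hg hg) (((𝑃k).B u).smulRight (Qk z • u))))) fun x => ?_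
  ext y
  rw [Nq_apply, quad_smul]
  simp only [B_smul_left, RingHom.id_apply, LinearMap.restrictScalarsₗ_apply,
    LinearMap.restrictScalars_apply, LinearMap.sub_apply, LinearMap.smul_apply,
    LinearMap.smulRight_apply]
  module

theorem PD.basis {ι ι' E : Type*} [Fintype ι] [Fintype ι'] {w : ι → ℕ} {d : ℕ} [AddCommGroup E]
    [Module F E] (j : ι' → ι) (hj : ∀ i, w (j i) ≤ d) (b : ι' → E) :
    (fun x : ι → F => ∑ i, x (j i) • b i) ∈ PD w E d :=
  PD.sum _ fun i _ => PD.mono (hj i) (PD.coord _ _)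

theorem OO.le_NK [Finite K] (H : OO T M Q Qk) (h3 : finrank K V = 3) (hr : 5 ≤ finrank F K) {u : V}
    (hu : Qk u = 0) (hu0 : u ≠ 0) (hA : ∀ a, InT M (pt F K u) a → ∀ y, a y = 0) :
    M ≤ NK F K V := by
  have : Finite F := Finite.of_injective _ (algebraMap F K).injective
  have := Fintype.ofFinite F
  have : FiniteDimensional F K := .of_finrank_pos H.hr.pos
  obtain ⟨z, v, h⟩ := H.exists_fr h3 hu hu0
  have huu : (𝑃k).B u u = 0 := (𝑃k).self_eq_zero hu
  let b := finBasis F K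
  let κ : (Fin (finrank F K) → F) → K := fun x => ∑ i, x i • b i
  have hz : ∀ k : K, (𝑃k).B u (k • z) = 0 := fun k => by simp [h.huz]
  choose t ht et using fun x => (H.inQ hu (hz (κ x))).has
  simp only at et
  have hU : ∀ x, ∀ y ∈ pt F K u, t x y = y := fun x y hy => by
    rw [et, (H.inQ hu (hz (κ x))).ker y hy, add_zero]
  refine le_NK_of_free (U := pt F K u) (fun a => ?_) (fun s hs e => H.mem_NK_of_stab (by omega) h hA
    hs fun w hw => e ▸ ⟨w, hw, rfl⟩) t ht (fun x y => ?_)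
    (fun x => mem_stab_iff_map.1 (mem_stab_of_fix (hU x))) (fun g hg x h1 h2 => ?_) (d := 2) ?_ ?_
  · by_contra hc
    push Not at hc
    have h1 := finrank_span_singleton_le (F := K) a
    rw [(eq_top_iff.2 fun y _ => hc y : K ∙ a = ⊤), finrank_top] at h1
    omega
  · ext w
    have h1 : κ (x + y) = κ x + κ y := by simp [κ, add_smul, Finset.sum_add_distrib]
    have h2 : ∀ x w, t x w = eu 𝑃k u (κ x • z) (Qk (κ x • z)) w := fun x w => by simp [et, Nq]
    rw [le_mul_apply, h2, h2, h2, eu_comp huu (hz _) (hz _), h1, add_smul, quad_add]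
  · by_cases hκ : κ x = 0
    · exact Or.inl (funext (Fintype.linearIndependent_iff.1 b.linearIndependent x hκ))
    right
    have h4 : ∀ y, (((g⁻¹ * t x * g : V ≃ₗ[F] V) : V →ₗ[F] V) - LinearMap.id : V →ₗ[F] V) y =
        g⁻¹ (Nq F Qk u (κ x • z) (g y)) := fun y => by
      simp [le_mul_apply, et, le_inv_apply_apply]
    have hN := H.inQ hu (hz (κ x))
    have h5 := finrank_le_of_nil (X := pt F K u)
      (n := ((g⁻¹ * t x * g : V ≃ₗ[F] V) : V →ₗ[F] V) - LinearMap.id)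
      (fun y hy => Submodule.sub_mem _ (h2 ▸ ⟨y, hy, rfl⟩) hy) 3 fun y _ => by
        simp only [pow_succ, pow_zero, one_mul, Module.End.mul_apply, h4, le_apply_inv]
        rw [hN.ker _ (hN.mem' _ (hN.mem _)), map_zero]
    rw [finrank_pt hu0] at h5
    refine mem_stab_iff_map.1 (mem_stab_of_maps fun y hy => h.ker H.two hκ ?_)
    have := h4 y
    rw [LinearMap.sub_apply, LinearEquiv.coe_coe, fix_of_NK H.hr h1 (by omega) y hy] at this
    simpa using this.symm
  · exact PD.congr (PD.add (PD.const 1) (PD.nq (Qk := Qk) (PD.basis id (fun _ => le_rfl) b) u z))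
      fun x => LinearMap.ext (et x)
  · have h1 : Odd (Fintype.card F) := by
      by_contra hc
      exact H.two (by rw [← map_ofNat (algebraMap F K), two_eq_zero_of_not_odd hc, map_zero])
    have h2 := Fintype.one_lt_card (α := F)
    obtain ⟨j, hj⟩ := h1
    rw [Fintype.card_fin]
    have := Nat.mul_le_mul hr (show 2 ≤ Fintype.card F - 1 by omega)
    omega

end H21
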