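import Mathlib
import Cfsg.Agent.Base
import Cfsg.Agent.Lib.ExtFld.O3
import Cfsg.Agent.Lib.Forms.Classify

/-!
Maximality of the three-dimensional orthogonal group over an extension field of prime degree at
least five in the orthogonal group.
-/

set_option autoImplicit false
set_option linter.unusedSectionVars false

namespace H21

open Module Cfsg H97 H28 Matrix

section General

variable {F V : Type*} [Field F] [AddCommGroup V] [Module F V] {M : Subgroup (V ≃ₗ[F] V)}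
  {U : Submodule F V}

theorem inT_zero : InT M U 0 := ⟨has_id.congr fun _ => by simp, by simp, by simp⟩

variable (M U) in
/-- The maps all of whose scalar multiples lie in `InT`. -/
def AF : Submodule F (V →ₗ[F] V) where
  carrier := {a | ∀ c : F, InT M U (c • a)}
  zero_mem' := fun c => by simpa using inT_zero
  add_mem' := fun ha hb c => by rw [smul_add]; exact (ha c).add (hb c)
  smul_mem' := fun a _ hb c => by rw [smul_smul]; exact hb _

theorem AF.inT {a : V →ₗ[F] V} (h : a ∈ AF M U) : InT M U a := by simpa using h 1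

theorem InT.congr {a b : V →ₗ[F] V} (h : InT M U a) (e : ∀ y, b y = a y) : InT M U b :=
  (LinearMap.ext e : b = a) ▸ h

theorem exists_ne_zero_of_det {σ : F →+* F} {P : PQ F V σ} {R : Submodule F V} {ι : Type*}
    [Fintype ι] [DecidableEq ι] (b : Basis ι F R) (n : V →ₗ[F] V)
    (h : (Matrix.of fun i j => P.B (b i) (n (b j))).det = 0) :
    ∃ y ∈ R, y ≠ 0 ∧ n y ∈ perp P R := by
  obtain ⟨c, hc, h1⟩ := Matrix.exists_mulVec_eq_zero_iff.2 h
  refine ⟨(∑ j, c j • b j : R), Submodule.coe_mem _, fun h0 => hc (funext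
    (Fintype.linearIndependent_iff.1 b.linearIndependent c (Subtype.ext h0))), fun w hw => ?_⟩
  have h2 : ∀ i, P.B (b i) (n (∑ j, c j • b j : R)) = 0 := fun i => by
    simpa [mulVec, dotProduct, mul_comm] using congrFun h1 i
  have h3 := congrArg Subtype.val (b.sum_repr ⟨w, hw⟩)
  simp only at h3
  rw [← h3, Submodule.coe_sum, map_sum, LinearMap.sum_apply]
  exact Finset.sum_eq_zero fun i _ => by rw [Submodule.coe_smul, B_smul_left, h2, mul_zero]

end General

variable {F K V : Type*} [Field F] [Field K] [Algebra F K] [AddCommGroup V] [Module F V]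
  [Module K V] [IsScalarTower F K V] {T : K →ₗ[F] F} {M : Subgroup (V ≃ₗ[F] V)}
  [FiniteDimensional F V] [FiniteDimensional K V] {Q : QuadraticForm F V} {Qk : QuadraticForm K V}

local notation "𝑃" => PQ.ofQuad Q
local notation "𝑃k" => PQ.ofQuad Qk

/-- `y ↦ k • a (k' • y)`. -/
def lr (k k' : K) (a : V →ₗ[F] V) : V →ₗ[F] V :=
  Algebra.lsmul F F V k ∘ₗ a ∘ₗ Algebra.lsmul F F V k'

theorem lr_apply (k k' : K) (a : V →ₗ[F] V) (y : V) : lr k k' a y = k • a (k' • y) := rfl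

theorem exists_eq_smul_sq [Finite K] (hr : (finrank F K).Prime) (h3 : 3 ≤ finrank F K)
    (h2 : (2 : K) ≠ 0) (s : K) : ∃ (c : F) (μ : K), s = c • (μ * μ) := by
  have : Finite F := Finite.of_injective _ (algebraMap F K).injective
  by_cases h : IsSquare s
  · obtain ⟨μ, rfl⟩ := h
    exact ⟨1, μ, by simp⟩
  obtain ⟨c, hc⟩ := FiniteField.exists_nonsquare (F := F) fun h3 => h2 (by
    rw [← map_ofNat (algebraMap F K), show (OfNat.ofNat 2 : F) = 0 by
      exact_mod_cast (ringChar.spec F 2).2 (by rw [h3]), map_zero])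
  have hc0 : c ≠ 0 := by rintro rfl; simp at hc
  obtain ⟨μ, hμ⟩ := isSquare_mul_of_not_isSquare h (b := algebraMap F K c) (by
    rintro ⟨μ, hμ⟩
    refine not_quad hr h3 (l := μ) (fun a ha => hc ⟨a, (algebraMap F K).injective ?_⟩) 0 c ?_
    · rw [hμ, map_mul, ha]
    · rw [← hμ, Algebra.algebraMap_eq_smul_one]; simp)
  exact ⟨c⁻¹, μ, by
    rw [← hμ, Algebra.smul_def, map_inv₀, mul_comm, mul_inv_cancel_right₀ (by simpa using hc0)]⟩

theorem OO.pt_iso (H : OO T M Q Qk) {u : V} (hu : Qk u = 0) :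
    ∀ x ∈ pt F K u, ∀ y ∈ pt F K u, (𝑃).B x y = 0 := polar_eq_zero_of_ts (H.sing_pt hu)

theorem OO.inT_congr (H : OO T M Q Qk) {u : V} (hu : Qk u = 0) {a : V →ₗ[F] V}
    (ha : InT M (pt F K u) a) {y y' : V} (h : (𝑃k).B u y = (𝑃k).B u y') : a y = a y' := by
  rw [← sub_eq_zero, ← map_sub]
  exact ha.ker_perp H.E.sep H.hM (H.pt_iso hu) (H.E.mem_perp_pt.2 (by rw [map_sub, h, sub_self]))

theorem OO.inT_lr (H : OO T M Q Qk) {u : V} (hu : Qk u = 0) (hu0 : u ≠ 0) {a : V →ₗ[F] V}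
    (ha : InT M (pt F K u) a) (c : K) : InT M (pt F K u) (lr (c * c) (c * c) a) := by
  by_cases hc : c = 0
  · exact inT_zero.congr fun y => by simp [lr_apply, hc]
  obtain ⟨g, hg, hgM, e⟩ := H.exists_dil hu hu0 hc
  have h1 : ∀ w ∈ pt F K u, res (F := F) g w = (c * c) • w := fun w hw => by
    obtain ⟨k, rfl⟩ := mem_pt.1 hw
    rw [res_apply, map_smul, e, smul_comm]
  have h2 := ha.conj hgM
  rw [mem_stab_iff_map.1 (mem_stab_of_maps fun w hw => h1 w hw ▸ smul_mem_pt' _ hw)] at h2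
  refine h2.congr fun y => ?_
  rw [cjm_apply, h1 _ (ha.mem _), lr_apply, H.inT_congr hu ha (y' := (res (F := F) g)⁻¹ y)]
  rw [← map_inv, res_apply, ← hg.1 u (g⁻¹ y), le_apply_inv, e, B_smul_left, map_smul]; rfl

theorem OO.eq_zero_of_adj (H : OO T M Q Qk) {u : V} (hu : Qk u = 0) {a : V →ₗ[F] V}
    (ha : InT M (pt F K u) a) {x : V} (hx : (𝑃k).B u x ≠ 0) {l : K}
    (hl : ∀ c, algebraMap F K c ≠ l)
    (h : ∀ s s' : K, (𝑃).B ((l * s) • x) (a (s' • x)) = (𝑃).B (s • x) (a ((l * s') • x))) (y : V) :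
    a y = 0 := by
  let Δ : Submodule F K :=
    { carrier := {k | ∀ s s' : K,
        (𝑃).B ((k * s) • x) (a (s' • x)) = (𝑃).B (s • x) (a ((k * s') • x))}
      zero_mem' := by simp
      add_mem' := fun h1 h2 s s' => by simp [add_mul, add_smul, h1 s s', h2 s s']
      smul_mem' := fun c k h1 s s' => by
        simp only [smul_mul_assoc, smul_assoc, LinearMap.map_smul, LinearMap.smul_apply, h1 s s'] }
  have h1 : Δ = ⊤ := (eq_bot_or_top_of_mul (Δ := Δ) H.hr hl fun k hk s s' => by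
    rw [mul_assoc, h, hk, mul_left_comm, mul_assoc]).resolve_left fun h1 =>
      one_ne_zero (show (1 : K) ∈ (⊥ : Submodule F K) from h1 ▸ fun s s' => by simp)
  have h2 : ∀ k : K, (𝑃).B (k • x) (a x) = 0 := fun k => by
    have h3 := (h1 ▸ Submodule.mem_top : k ∈ Δ) 1 1
    simp only [mul_one, one_smul] at h3
    have h4 := ha.skew H.hM (H.pt_iso hu) x (k • x)
    rw [← h3, quad_B_comm] at h4
    have h5 : (2 : F) ≠ 0 := fun h => H.two (by rw [← map_ofNat (algebraMap F K), h, map_zero])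
    exact mul_left_cancel₀ h5 (by linear_combination h4)
  rw [H.inT_congr hu ha (y' := ((𝑃k).B u y / (𝑃k).B u x) • x) (by simp [hx])]
  obtain ⟨k, hk⟩ := mem_pt.1 (ha.mem (((𝑃k).B u y / (𝑃k).B u x) • x))
  have h3 : (𝑃k).B (k • u) x = 0 := H.E.BK_zero fun s => by
    have := (h1 ▸ Submodule.mem_top : (𝑃k).B u y / (𝑃k).B u x ∈ Δ) s 1
    rw [mul_one, one_smul, h2] at this
    rw [hk, quad_B_comm, this]
  rw [B_smul_left, mul_eq_zero] at h3
  rw [← hk, show k = 0 from h3.resolve_right hx, zero_smul]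

theorem OO.exists_AF [Finite K] (H : OO T M Q Qk) {u : V} (hu : Qk u = 0) (hu0 : u ≠ 0)
    {a : V →ₗ[F] V} (ha : InT M (pt F K u) a) (h0 : ∃ y, a y ≠ 0) :
    ∃ b ∈ AF M (pt F K u), ∃ y, b y ≠ 0 := by
  by_contra hc
  push Not at hc
  obtain ⟨y₀, hy₀⟩ := h0
  have key : ∀ (μ ν : K) (y : V), (4 : K) • ((μ * ν) • a y + a ((μ * ν) • y) +
      (2 * μ) • a (ν • y) + (2 * ν) • a (μ • y)) = 0 := fun μ ν => by
    suffices h : lr (4 : K) 1 (lr (μ * ν) 1 a + lr 1 (μ * ν) a + lr (2 * μ) ν a + lr (2 * ν) μ a) ∈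
        AF M (pt F K u) from fun y => by
      simpa only [lr_apply, one_smul, LinearMap.add_apply] using hc _ h y
    intro c
    have φ := fun i j k : ℤ => H.inT_lr hu hu0 ha (i * (algebraMap F K c * μ) + j * ν + k)
    refine (((((φ 1 1 2).sub (φ 1 1 1)).sub (φ 1 1 1)).add (φ 1 1 0)).sub
      ((((φ 1 0 2).sub (φ 1 0 1)).sub (φ 1 0 1)).add (φ 1 0 0)) |>.sub
      ((((φ 0 1 2).sub (φ 0 1 1)).sub (φ 0 1 1)).add (φ 0 1 0)) |>.add
      ((((φ 0 0 2).sub (φ 0 0 1)).sub (φ 0 0 1)).add (φ 0 0 0))).congr fun y => ?_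
    have e : ∀ i j k : ℤ, a (((i * (algebraMap F K c * μ) + j * ν + k) *
        (i * (algebraMap F K c * μ) + j * ν + k)) • y) = (i * i) • (c * c) • a ((μ * μ) • y) +
          (j * j) • a ((ν * ν) • y) + (k * k) • a y + (2 * i * j) • c • a ((μ * ν) • y) +
          (2 * i * k) • c • a (μ • y) + (2 * j * k) • a (ν • y) := fun i j k => by
      simp only [← a.map_smul, ← map_zsmul, ← map_add]
      congr 1
      simp only [← algebraMap_smul K c, ← algebraMap_smul K (c * c), map_mul]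
      module
    simp only [LinearMap.sub_apply, LinearMap.add_apply, LinearMap.smul_apply, lr_apply, e,
      one_smul, ← algebraMap_smul K c, ← algebraMap_smul K (c * c), map_mul]
    module
  have h4 : (4 : K) ≠ 0 := by
    have := mul_ne_zero H.two H.two
    norm_num at this; exact this
  have key' := fun μ ν y => (smul_eq_zero.1 (key μ ν y)).resolve_left h4
  have h3 : (3 : K) = 0 := by
    have h1 : (2 * 3 : K) • a y₀ = 0 := by
      have := key' 1 1 y₀
      simp only [mul_one, one_smul] at this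
      linear_combination (norm := module) this
    exact (mul_eq_zero.1 ((smul_eq_zero.1 h1).resolve_right hy₀)).resolve_left H.two
  have h5 : ∀ (μ : K) y, a (μ ^ 3 • y) = μ ^ 3 • a y := fun μ y => by
    have h5 := key' μ μ y
    have h6 := key' μ μ (μ • y)
    simp only [smul_smul] at h6
    rw [show μ ^ 3 = μ * μ * μ by ring]
    linear_combination (norm := skip) h6 - μ • h5
    match_scalars
    · ring
    · ring
    · linear_combination (-μ) * h3
    · linear_combination μ * μ * h3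
  have : Fact (Nat.Prime 3) := ⟨Nat.prime_three⟩
  have : CharP K 3 := (CharP.charP_iff_prime_eq_zero Nat.prime_three).2 (by exact_mod_cast h3)
  have h6 : ∀ (k : K) y, a (k • y) = k • a y := fun k y => by
    obtain ⟨μ, rfl⟩ := Finite.surjective_of_injective (frobenius K 3).injective k
    exact h5 μ y
  obtain ⟨l, hl⟩ := exists_notMem_range H.hr.one_lt
  obtain ⟨v, -, hvu, -⟩ := (𝑃k).exists_partner H.E.sepK ⊥ hu0 hu (by simp)
  refine hy₀ (H.eq_zero_of_adj hu ha (x := v) (by rw [quad_B_comm, hvu]; simp) hl (fun s s' => ?_) _)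
  simp only [H.E.B, h6, map_smul, LinearMap.smul_apply, smul_eq_mul]
  congr 1; ring

theorem OO.perp_of_perp_three (H : OO T M Q Qk) (hr : 4 ≤ finrank F K) {u z v : V}
    (h : Fr Qk u z v) {W : Submodule F V} (hP : MaxPair K M (fun d => Qk d = 0) (pt F K u) W) {w : V}
    (hw : w ∈ W) (hwU : w ∉ pt F K u) (huw : (𝑃k).B u w = 0) {y : V} (hy : y ∈ W) :
    (𝑃k).B u y = 0 := by
  by_contra hβ
  have hu0 : u ≠ 0 := by rintro rfl; simpa using h.huv
  have huu : (𝑃k).B u u = 0 := (𝑃k).self_eq_zero h.hu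
  have hzu := (𝑃k).eq_zero_symm h.huz
  have hzz : (𝑃k).B z z ≠ 0 := by rw [quad_B_self]; exact mul_ne_zero H.two h.hz
  have hker : ∀ x, (𝑃k).B u x = 0 → (𝑃k).B z x = 0 → x ∈ pt F K u := fun x h1 h2 =>
    h.ker H.two one_ne_zero (by simp [Nq_apply, h1, h2])
  have hζ : (𝑃k).B z w ≠ 0 := fun h1 => hwU (hker w huw h1)
  have key : ∀ δ : K, δ • u ∈ W → ∀ x ∈ W, Nq F Qk u ((δ / (𝑃k).B z w) • z) x ∈ W := by
    intro δ hδ x hx
    have hN := H.inQ h.hu (d := (δ / (𝑃k).B z w) • z) (by simp [h.huz])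
    obtain ⟨t, ht, et⟩ := hN.has
    have := hP.stab ht (fun x hx _ => by rw [et]; simp [hN.ker x hx]) hw hwU (by
      rw [et]; simpa [Nq_apply, huw, hζ] using W.add_mem hw hδ) x hx
    rw [et] at this
    exact (W.add_mem_iff_right hx).1 this
  obtain ⟨d, hd, hd0⟩ := Submodule.exists_mem_ne_zero_of_ne_bot hP.ne_bot
  obtain ⟨δ, rfl⟩ := mem_pt.1 hd.1
  have hδ : δ ≠ 0 := left_ne_zero_of_smul hd0
  have h1 : ∀ x ∈ W, (𝑃k).B u x = 0 → ∃ c : F, (𝑃k).B z x = c • (𝑃k).B z w := fun x hx hux => by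
    by_contra hc
    push Not at hc
    obtain ⟨u', hu', hu''⟩ := hP.exists_left
    refine hu'' (pt_le_of_mul H.hr (l := (𝑃k).B z x / (𝑃k).B z w) (fun c h => hc c ?_) hδ hd.2
      (fun k hk => ?_) hu')
    · rw [Algebra.smul_def, h, div_mul_cancel₀ _ hζ]
    · convert key k hk x hx using 1
      simp only [Nq_apply, hux, B_smul_left, RingHom.id_apply]
      match_scalars <;> ring
  have h2 : ∀ δ' : K, δ' • u ∈ W → ∀ x ∈ W,
      ∃ c : F, (𝑃k).B u x * δ' = c • (((𝑃k).B u y) * δ) := fun δ' hδ' x hx => by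
    have h2 : ∀ δ' : K, δ' • u ∈ W → ∀ x ∈ W, ∃ c : F, (𝑃k).B u x * δ' =
        c • ((𝑃k).B z w * (𝑃k).B z w / (𝑃k).B z z) := fun δ' hδ' x hx => by
      obtain ⟨c, hc⟩ := h1 _ (key δ' hδ' x hx) (by simp [Nq_apply, huu, h.huz])
      simp only [Nq_apply, map_sub, map_smul, hzu, smul_eq_mul, Algebra.smul_def] at hc
      refine ⟨-c, ?_⟩
      rw [Algebra.smul_def, map_neg]
      field_simp at hc ⊢
      linear_combination -hc
    obtain ⟨c, hc⟩ := h2 δ' hδ' x hx
    obtain ⟨c', hc'⟩ := h2 δ hd.2 y hy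
    have h0 : c' ≠ 0 := by rintro rfl; simp [hβ, hδ] at hc'
    exact ⟨c / c', by rw [hc, hc', smul_smul, div_mul_cancel₀ _ h0]⟩
  have h3 : W ≤ Submodule.span F {w, y} ⊔ F ∙ (δ • u) := fun x hx => by
    obtain ⟨c, hc⟩ := h2 δ hd.2 x hx
    have h3 : (𝑃k).B u (x - c • y) = 0 := by
      rw [map_sub, ← algebraMap_smul K c, map_smul, algebraMap_smul, sub_eq_zero]
      exact mul_right_cancel₀ hδ (by rw [hc, smul_mul_assoc])
    obtain ⟨c', hc'⟩ := h1 _ (W.sub_mem hx (W.smul_mem c hy)) h3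
    obtain ⟨δ', hδ'⟩ := mem_pt.1 (hker (x - c • y - c' • w)
      (by rw [map_sub, h3, ← algebraMap_smul K c', map_smul, huw]; simp)
      (by rw [map_sub, hc', ← algebraMap_smul K c' w, map_smul, algebraMap_smul, sub_self]))
    obtain ⟨c'', hc''⟩ := h2 δ' (hδ' ▸ W.sub_mem (W.sub_mem hx (W.smul_mem c hy)) (W.smul_mem c' hw))
      y hy
    rw [← mul_smul_comm] at hc''
    rw [mul_left_cancel₀ hβ hc'', smul_assoc] at hδ'
    refine Submodule.mem_sup.2 ⟨_, Submodule.mem_span_pair.2 ⟨c', c, rfl⟩, _,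
      Submodule.mem_span_singleton.2 ⟨c'', rfl⟩, ?_⟩
    rw [hδ']; abel
  have h4 := Submodule.finrank_mono h3
  have h5 := finrank_sup_le' (Submodule.span F {w, y}) (F ∙ (δ • u))
  have h6 := finrank_span_pair_le (F := F) w y
  have h7 := finrank_span_singleton_le (F := F) (δ • u)
  rw [hP.right.finrank_eq] at h4
  omega

theorem OO.exists_maxPair_of_inT (H : OO T M Q Qk) (hr : 3 ≤ finrank F K) {u : V} (hu : Qk u = 0)
    (hu0 : u ≠ 0) {a : V →ₗ[F] V} (ha : InT M (pt F K u) a) (h0 : ∃ y, a y ≠ 0) :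
    ∃ d W, d ≠ 0 ∧ Qk d = 0 ∧ MaxPair K M (fun d => Qk d = 0) (pt F K d) W := by
  obtain ⟨v, hv, hvu, -⟩ := (𝑃k).exists_partner H.E.sepK ⊥ hu0 hu (by simp)
  have huv : (𝑃k).B u v = 1 := (quad_B_comm u v).trans hvu
  have hv0 : v ≠ 0 := by rintro rfl; simp at huv
  have h1 : ∀ y ∈ pt F K u, (𝑃k).B v y = 0 → y = 0 := fun y hy h => by
    obtain ⟨k, rfl⟩ := mem_pt.1 hy
    simp only [map_smul, hvu, smul_eq_mul, mul_one] at h
    simp [h]
  obtain ⟨g, hg, e⟩ := ha.has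
  have hG := good_pt (K := K) (M := M) (S := fun d => Qk d = 0) hv0 hv
  refine H21.exists_maxPair hG (hG.map hg) (fun h => ?_) ?_
  · obtain ⟨y, hy⟩ := h0
    refine hy ((H.inT_congr hu ha (y' := (𝑃k).B u y • v) (by simp [huv])).trans
      (h1 _ (ha.mem _) (H.E.mem_perp_pt.1 fun w hw => H.pt_iso hv w hw _ ?_)))
    have : g ((𝑃k).B u y • v) ∈ pt F K v := h ▸ ⟨_, smul_mem_pt _ v, rfl⟩
    rw [e] at this
    exact (Submodule.add_mem_iff_right _ (smul_mem_pt _ v)).1 this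
  · let b := finBasis F (pt F K v)
    obtain ⟨y, hy, hy0, h2⟩ := exists_ne_zero_of_det (P := 𝑃) b a (by
      set G := Matrix.of fun i j => (𝑃).B (b i) (a (b j)) with hGd
      have h2 : Gᵀ = -G := by
        ext i j
        simp only [hGd, transpose_apply, Matrix.neg_apply, of_apply]
        rw [← ha.skew H.hM (H.pt_iso hu), quad_B_comm]
      have h3 := Matrix.det_transpose G
      rw [h2, Matrix.det_neg, Fintype.card_fin, Odd.neg_one_pow (by
        rw [finrank_pt hv0]; exact H.hr.odd_of_ne_two (by omega))] at h3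
      have h5 : (2 : F) ≠ 0 := fun h => H.two (by rw [← map_ofNat (algebraMap F K), h, map_zero])
      exact mul_left_cancel₀ h5 (by linear_combination -h3))
    refine (Submodule.ne_bot_iff _).2 ⟨y, ⟨hy, y, hy, ?_⟩, hy0⟩
    simp [e, h1 _ (ha.mem y) (H.E.mem_perp_pt.1 h2)]

theorem OO.false_of_opp [Finite K] (H : OO T M Q Qk) (hr : 3 ≤ finrank F K) {u z v : V}
    (h : Fr Qk u z v) {W : Submodule F V} (hP : MaxPair K M (fun d => Qk d = 0) (pt F K u) W)
    (hA : ∃ b ∈ AF M (pt F K u), ∃ y, b y ≠ 0)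
    (hB : ∀ d W, d ≠ 0 → Qk d = 0 → MaxPair K M (fun d => Qk d = 0) (pt F K d) W →
      ∀ w ∈ W, (𝑃k).B d w = 0 → w ∈ pt F K d) : False := by
  classical
  have : Finite F := Finite.of_injective _ (algebraMap F K).injective
  have := Fintype.ofFinite F
  have : FiniteDimensional F K := .of_finrank_pos H.hr.pos
  have hu0 : u ≠ 0 := by rintro rfl; simpa using h.huv
  have huu : (𝑃k).B u u = 0 := (𝑃k).self_eq_zero h.hu
  have hzz : (𝑃k).B z z ≠ 0 := by rw [quad_B_self]; exact mul_ne_zero H.two h.hz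
  have hWW := polar_eq_zero_of_ts (H.sing hP.right)
  have hB' := hB u W hu0 h.hu hP
  obtain ⟨R, hR1, hR2⟩ := IsModularLattice.exists_disjoint_and_sup_eq
    (inf_le_right : pt F K u ⊓ W ≤ W)
  have hRW : R ≤ W := hR2 ▸ le_sup_right
  have hR0 : ∀ y ∈ R, y ∈ pt F K u → y = 0 := fun y hy hy' =>
    Submodule.disjoint_def.1 hR1 y ⟨hy', hRW hy⟩ hy
  obtain ⟨x, hx, hx0⟩ : ∃ x ∈ R, x ≠ 0 := by
    by_contra hc
    push Not at hc
    obtain ⟨w, hw, hw'⟩ := hP.exists_right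
    rw [(Submodule.eq_bot_iff R).2 hc, sup_bot_eq] at hR2
    exact hw' (hR2.ge hw).1
  have hβ : (𝑃k).B u x ≠ 0 := fun h => hx0 (hR0 x hx (hB' x (hRW hx) h))
  obtain ⟨S, hS1, hS2⟩ := IsModularLattice.exists_disjoint_and_sup_eq
    (inf_le_left : AF M (pt F K u) ⊓ (perp 𝑃 R).comap (LinearMap.applyₗ x) ≤ AF M (pt F K u))
  have hSA : S ≤ AF M (pt F K u) := hS2 ▸ le_sup_right
  have hdim : finrank F R ≤ finrank F S + 1 := by
    have h1 : R ⊓ perp 𝑃 (S.map (LinearMap.applyₗ x)) ≤ F ∙ x := fun y hy => by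
      by_contra hyx
      have h1 : ∀ a ∈ AF M (pt F K u), (𝑃).B y (a x) = 0 := fun a ha => by
        obtain ⟨a₁, h1, a₂, h2, rfl⟩ := Submodule.mem_sup.1 (hS2 ▸ ha : a ∈ _ ⊔ S)
        rw [LinearMap.add_apply, map_add, show (𝑃).B y (a₁ x) = 0 from h1.2 y hy.1, zero_add]
        exact (𝑃).eq_zero_symm (hy.2 _ ⟨a₂, h2, rfl⟩)
      obtain ⟨a, ha, y₀, hy₀⟩ := hA
      have h2 : ∀ s : K, (𝑃).B (s • y) (a (s • x)) = 0 := fun s => by
        obtain ⟨c, μ, rfl⟩ := exists_eq_smul_sq H.hr hr H.two s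
        have := h1 (lr (μ * μ) (μ * μ) a) fun c' =>
          (H.inT_lr h.hu hu0 (ha c') μ).congr fun y => by simp [lr_apply, smul_comm']
        rw [lr_apply, H.E.B, map_smul, smul_eq_mul] at this
        rw [smul_assoc, smul_assoc, B_smul_left, a.map_smul, LinearMap.map_smul, H.E.B, B_smul_left,
          RingHom.id_apply, RingHom.id_apply, this]; simp
      have h3 : ∀ (s : K) w, (𝑃).B (((𝑃k).B u y / (𝑃k).B u x * s) • x) (a w) =
          (𝑃).B (s • y) (a w) := fun s w => by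
        obtain ⟨k, hk⟩ := mem_pt.1 ((AF.inT ha).mem w)
        simp only [← hk, H.E.B, map_smul, LinearMap.smul_apply, smul_eq_mul, quad_B_comm _ u]
        congr 1; field_simp
      refine hy₀ (H.eq_zero_of_adj h.hu (AF.inT ha) hβ (l := (𝑃k).B u y / (𝑃k).B u x)
        (fun c hc => hyx ?_) (fun s s' => ?_) _)
      · refine Submodule.mem_span_singleton.2 ⟨c, (sub_eq_zero.1 (hR0 _ (R.sub_mem hy.1
          (R.smul_mem c hx)) (hB' _ (hRW (R.sub_mem hy.1 (R.smul_mem c hx))) ?_))).symm⟩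
        rw [map_sub, ← algebraMap_smul K c, map_smul, hc, smul_eq_mul, div_mul_cancel₀ _ hβ,
          sub_self]
      · have h4 := h2 (s + s')
        simp only [add_smul, map_add, LinearMap.add_apply, h2] at h4
        rw [quad_B_comm (s • x), (AF.inT ha).skew H.hM (H.pt_iso h.hu), h3, h3]
        linear_combination h4
    have h2 := Submodule.finrank_mono h1
    have h3 := finrank_span_singleton_le (F := F) x
    have h4 := finrank_le_perp (P := 𝑃) (S.map (LinearMap.applyₗ x))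
    have h5 := Submodule.finrank_map_le (LinearMap.applyₗ x) S
    have h6 := Submodule.finrank_sup_add_finrank_inf_eq R (perp 𝑃 (S.map (LinearMap.applyₗ x)))
    have h7 := Submodule.finrank_le (R ⊔ perp 𝑃 (S.map (LinearMap.applyₗ x)))
    omega
  let b := finBasis F K
  let bS := finBasis F S
  let bR := finBasis F R
  let w : Fin (finrank F K) ⊕ Fin (finrank F S) → ℕ := Sum.elim (fun _ => 1) fun _ => 2
  let κ : (Fin (finrank F K) ⊕ Fin (finrank F S) → F) → K := fun p => ∑ i, p (.inl i) • b i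
  let α : (Fin (finrank F K) ⊕ Fin (finrank F S) → F) → S := fun p => ∑ i, p (.inr i) • bS i
  have hn : (fun p => Nq F Qk u (κ p • z) + (α p : V →ₗ[F] V)) ∈ PD w (Module.End F V) 2 :=
    PD.add (PD.nq (PD.basis Sum.inl (fun _ => le_rfl) b) u z)
      (PD.map S.subtype (PD.basis Sum.inr (fun _ => le_rfl) bS))
  have hR : 0 < finrank F R := Nat.pos_of_ne_zero fun h0 =>
    hx0 ((Submodule.eq_bot_iff R).1 (Submodule.finrank_eq_zero.1 h0) x hx)
  have : Nonempty (Fin (finrank F R)) := ⟨⟨0, hR⟩⟩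
  obtain ⟨p, hp0, hp⟩ := PD.exists_zero (by simp [w]; omega) (PD.det (g := fun p => Matrix.of
    fun i j => (𝑃).B (bR i) ((Nq F Qk u (κ p • z) + (α p : V →ₗ[F] V)) (bR j))) fun i j =>
      PD.map ((𝑃).B (bR i) ∘ₗ LinearMap.applyₗ (bR j : V)) hn) (by
        convert Matrix.det_zero (n := Fin (finrank F R)) (R := F)
        ext i j
        simp [κ, α, Nq_apply])
  obtain ⟨y, hy, hy0, h1⟩ := exists_ne_zero_of_det bR _ hp
  have hN := H.inQ h.hu (d := κ p • z) (by simp [h.huz])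
  have ha := AF.inT (hSA (α p).2)
  obtain ⟨t, ht, et⟩ := hN.has.comp ha.has
  have et' : ∀ y, t y = y + (Nq F Qk u (κ p • z) + (α p : V →ₗ[F] V)) y := fun y => by
    simp only [et, map_add, hN.ker _ (ha.mem y), LinearMap.add_apply]; abel
  have htU : ∀ y ∈ pt F K u, t y = y := fun y hy => by simp [et', hN.ker y hy, ha.ker y hy]
  have hne : W ≠ W.map (t : V →ₗ[F] V) := fun e => by
    have h2 : t x ∈ W := e ▸ ⟨x, hRW hx, rfl⟩
    rw [et', W.add_mem_iff_right (hRW hx), LinearMap.add_apply] at h2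
    obtain ⟨k, hk⟩ := mem_pt.1 (ha.mem x)
    obtain ⟨k', hk'⟩ := mem_pt.1 (hB' _ h2 (by simp [← hk, Nq_apply, huu, h.huz]))
    have h3 := congrArg ((𝑃k).B z) hk'
    simp only [← hk, Nq_apply, map_add, map_sub, map_smul, (𝑃k).eq_zero_symm h.huz, smul_eq_mul,
      mul_zero, add_zero, zero_sub, zero_eq_neg, mul_eq_zero, hβ, hzz, or_false, false_or] at h3
    have h4 : α p = 0 := Subtype.ext (Submodule.disjoint_def.1 hS1 _ ⟨hSA (α p).2, fun w hw =>
      hWW w (hRW hw) _ (by simpa [h3, Nq_apply] using h2)⟩ (α p).2)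
    refine hp0 (funext fun i => ?_)
    rcases i with i | i
    · exact Fintype.linearIndependent_iff.1 b.linearIndependent _ h3 i
    · exact Fintype.linearIndependent_iff.1 bS.linearIndependent _ h4 i
  obtain ⟨h2, h3⟩ := hP.of_le hP.right (hP.right.map ht) hne
    fun y hy => ⟨hy.2, y, hy.2, htU y hy.1⟩
  obtain ⟨g, hg, d, h6, h7, h8, h9⟩ := h2.exists_pt
  have h4 : t y ∈ W := by
    rw [← mem_map_le (a := g), h8]
    refine hB d _ h6 h7 h9 _ ⟨_, ⟨y, hRW hy, rfl⟩, rfl⟩ (H.E.mem_perp_pt.1 ?_)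
    rw [← h8]
    rintro _ ⟨w, hw, rfl⟩
    refine ((H.hM hg).1 _ _).trans ?_
    obtain ⟨w₁, h4, w₂, h5, rfl⟩ := Submodule.mem_sup.1 (hR2.ge hw)
    rw [map_add, LinearMap.add_apply, ← htU w₁ h4.1, (H.hM ht).1, hWW _ h4.2 _ (hRW hy), et',
      map_add, hWW _ (hRW h5) _ (hRW hy), h1 _ h5]
    simp
  have h5 := (h3.le ⟨h4, y, hRW hy, rfl⟩).1
  exact hy0 (hR0 y hy (t.injective (htU _ h5) ▸ h5))

theorem OO.EG_le_three [Finite K] (H : OO T M Q Qk) (h3 : finrank K V = 3) (hr : 5 ≤ finrank F K)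
    {g : V ≃ₗ[F] V} (hg : g ∈ M) (hg' : g ∉ NK F K V) : EG (𝑃) ≤ M := by
  have hA : ∀ u, u ≠ 0 → Qk u = 0 → ∃ a, InT M (pt F K u) a ∧ ∃ y, a y ≠ 0 := fun u hu0 hu => by
    by_contra hc
    push Not at hc
    exact hg' (H.le_NK h3 hr hu hu0 hc hg)
  obtain ⟨u, -, hu0, hu⟩ := isoK_quad Qk ⊤ (by rw [finrank_top]; omega)
  obtain ⟨a, ha, h0⟩ := hA u hu0 hu
  obtain ⟨u, W, hu0, hu, hP⟩ := H.exists_maxPair_of_inT (by omega) hu hu0 ha h0
  by_contra hc
  obtain ⟨z, v, h⟩ := H.exists_fr h3 hu hu0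
  obtain ⟨a, ha, h0⟩ := hA u hu0 hu
  refine H.false_of_opp (by omega) h hP (H.exists_AF hu hu0 ha h0) fun d W hd0 hd hP w hw hdw => ?_
  by_contra hwd
  obtain ⟨z, v, h⟩ := H.exists_fr h3 hd hd0
  exact hc (H.EG_le_of_three (by omega) (by omega) hd hd0 fun e he he0 => H.le_Wd (by omega) hd hd0
    hP (fun y hy => H.perp_of_perp_three (by omega) h hP hw hwd hdw hy) he he0)

omit [FiniteDimensional K V] in
theorem isMaximalIn_O3 [Finite K] (hr : (finrank F K).Prime) (h2 : (2 : F) ≠ 0)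
    (hQ : (QuadraticMap.polarBilin Q).SeparatingLeft) (h3 : finrank K V = 3) (h5 : 5 ≤ finrank F K)
    (h1 : ∀ (k : K) x y, QuadraticMap.polar Q (k • x) y = QuadraticMap.polar Q x (k • y)) :
    Geo.IsMaximalIn (EG (𝑃)) (NK F K V ⊓ EG (𝑃)) := by
  have : Finite F := Finite.of_injective _ (algebraMap F K).injective
  have : FiniteDimensional K V := Module.Finite.of_restrictScalars_finite F K V
  have hn : 5 ≤ finrank F V := by
    rw [← Module.finrank_mul_finrank F K V, h3]; omega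
  obtain ⟨T, Qk, -, H⟩ := exists_OO hr h2 hQ hn h1
  obtain ⟨x, -, hx0, hx⟩ := isoK_quad Q ⊤ (by rw [finrank_top]; omega)
  obtain ⟨g, hg, hg'⟩ := exists_EG_not_NK (K := K) (P := 𝑃) hr.one_lt hQ hn hx0 hx
  exact isMaximalIn_of inf_le_right (fun h => hg' (h hg).1) fun M h3' h6 ⟨g, h7, h8⟩ =>
    (H M h3' h6).EG_le_three h3 h5 h7 fun h => h8 ⟨h, h6 h7⟩

theorem fieldSub_O3 {ι : Type} [Fintype ι] [DecidableEq ι] {F : Type*} [Field F] [Fintype F]
    (hodd : Odd (Fintype.card F)) {Q : QuadraticForm F (ι → F)}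
    (hQ : (QuadraticMap.polarBilin Q).SeparatingLeft) {r : ℕ} (hr : r.Prime)
    (h4 : 3 * r = Fintype.card ι) (h5 : 5 ≤ r)
    {K : Subalgebra F (Matrix ι ι F)} (hK : Geo.IsFieldSubalgebra r K)
    (hsa : Geo.IsSelfAdjointFor (QuadraticMap.polar Q) K) :
    Geo.IsMaximalIn (Geo.omegaGL Q) (Geo.subalgebraNormalizer K ⊓ Geo.omegaGL Q) := by
  have : Nonempty ι := Fintype.card_pos_iff.1 (by omega)
  refine fieldSub_elim hK fun E _ _ _ _ _ hE h1 h2 e => ?_
  rw [e, omegaGL_eq hQ (by omega), ← pull_inf]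
  have hm := Module.finrank_mul_finrank F E (ι → F)
  rw [hE, finrank_fintype_fun_eq_card, ← h4, mul_comm] at hm
  refine isMaximalIn_pull (isMaximalIn_O3 (hE ▸ hr) (two_ne_zero_of_odd hodd) hQ
    (Nat.eq_of_mul_eq_mul_right hr.pos hm) (hE ▸ h5) fun k x y => ?_)
  obtain ⟨a, ha, h3⟩ := h2 k
  rw [← h3, ← h3, hsa a ha]

end H21
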