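import Mathlib
import Cfsg.Agent.Base
import Cfsg.Agent.Lib.ExtFld.O3b
import Cfsg.Agent.Lib.Tensor.OO1

/-!
The three-dimensional orthogonal group over a cubic extension field: preliminaries.
-/

set_option autoImplicit false
set_option linter.unusedSectionVars false

namespace H21

open Module Cfsg H97 H28 Finset

theorem fixed_of_free' {G E A : Type*} [Group G] [Finite G] [AddCommGroup E] [AddGroup A]
    [Fintype A] (S : Subgroup G) (ρ : G →* AddMonoid.End E) {e : E} (he : ∀ s ∈ S, ρ s e = e)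
    (t : A → G) (ht : ∀ a b, t (a + b) = t a * t b)
    (hfree : ∀ g, g ∉ S → ∀ a, g⁻¹ * t a * g ∈ S → a = 0) (htS : ∀ a, t a ∈ S)
    (E₀ : AddSubgroup E) (hsum : ∀ x, ∑ a, ρ (t a) x ∈ E₀) :
    ∃ x ∈ E₀, ∀ g, ρ g (e + x) = e + x := by
  classical
  have := Fintype.ofFinite (G ⧸ S)
  have ht0 : t 0 = 1 := by simpa using ht 0 0
  have hneg : ∀ a, t (-a) = (t a)⁻¹ := fun a =>
    eq_inv_of_mul_eq_one_left (by rw [← ht, neg_add_cancel, ht0])
  let f : G ⧸ S → E := fun x => ρ x.out e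
  have hf : ∀ g : G, f (g : G ⧸ S) = ρ g e := fun g => by
    obtain ⟨s, hs⟩ := QuotientGroup.mk_out_eq_mul S g
    simp only [f, hs, map_mul, AddMonoid.End.coe_mul, Function.comp_apply, he s s.2]
  have hf' : ∀ (g : G) (x : G ⧸ S), f (g • x) = ρ g (f x) := fun g x => by
    induction x using QuotientGroup.induction_on with
    | H y => rw [MulAction.Quotient.smul_mk, hf, hf, smul_eq_mul, map_mul]; rfl
  have h1 : ∀ g, ρ g (∑ x, f x) = ∑ x, f x := fun g => by
    rw [map_sum]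
    simp only [← hf']
    exact Equiv.sum_comp (MulAction.toPerm g) f
  rw [← add_sum_erase _ _ (mem_univ ((1 : G) : G ⧸ S)), hf, map_one] at h1
  refine ⟨_, ?_, h1⟩
  rw [← QuotientAddGroup.eq_zero_iff, ← QuotientAddGroup.mk'_apply, map_sum]
  let R : Setoid (G ⧸ S) := ⟨fun x y => ∃ a, x = t a • y, fun x => ⟨0, by simp [ht0]⟩,
    fun ⟨a, h⟩ => ⟨-a, by simp [h, hneg]⟩,
    fun ⟨a, h⟩ ⟨b, h'⟩ => ⟨a + b, by rw [h, h', ht, mul_smul]⟩⟩
  refine sum_cancels_of_partition_cancels R fun x hx => ?_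
  induction x using QuotientGroup.induction_on with
  | H y =>
  have hy : y ∉ S := fun h => (mem_erase.1 hx).1 (QuotientGroup.eq.2 (by simpa using h))
  rw [← map_sum, QuotientAddGroup.mk'_apply, QuotientAddGroup.eq_zero_iff]
  refine (congrArg (· ∈ E₀) ?_).mp (hsum (f y))
  refine sum_bij (fun a _ => t a • (y : G ⧸ S)) (fun a _ => ?_) (fun a _ b _ h => ?_)
    (fun z hz => ?_) fun a _ => (hf' _ _).symm
  · refine mem_filter.2 ⟨mem_erase.2 ⟨fun h => hy ?_, mem_univ _⟩, a, rfl⟩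
    rw [MulAction.Quotient.smul_mk, QuotientGroup.eq] at h
    simpa using S.mul_mem (S.inv_mem (htS a)) (S.inv_mem h)
  · rw [MulAction.Quotient.smul_mk, MulAction.Quotient.smul_mk, QuotientGroup.eq] at h
    have := hfree y hy (-a + b) (by simpa [ht, hneg, mul_assoc] using h)
    exact neg_add_eq_zero.1 this
  · obtain ⟨a, ha⟩ := (mem_filter.1 hz).2
    exact ⟨a, mem_univ _, ha.symm⟩

theorem exists_inverting {G : Type*} [Group G] {s d x x' : G} (h1 : s * d = d * s)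
    (h2 : x * d = d * x) (h3 : x' * s = s * x') (h4 : s * x * s⁻¹ = x * d)
    (h5 : d * x' * d⁻¹ = x' * s) :
    s * ((x * x'⁻¹ * x) * (x * x'⁻¹ * x)) * s = (x * x'⁻¹ * x) * (x * x'⁻¹ * x) ∧
      d * ((x * x'⁻¹ * x) * (x * x'⁻¹ * x)) * d = (x * x'⁻¹ * x) * (x * x'⁻¹ * x) := by
  have a1 : s * x = x * (d * s) := by rw [← mul_assoc, ← h4]; group
  have a2 : s * x'⁻¹ = x'⁻¹ * s := by rw [mul_inv_eq_iff_eq_mul, mul_assoc, ← h3]; group
  have a3 : d * s * x'⁻¹ = x'⁻¹ * d := by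
    rw [← h1, eq_inv_mul_iff_mul_eq, ← mul_assoc, ← mul_assoc, ← h5]; group
  have a4 : s * (x * x'⁻¹ * x) = (x * x'⁻¹ * x) * d := by
    rw [← mul_assoc, ← mul_assoc, a1, mul_assoc x, a3, mul_assoc, mul_assoc, ← h2]; group
  have a5 : d * (x * x'⁻¹ * x) * s = x * x'⁻¹ * x := by
    have b1 : d * x'⁻¹ = x'⁻¹ * d * s⁻¹ := by rw [← a3, mul_assoc d, a2]; group
    have b2 : x * s = s * d⁻¹ * x := by
      rw [mul_assoc, show d⁻¹ * x = x * d⁻¹ by rw [inv_mul_eq_iff_eq_mul, ← mul_assoc, ← h2]; group,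
        ← mul_assoc, a1, ← h1]; group
    rw [← mul_assoc, ← mul_assoc, ← h2, mul_assoc x d, b1, mul_assoc, b2]; group
  generalize x * x'⁻¹ * x = y at a4 a5
  exact ⟨by rw [← mul_assoc, a4, mul_assoc, mul_assoc, ← mul_assoc d, a5], by
    rw [mul_assoc, mul_assoc, ← a4, ← mul_assoc, ← mul_assoc, a5]⟩

theorem PD.ml {F ι V : Type*} [Field F] [Fintype ι] {w : ι → ℕ} [AddCommGroup V] [Module F V]
    (n : ℕ) {d₀ : ℕ} {ψ : (ι → F) → MultilinearMap F (fun _ : Fin n => V) F} (hψ : ψ ∈ PD w _ d₀)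
    {d : Fin n → ℕ} {x : Fin n → (ι → F) → V} (hx : ∀ i, x i ∈ PD w V (d i)) :
    (fun a => ψ a fun i => x i a) ∈ PD w F (d₀ + ∑ i, d i) := by
  induction n generalizing d₀ with
  | zero =>
    exact PD.congr (PD.map (MultilinearMap.constLinearEquivOfIsEmpty F F _ F).symm.toLinearMap hψ)
      fun a => congrArg _ (Subsingleton.elim _ _)
  | succ n ih =>
    rw [Fin.sum_univ_succ, ← add_assoc]
    exact PD.congr (ih (PD.bil (multilinearCurryLeftEquiv F (fun _ : Fin (n + 1) => V) F).toLinearMap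
      hψ (hx 0)) fun i => hx i.succ) fun a => congrArg _ (Fin.cons_self_tail _).symm

variable {F K V : Type*} [Field F] [Field K] [Algebra F K] [AddCommGroup V] [Module F V]
  [Module K V] [IsScalarTower F K V] {T : K →ₗ[F] F} {M : Subgroup (V ≃ₗ[F] V)}
  [FiniteDimensional F V] [FiniteDimensional K V] {Q : QuadraticForm F V} {Qk : QuadraticForm K V}

local notation "𝑃" => PQ.ofQuad Q
local notation "𝑃k" => PQ.ofQuad Qk

theorem OO.exists_ker (H : OO T M Q Qk) (hr : 3 ≤ finrank F K) {u : V} (hu : Qk u = 0)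
    (hu0 : u ≠ 0) {a : V →ₗ[F] V} (ha : InT M (pt F K u) a) : ∃ y, (𝑃k).B u y ≠ 0 ∧ a y = 0 := by
  obtain ⟨v, hv, hvu, -⟩ := (𝑃k).exists_partner H.E.sepK ⊥ hu0 hu (by simp)
  have huv : (𝑃k).B u v = 1 := (quad_B_comm u v).trans hvu
  have hv0 : v ≠ 0 := by rintro rfl; simp at huv
  let b := finBasis F (pt F K v)
  obtain ⟨y, hy, hy0, h2⟩ := exists_ne_zero_of_det (P := 𝑃) b a (by
    set G := Matrix.of fun i j => (𝑃).B (b i) (a (b j)) with hGd
    have h2 : G.transpose = -G := by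
      ext i j
      simp only [hGd, Matrix.transpose_apply, Matrix.neg_apply, Matrix.of_apply]
      rw [← ha.skew H.hM (H.pt_iso hu), quad_B_comm]
    have h3 := Matrix.det_transpose G
    rw [h2, Matrix.det_neg, Fintype.card_fin, Odd.neg_one_pow (by
      rw [finrank_pt hv0]; exact H.hr.odd_of_ne_two (by omega))] at h3
    have h5 : (2 : F) ≠ 0 := fun h => H.two (by rw [← map_ofNat (algebraMap F K), h, map_zero])
    exact mul_left_cancel₀ h5 (by linear_combination -h3))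
  obtain ⟨k, rfl⟩ := mem_pt.1 hy
  obtain ⟨l, hl⟩ := mem_pt.1 (ha.mem (k • v))
  have := H.E.mem_perp_pt.1 h2
  rw [← hl, map_smul, hvu, smul_eq_mul, mul_one] at this
  exact ⟨k • v, by simpa [huv] using left_ne_zero_of_smul hy0, by rw [← hl, this, zero_smul]⟩

theorem OO.le_Wd_cubic [Finite K] (H : OO T M Q Qk) (hr : finrank F K = 3) {u : V} (hu : Qk u = 0)
    (hu0 : u ≠ 0) {a : V →ₗ[F] V} (ha : InT M (pt F K u) a) (h0 : ∃ y, a y ≠ 0) (e : V)
    (he : e ∈ pt F K u) (he0 : e ≠ 0) : pt F K u ≤ Wd 𝑃 M e (H.sing_pt hu e he) := fun w hw => by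
  have hU := H.pt_iso hu
  have hq : ∀ c : F, 0 - (𝑃).q (c • w) ∈ (𝑃).Λ := fun c => by
    rw [zero_sub, neg_mem_iff]; exact H.sing_pt hu _ (Submodule.smul_mem _ _ hw)
  refine ⟨hU e he w hw, fun c => ⟨0, hq c, ?_⟩⟩
  by_cases h1 : w ∈ F ∙ e
  · obtain ⟨c', rfl⟩ := Submodule.mem_span_singleton.1 h1
    exact has_id.congr fun y => by simp [quad_eu]; module
  have h2 : e ∉ F ∙ w := fun h => h1 (by
    obtain ⟨c', rfl⟩ := Submodule.mem_span_singleton.1 h
    rw [Submodule.span_singleton_smul_eq (IsUnit.mk0 _ (left_ne_zero_of_smul he0))]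
    exact Submodule.mem_span_singleton_self w)
  have h3 : Submodule.span F {e, w} ≤ pt F K u := Submodule.span_le.2 (by
    rintro _ (rfl | rfl) <;> assumption)
  have d1 := finrank_span_pair_le (F := F) e w
  obtain ⟨x, hx, hx'⟩ := SetLike.exists_of_lt (Submodule.lt_of_le_of_finrank_lt_finrank h3 (by
    rw [finrank_pt hu0]; omega))
  obtain ⟨y₁, b1, b2⟩ := exists_B_eq H.E.sep hx' 1
  obtain ⟨n, n1, n2⟩ := exists_B_eq H.E.sep h2 1
  obtain ⟨n', n3, n4⟩ := exists_B_eq H.E.sep h1 1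
  replace n1 := n1 w (Submodule.mem_span_singleton_self w)
  replace n3 := n3 e (Submodule.mem_span_singleton_self e)
  have h4 : ∀ m ∈ pt F K u, (𝑃).B y₁ m = 0 → m = (𝑃).B n m • e + (𝑃).B n' m • w := fun m hm hm' => by
    have : Submodule.span F {e, w} ⊔ F ∙ x = pt F K u := Submodule.eq_of_le_of_finrank_le
      (sup_le h3 ((Submodule.span_singleton_le_iff_mem _ _).2 hx)) (by
        rw [finrank_pt hu0, Submodule.finrank_sup_span_singleton hx', Submodule.span_insert,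
          Submodule.finrank_sup_span_singleton h1, finrank_span_singleton he0, hr])
    obtain ⟨_, c1, _, c2, rfl⟩ := Submodule.mem_sup.1 (this.ge hm)
    obtain ⟨c', rfl⟩ := Submodule.mem_span_singleton.1 c2
    rw [map_add, b1 _ c1, map_smul, b2] at hm'
    obtain ⟨p, q, rfl⟩ := Submodule.mem_span_pair.1 c1
    simp [show c' = 0 by simpa using hm', n1, n2, n3, n4]
  obtain ⟨a, ha, y₂, h0⟩ := H.exists_AF hu hu0 ha h0
  obtain ⟨y₀, c1, c2⟩ := H.exists_ker hr.ge hu hu0 (AF.inT ha)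
  have c3 : (𝑃k).B u y₁ ≠ 0 := fun h => by
    simpa [b2] using mem_perp'.1 (H.E.mem_perp_pt.2 h) x hx
  obtain ⟨c₀, μ, c4⟩ := exists_eq_smul_sq H.hr hr.ge H.two ((𝑃k).B u y₀ / (𝑃k).B u y₁)
  have c5 : c₀ ≠ 0 ∧ μ ≠ 0 := by constructor <;> rintro rfl <;> simp [c1, c3] at c4
  have c6 : lr (μ * μ) (μ * μ) a ∈ AF M (pt F K u) := fun c' =>
    (H.inT_lr hu hu0 (ha c') μ).congr fun y => by simp [lr_apply, smul_comm']
  have c7 : lr (μ * μ) (μ * μ) a y₁ = 0 := by
    rw [lr_apply, H.inT_congr hu (AF.inT ha) (y' := c₀⁻¹ • y₀), a.map_smul, c2, smul_zero, smul_zero]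
    rw [← algebraMap_smul K c₀⁻¹, map_smul, map_smul, (div_eq_iff c3).1 c4]
    simp [Algebra.smul_def, c5, mul_assoc]
  have c8 : lr (μ * μ) (μ * μ) a ((μ * μ)⁻¹ • y₂) ≠ 0 := by
    rw [lr_apply, smul_inv_smul₀ (by simp [c5])]; simp [c5, h0]
  generalize lr (μ * μ) (μ * μ) a = a' at c6 c7 c8
  have sk := (AF.inT c6).skew H.hM hU
  have al := (AF.inT c6).alt H.hM (H.sing_pt hu)
  have d2 : ∀ y, a' y = _ := fun y => h4 _ ((AF.inT c6).mem y) (by
    rw [← neg_eq_zero, ← sk, c7]; simp)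
  have d3 : ∀ y, a' y = (𝑃).B n' (a' n) • ((𝑃).B e y • w - (𝑃).B w y • e) := fun y => by
    have e1 := d2 n
    have e2 := d2 n'
    rw [al, zero_smul, zero_add] at e1
    rw [al, zero_smul, add_zero, quad_B_comm n, sk] at e2
    generalize (𝑃).B n' (a' n) = l at e1 e2
    rw [d2, ← neg_neg ((𝑃).B n _), ← neg_neg ((𝑃).B n' (a' y)), ← sk, ← sk, e2, e1]
    simp only [B_smul_left, RingHom.id_apply]
    module
  refine (c6 (-c / (𝑃).B n' (a' n))).has.congr fun y => ?_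
  have : (𝑃).B n' (a' n) ≠ 0 := fun h => c8 (by rw [d3, h, zero_smul])
  rw [LinearMap.smul_apply, d3 y, quad_eu, B_smul_left]
  simp only [RingHom.id_apply]
  match_scalars <;> field_simp <;> ring

end H21
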