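import Mathlib
import Cfsg.Agent.Base
import Cfsg.Agent.Lib.ExtFld.O3c

/-!
Maximality of the three-dimensional orthogonal group over a cubic extension field.
-/

set_option autoImplicit false
set_option linter.unusedSectionVars false

namespace H21

open Module Cfsg H97 H28 Finset

variable {F K V : Type*} [Field F] [Field K] [Algebra F K] [AddCommGroup V] [Module F V]
  [Module K V] [IsScalarTower F K V] {M : Subgroup (V ≃ₗ[F] V)}
  [FiniteDimensional F V] [FiniteDimensional K V] {Q : QuadraticForm F V} {Qk : QuadraticForm K V}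
  [Finite K]

local notation "𝑃" => PQ.ofQuad Q
local notation "𝑃k" => PQ.ofQuad Qk

theorem exists_gal {v : V} (hv : v ≠ 0) {g : V ≃ₗ[F] V} (hg : g ∈ NK F K V) :
    ∃ θ : K ≃ₐ[F] K, ∀ k x, g (k • x) = θ k • g x := by
  choose θ hθ using hg.1
  have inj := smul_left_injective K (show g v ≠ 0 by simpa using hv)
  let θ' : K →ₐ[F] K :=
    { toFun := θ
      map_one' := inj (by simp [← hθ])
      map_mul' := fun a b => inj (by simp [← hθ, mul_smul])
      map_zero' := inj (by simp [← hθ])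
      map_add' := fun a b => inj (by simp [← hθ, add_smul])
      commutes' := fun c => inj (by simp [← hθ]) }
  exact ⟨AlgEquiv.ofBijective θ' (Finite.injective_iff_bijective.1 θ'.toRingHom.injective), hθ⟩

theorem gal_pow {g : V ≃ₗ[F] V} {θ : K ≃ₐ[F] K} (h : ∀ k x, g (k • x) = θ k • g x) (n : ℕ) (k : K)
    (x : V) : (g ^ n) (k • x) = (θ ^ n) k • (g ^ n) x := by
  induction n with
  | zero => rfl
  | succ n ih => rw [pow_succ', pow_succ', le_mul_apply, ih, h]; rfl

theorem gal_cube (hr : finrank F K = 3) (θ : K ≃ₐ[F] K) : θ ^ 3 = 1 := by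
  have : Finite F := Finite.of_injective _ (algebraMap F K).injective
  have : FiniteDimensional F K := Module.Finite.of_finite
  rw [← hr, ← IsGalois.card_aut_eq_finrank, pow_card_eq_one']

theorem det_gram (b : Basis (Fin 3) K V) (B : V →ₗ[K] V →ₗ[K] K) (x : Fin 3 → V) :
    (Matrix.of fun i j => B (x i) (x j)).det =
      b.det x ^ 2 * (Matrix.of fun i j => B (b i) (b j)).det := by
  have : (Matrix.of fun i j => B (x i) (x j)) = (b.toMatrix x).transpose *
      (Matrix.of fun i j => B (b i) (b j)) * b.toMatrix x := by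
    ext i j
    conv_lhs => rw [Matrix.of_apply, ← b.sum_repr (x i), ← b.sum_repr (x j)]
    simp [-Basis.sum_repr, Matrix.mul_apply, Basis.toMatrix_apply, mul_sum, mul_comm]
  rw [this, Matrix.det_mul, Matrix.det_mul, Matrix.det_transpose, Basis.det_apply]; ring

theorem det_semi (b : Basis (Fin 3) K V) {g : V ≃ₗ[F] V} {θ : K ≃ₐ[F] K}
    (h : ∀ k x, g (k • x) = θ k • g x) (x : Fin 3 → V) :
    b.det (fun i => g (x i)) = θ (b.det x) * b.det fun i => g (b i) := by
  have : b.toMatrix (fun i => g (x i)) =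
      b.toMatrix (fun i => g (b i)) * θ.toRingHom.mapMatrix (b.toMatrix x) := by
    ext i j
    conv_lhs => rw [Basis.toMatrix_apply, ← b.sum_repr (x j)]
    simp [-Basis.sum_repr, Matrix.mul_apply, Basis.toMatrix_apply, h, mul_comm]
  rw [Basis.det_apply, this, Matrix.det_mul, ← RingHom.map_det, mul_comm]; rfl

variable (F) in
/-- The trace of a multiple of the determinant. -/
noncomputable def om (b : Basis (Fin 3) K V) (κ : K) : MultilinearMap F (fun _ : Fin 3 => V) F :=
  (Algebra.trace F K).compMultilinearMap ((κ • b.det).toMultilinearMap.restrictScalars F)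

theorem om_apply (b : Basis (Fin 3) K V) (κ : K) (x : Fin 3 → V) :
    om F b κ x = Algebra.trace F K (κ * b.det x) := rfl

theorem mem_NK_of_om (b : Basis (Fin 3) K V) {κ : K} (hκ : κ ≠ 0) {g : V ≃ₗ[F] V}
    (h : ∀ x, om F b κ (fun i => g⁻¹ (x i)) = om F b κ x) : g ∈ NK F K V := by
  have : Finite F := Finite.of_injective _ (algebraMap F K).injective
  have : FiniteDimensional F K := Module.Finite.of_finite
  have h3 : finrank K V = 3 := by simpa using finrank_eq_card_basis b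
  rw [← inv_mem_iff]
  refine mem_NK_of fun k => ?_
  let φ : V →+ V :=
    { toFun := fun y => g⁻¹ (k • g y)
      map_zero' := by simp
      map_add' := fun x y => by simp }
  obtain ⟨k', hk'⟩ := exists_scalar_of_forall (F := K) (fun a => by
    by_contra hc
    push Not at hc
    have h1 := finrank_span_singleton_le (F := K) a
    rw [(eq_top_iff.2 fun y _ => hc y : K ∙ a = ⊤), finrank_top] at h1
    omega) φ fun y => by_contra fun hy => by
      obtain ⟨w, hw⟩ := exists_linearIndependent_cons_of_lt_finrank (R := K) (v := ![φ y, y])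
        (linearIndependent_fin2.2 ⟨by rintro (rfl : y = 0); simp at hy, fun a e =>
          hy (Submodule.mem_span_singleton.2 ⟨a, e⟩)⟩) (by omega)
      refine mul_ne_zero hκ (b.is_basis_iff_det.1 ⟨hw, hw.span_eq_top_of_card_eq_finrank' (by
        simp [h3])⟩).ne_zero (nd_trace (F := F) _ fun l => ?_)
      have e1 := h ![g (l • w), k • g y, g y]
      rw [om_apply, om_apply, show b.det ![g (l • w), k • g y, g y] = 0 from
        b.det.map_linearDependent _ fun e => (linearIndependent_fin2.1 (e.comp Fin.succ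
          (Fin.succ_injective _))).2 k rfl, show (fun i => g⁻¹ (![g (l • w), k • g y, g y] i)) =
        Function.update (Fin.cons w ![φ y, y] : Fin 3 → V) 0 (l • w) by
          ext1 i; fin_cases i <;> simp [φ, -LinearEquiv.coe_inv, le_inv_apply_apply],
        AlternatingMap.map_update_smul, Fin.update_cons_zero] at e1
      simpa [mul_comm, mul_left_comm] using e1
  exact ⟨k', fun x => by simpa [φ, le_apply_inv] using hk' (g⁻¹ x)⟩

variable (H : OO (Algebra.trace F K) M Q Qk)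
include H

theorem OO.B_gal {g : V ≃ₗ[F] V} (hg : g ∈ M) {θ : K ≃ₐ[F] K} (h : ∀ k x, g (k • x) = θ k • g x)
    (x y : V) : (𝑃k).B (g x) (g y) = θ ((𝑃k).B x y) := sub_eq_zero.1 (H.E.nd _ fun k => by
  obtain ⟨k, rfl⟩ := θ.surjective k
  have := (H.hM hg).1 x (k • y)
  rw [H.E.B, H.E.B, h, ((𝑃k).B _).map_smul, ((𝑃k).B _).map_smul, smul_eq_mul, smul_eq_mul] at this
  rw [sub_mul, map_sub, mul_comm, this, ← map_mul, Algebra.trace_eq_of_algEquiv, mul_comm, sub_self])

theorem OO.exists_om (hr : finrank F K = 3) (hM : M ≤ SLV F V) (b : Basis (Fin 3) K V) :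
    ∃ κ : K, κ ≠ 0 ∧ ∀ g ∈ M, g ∈ NK F K V → ∀ x, om F b κ (fun i => g (x i)) = om F b κ x := by
  set G := (Matrix.of fun i j => (𝑃k).B (b i) (b j)).det with hG
  have G0 : G ≠ 0 := by
    convert (LinearMap.separatingLeft_iff_det_ne_zero b).1 H.E.sepK using 2
    ext; simp
  obtain ⟨c, κ, e⟩ := exists_eq_smul_sq H.hr hr.ge H.two G
  have h0 : c ≠ 0 ∧ κ ≠ 0 := by constructor <;> rintro rfl <;> simp [G0] at e
  refine ⟨κ, h0.2, fun g hg hg' x => ?_⟩
  obtain ⟨θ, hθ⟩ := exists_gal (b.ne_zero 0) hg'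
  have e1 := det_gram b (𝑃k).B fun i => g (b i)
  rw [← hG, show (Matrix.of fun i j => (𝑃k).B (g (b i)) (g (b j))) = θ.toRingHom.mapMatrix
    (Matrix.of fun i j => (𝑃k).B (b i) (b j)) by ext; simp [H.B_gal hg hθ], ← RingHom.map_det, ← hG,
    e] at e1
  have e2 : ∀ ε : K, κ * b.det (fun i => g (b i)) = ε * θ κ → ∀ x,
      κ * b.det (fun i => g (x i)) = ε * θ (κ * b.det x) := fun ε e x => by
    rw [det_semi b hθ, map_mul]; linear_combination θ (b.det x) * e
  rcases sq_eq_sq_iff_eq_or_eq_neg.1 (show (κ * b.det fun i => g (b i)) ^ 2 = θ κ ^ 2 from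
    smul_right_injective _ h0.1 (by simpa [sq, mul_comm, mul_left_comm, mul_assoc] using e1.symm)) with e3 | e3
  · rw [om_apply, e2 1 (by simpa using e3), one_mul, Algebra.trace_eq_of_algEquiv, om_apply]
  have e4 := e2 (-1) (by simpa using e3)
  let f : V →ₗ[K] V :=
    { toFun := (g ^ 3 : V ≃ₗ[F] V)
      map_add' := map_add _
      map_smul' := fun k x => by simp [gal_pow hθ, gal_cube hr] }
  have e5 : κ * b.det (f ∘ b) = -(θ ^ 3) (κ * b.det b) := by
    have := e4 fun i => g (g (b i))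
    simp only [e4 fun i => g (b i), e4 b] at this
    exact this.trans (by simp [pow_succ])
  rw [Basis.det_comp, gal_cube hr, Basis.det_self] at e5
  have e6 := LinearMap.det_restrictScalars (R := F) (f := f)
  rw [show LinearMap.det f = algebraMap F K (-1) from mul_left_cancel₀ h0.2 (by simpa using e5),
    Algebra.norm_algebraMap, hr, show f.restrictScalars F = (g ^ 3 : V ≃ₗ[F] V) from rfl,
    mem_SLV.1 (hM (M.pow_mem hg 3))] at e6
  exact (H.two (by rw [← map_ofNat (algebraMap F K), show (OfNat.ofNat 2 : F) = 0 by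
    linear_combination e6, map_zero])).elim

section Free

variable {u z v : V} (h : Fr Qk u z v) {τ : K → V ≃ₗ[F] V} (hτ : ∀ k, τ k ∈ M)
  (eτ : ∀ k y, τ k y = y + Nq F Qk u (k • z) y)
include h eτ

theorem OO.tau_add (k l : K) : τ (k + l) = τ k * τ l := by
  ext w
  have h2 : ∀ k w, τ k w = eu 𝑃k u (k • z) (Qk (k • z)) w := fun x w => by simp [eτ, Nq]
  rw [le_mul_apply, h2, h2, h2, eu_comp ((𝑃k).self_eq_zero h.hu) (by simp [h.huz]) (by simp [h.huz]),
    add_smul, quad_add]

theorem OO.tau_fix {k : K} (hk : k ≠ 0) (y : V) : τ k y = y ↔ y ∈ pt F K u :=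
  ⟨fun e => h.ker H.two hk (by simpa [eτ] using e), fun e => by
    rw [eτ, (H.inQ h.hu (by simp [h.huz])).ker y e, add_zero]⟩

theorem OO.tau_conj {s : V ≃ₗ[F] V} (hs : s ∈ M) (hU : ∀ w ∈ pt F K u, s w ∈ pt F K u)
    {θ : K ≃ₐ[F] K} (hθ : ∀ k x, s (k • x) = θ k • s x) : ∃ ν : K, ∀ k, s * τ k * s⁻¹ = τ (ν * θ k) := by
  have hB := H.B_gal hs hθ
  obtain ⟨α, hα⟩ := mem_pt.1 (hU u (self_mem_pt u))
  have α0 : α ≠ 0 := by
    rintro rfl
    simpa [← hα, h.huv] using hB u v
  have e1 : ∀ y, (𝑃k).B u (s y) = α⁻¹ * θ ((𝑃k).B u y) := fun y => by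
    rw [← hB, ← hα, B_smul_left]; simp [α0]
  obtain ⟨γ, ν, e2⟩ := h.span (s z)
  rw [e1, h.huz, map_zero, mul_zero, zero_smul, add_zero] at e2
  have huu : (𝑃k).B u u = 0 := (𝑃k).self_eq_zero h.hu
  have e3 : θ (Qk z) = ν * ν * Qk z := mul_left_cancel₀ H.two (by
    have := hB z z
    rw [e2, quad_B_self z, map_mul, map_ofNat] at this
    simp [huu, h.huz, (𝑃k).eq_zero_symm h.huz, quad_B_self z] at this
    linear_combination -this)
  refine ⟨α * ν, fun k => LinearEquiv.ext fun y => ?_⟩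
  obtain ⟨y, rfl⟩ := s.surjective y
  have e4 := hB z y
  rw [e2, map_add, LinearMap.add_apply, B_smul_left, B_smul_left, e1] at e4
  rw [le_mul_apply, le_mul_apply, le_inv_apply_apply, eτ, eτ, Nq_apply, Nq_apply, map_add, map_sub,
    hθ, hθ, hθ, e2, ← hα, e1]
  simp only [B_smul_left, quad_smul, map_sub, map_mul, ← e4, e3, RingHom.id_apply]
  match_scalars <;> field_simp <;> ring

theorem OO.step {s : V ≃ₗ[F] V} (hs : s ∈ M) (hU : ∀ w ∈ pt F K u, s w ∈ pt F K u)
    {θ : K ≃ₐ[F] K} (hθ : ∀ k x, s (k • x) = θ k • s x) (hp : s ^ ringChar F = 1) :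
    (∀ w ∈ pt F K u, s w = w) ∨ (θ ≠ 1 ∧ (∃ k, k ≠ 0 ∧ s * τ k = τ k * s) ∧
      ∀ k, s * τ k = τ k * s → ∃ l, s * τ l * s⁻¹ = τ l * τ k) := by
  have : Finite F := Finite.of_injective _ (algebraMap F K).injective
  have : Fact (ringChar F).Prime := ⟨CharP.char_is_prime F _⟩
  have : CharP K (ringChar F) := charP_of_injective_algebraMap (algebraMap F K).injective _
  have hu0 : u ≠ 0 := by rintro rfl; simpa using h.huv
  by_cases h1 : θ = 1
  · obtain ⟨α, hα⟩ := mem_pt.1 (hU u (self_mem_pt u))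
    have e1 : ∀ n, (s ^ n) u = α ^ n • u := fun n => by
      induction n with
      | zero => simp
      | succ n ih => rw [pow_succ', le_mul_apply, ih, hθ, h1, ← hα, smul_smul, pow_succ]; rfl
    have e2 : (α - 1) ^ ringChar F = 0 := by
      rw [sub_pow_char, one_pow, sub_eq_zero]
      exact smul_left_injective K hu0 (by simp [← e1, hp])
    refine Or.inl fun w hw => ?_
    obtain ⟨k, rfl⟩ := mem_pt.1 hw
    rw [hθ, h1, ← hα, sub_eq_zero.1 (pow_eq_zero_iff (Fact.out : (ringChar F).Prime).ne_zero |>.1 e2), one_smul]; rfl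
  obtain ⟨ν, hν⟩ := H.tau_conj h eτ hs hU hθ
  have inj : Function.Injective τ := fun k l e => by_contra fun e' => by
    have := (H.tau_fix h eτ (sub_ne_zero.2 e') v).1 ((τ l).injective (by
      rw [← le_mul_apply, ← H.tau_add h eτ, add_sub_cancel, e]))
    obtain ⟨a, ha⟩ := mem_pt.1 this
    simpa [← ha, (𝑃k).self_eq_zero h.hu] using h.huv
  let σ : Module.End F K := LinearMap.mulLeft F ν ∘ₗ θ.toLinearMap
  have e1 : ∀ n k, s ^ n * τ k * (s ^ n)⁻¹ = τ ((σ ^ n) k) := fun n k => by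
    induction n with
    | zero => simp
    | succ n ih => rw [pow_succ' σ, Module.End.mul_apply, show τ (σ _) = _ from (hν _).symm, ← ih]; group
  have e2 : ∀ k, s * τ k = τ k * s ↔ (σ - 1) k = 0 := fun k => by
    rw [← mul_inv_eq_iff_eq_mul, hν, inj.eq_iff, ← sub_eq_zero]; rfl
  have : Nontrivial K := inferInstance
  have : CharP (Module.End F K) (ringChar F) :=
    charP_of_injective_algebraMap (algebraMap F _).injective _
  obtain ⟨l, a1, a2⟩ := TO.exists_ker_range (b := σ - 1) ⟨ringChar F, by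
    rw [sub_pow_char_of_commute _ (Commute.one_right _), one_pow, sub_eq_zero]
    exact LinearMap.ext fun k => inj (by rw [← e1, hp]; simp)⟩ fun e => h1 (by
      have e3 : ∀ k, ν * θ k = k := fun k => sub_eq_zero.1 (LinearMap.congr_fun e k)
      ext k
      simpa [show ν = 1 by simpa using e3 1] using e3 k)
  refine Or.inr ⟨h1, ⟨_, a1, (e2 _).2 a2⟩, fun k hk => ?_⟩
  set k₀ := (σ - 1) l
  have e3 : ν * θ k₀ = k₀ := sub_eq_zero.1 a2
  have e4 : ν * θ k = k := sub_eq_zero.1 ((e2 k).1 hk)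
  obtain ⟨c, hc⟩ : ∃ c, algebraMap F K c = k / k₀ := by_contra fun hc => h1 (by
    have e5 : θ (k / k₀) = k / k₀ := by
      rw [map_div₀, div_eq_div_iff (by simpa using a1) a1]
      linear_combination θ k₀ * e4 - θ k * e3
    rcases eq_bot_or_top_of_mul H.hr (Δ := LinearMap.ker (θ.toLinearMap - LinearMap.id))
      (not_exists.1 hc) (fun x hx => by simpa [e5, ← mul_sub] using Or.inr hx) with e | e
    · exact absurd (e.le (by simp : (1 : K) ∈ _)) (by simp)
    · ext x; exact sub_eq_zero.1 (e.ge (Submodule.mem_top (x := x))))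
  refine ⟨c • l, ?_⟩
  rw [hν, ← H.tau_add h eτ, ← div_mul_cancel₀ k a1, ← hc, ← Algebra.smul_def]
  simp [k₀, σ, smul_sub]

include hτ in
theorem OO.free (hr : finrank F K = 3) (hS : ∀ s ∈ M, (∀ w ∈ pt F K u, s w ∈ pt F K u) → s ∈ NK F K V)
    {g : V ≃ₗ[F] V} (hg : g ∈ M) {a : K} (ha : a ≠ 0)
    (hU : ∀ w ∈ pt F K u, (g⁻¹ * τ a * g) w ∈ pt F K u) : g ∈ stab (pt F K u) := by
  have : CharP K (ringChar F) := charP_of_injective_algebraMap (algebraMap F K).injective _
  have hu0 : u ≠ 0 := by rintro rfl; simpa using h.huv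
  have add := H.tau_add h eτ
  have comm : ∀ k l, τ k * τ l = τ l * τ k := fun k l => by rw [← add, ← add, add_comm]
  have hp : ∀ (g : V ≃ₗ[F] V) k, (g * τ k * g⁻¹) ^ ringChar F = 1 := fun g k => by
    have : ∀ n : ℕ, τ (n * k) = τ k ^ n := fun n => by
      induction n with
      | zero => simpa using add 0 0
      | succ n ih => rw [Nat.cast_succ, add_mul, add, ih, one_mul, pow_succ]
    rw [conj_pow, ← this, CharP.cast_eq_zero, ← Nat.cast_zero, this]; simp
  have hs := M.mul_mem (M.mul_mem (M.inv_mem hg) (hτ a)) hg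
  obtain ⟨θ, hθ⟩ := exists_gal hu0 (hS _ hs hU)
  rcases H.step h eτ hs hU hθ (by simpa using hp g⁻¹ a) with e | ⟨a1, ⟨k, k0, a2⟩, a3⟩
  · exact mem_stab_of_maps fun w hw => (H.tau_fix h eτ ha _).1 (by
      simpa [le_apply_inv, -LinearEquiv.coe_inv] using congrArg g (e w hw))
  have b1 : g * τ k * g⁻¹ * τ a = τ a * (g * τ k * g⁻¹) := by
    rw [show τ a = g * (g⁻¹ * τ a * g) * g⁻¹ by group]
    generalize g⁻¹ * τ a * g = s at a2
    rw [show g * s * g⁻¹ * (g * τ k * g⁻¹) = g * (s * τ k) * g⁻¹ by group, a2]; group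
  have hs' := M.mul_mem (M.mul_mem hg (hτ k)) (M.inv_mem hg)
  have hU' : ∀ w ∈ pt F K u, (g * τ k * g⁻¹) w ∈ pt F K u := fun w hw => (H.tau_fix h eτ ha _).1 (by
    rw [← le_mul_apply, ← b1, le_mul_apply, (H.tau_fix h eτ ha _).2 hw])
  obtain ⟨θ', hθ'⟩ := exists_gal hu0 (hS _ hs' hU')
  rcases H.step h eτ hs' hU' hθ' (hp g k) with e | ⟨-, -, b3⟩
  · exact inv_mem_iff.1 (mem_stab_of_maps fun w hw => (H.tau_fix h eτ k0 _).1 (by
      simpa [le_inv_apply_apply, -LinearEquiv.coe_inv] using congrArg (g⁻¹ : V ≃ₗ[F] V) (e w hw)))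
  obtain ⟨l, c1⟩ := a3 k a2
  obtain ⟨l', c2⟩ := b3 a b1
  obtain ⟨c3, c4⟩ := exists_inverting (x' := g⁻¹ * τ l' * g) a2 (comm l k) (by
    rw [show g⁻¹ * τ l' * g * (g⁻¹ * τ a * g) = g⁻¹ * (τ l' * τ a) * g by group, comm]; group) c1 (by
    rw [show g⁻¹ * τ l' * g * (g⁻¹ * τ a * g) = g⁻¹ * (τ l' * τ a) * g by group, ← c2]; group)
  have hy := M.mul_mem (M.mul_mem (hτ l) (M.inv_mem (M.mul_mem (M.mul_mem (M.inv_mem hg) (hτ l')) hg)))
    (hτ l)
  replace hy := M.mul_mem hy hy
  generalize τ l * (g⁻¹ * τ l' * g)⁻¹ * τ l * (τ l * (g⁻¹ * τ l' * g)⁻¹ * τ l) = j at c3 c4 hy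
  obtain ⟨η, hη⟩ := exists_gal hu0 (hS j hy fun w hw => (H.tau_fix h eτ k0 _).1 (by
    conv_rhs => rw [← c4, le_mul_apply, le_mul_apply, (H.tau_fix h eτ k0 _).2 hw]))
  generalize g⁻¹ * τ a * g = s at c3 hθ
  have c5 : θ * η * θ = η := AlgEquiv.ext fun x => smul_left_injective K
    (show j u ≠ 0 by simpa using hu0) (by
      have := hη x u
      rw [← c3] at this ⊢
      simpa [hθ, hη] using this)
  have c6 : θ * θ = 1 := by
    rwa [IsCyclic.isMulCommutative.is_comm.comm θ η, mul_assoc, mul_eq_left] at c5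
  exact (a1 (by simpa [pow_succ, c6] using gal_cube hr θ)).elim

end Free

theorem OO.le_NK_cubic (h3 : finrank K V = 3) (hr : finrank F K = 3) (hM : M ≤ SLV F V) {u : V}
    (hu : Qk u = 0) (hu0 : u ≠ 0) (hA : ∀ a, InT M (pt F K u) a → ∀ y, a y = 0) :
    M ≤ NK F K V := by
  classical
  have : Finite F := Finite.of_injective _ (algebraMap F K).injective
  have := Fintype.ofFinite F
  have : FiniteDimensional F K := .of_finrank_pos H.hr.pos
  have : Finite V := Module.finite_of_finite F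
  have : Finite (V ≃ₗ[F] V) := Finite.of_injective _ DFunLike.coe_injective
  obtain ⟨z, v, h⟩ := H.exists_fr h3 hu hu0
  have huu : (𝑃k).B u u = 0 := (𝑃k).self_eq_zero hu
  choose τ hτ eτ using fun k : K => (H.inQ hu (d := k • z) (by simp [h.huz])).has
  simp only at eτ
  have hS : ∀ s ∈ M, (∀ w ∈ pt F K u, s w ∈ pt F K u) → s ∈ NK F K V := fun s hs =>
    H.mem_NK_of_stab hr.ge h hA hs
  let b := finBasisOfFinrankEq F K hr
  let κ : (Fin 3 → F) → K := fun x => ∑ i, x i • b i
  let bV := finBasisOfFinrankEq K V h3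
  obtain ⟨c, c0, hc⟩ := H.exists_om hr hM bV
  let ρ : M →* AddMonoid.End (MultilinearMap F (fun _ : Fin 3 => V) F) :=
    { toFun := fun g => AddMonoidHom.mk' (fun ψ => ψ.compLinearMap fun _ =>
        ((g⁻¹ : M) : V ≃ₗ[F] V).toLinearMap) fun _ _ => rfl
      map_one' := rfl
      map_mul' := fun g k => rfl }
  have hρ : ∀ g ψ x, ρ g ψ x = ψ fun i => (g : V ≃ₗ[F] V)⁻¹ (x i) := fun _ _ _ => rfl
  have h1 : ∀ g : M, g.1 ∈ NK F K V → ρ g (om F bV c) = om F bV c := fun g hg =>
    MultilinearMap.ext (hc _ (M.inv_mem g.2) (inv_mem hg))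
  obtain ⟨ψ, h2, h4⟩ := fixed_of_free' ((stab (pt F K u)).subgroupOf M) ρ
    (fun s hs => h1 s (hS s s.2 fun w => (hs w).1)) (fun x => ⟨τ (κ x), hτ _⟩)
    (fun x y => Subtype.ext (by
      simp only [κ, Pi.add_apply, add_smul, sum_add_distrib]; exact H.tau_add h eτ _ _))
    (fun g hg x e => by_contra fun x0 => hg (H.free h hτ eτ hr hS g.2 (fun e => x0 (funext
      (Fintype.linearIndependent_iff.1 b.linearIndependent x e))) fun w => (e w).1))
    (fun x => mem_stab_of_fix fun w hw => (eτ _ w).trans (by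
      rw [(H.inQ hu (by simp [h.huz])).ker w hw, add_zero]))
    { carrier := {ψ | ∀ x : Fin 3 → V, (𝑃k).B u (x 0) = 0 → ψ x = 0}
      add_mem' := fun ha hb x hx => by simp [ha x hx, hb x hx]
      zero_mem' := fun _ _ => rfl
      neg_mem' := fun ha x hx => by simp [ha x hx] } fun ψ x hx => by
      have e1 : κ ∈ PD (fun _ => 1) K 1 := PD.basis id (fun _ => le_rfl) b
      have e2 : ∀ y, (fun a => τ (κ a) y) ∈ PD (fun _ => 1) V 2 := fun y =>
        PD.congr (PD.add (PD.const y) (PD.map (LinearMap.applyₗ y) (PD.nq (Qk := Qk) e1 u z)))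
          fun a => eτ _ y
      have e3 := PD.comp_neg (PD.ml 3 (PD.const (d := 0) ψ) (d := ![1, 2, 2])
        (x := fun i a => τ (κ a) (x i)) fun i => by
          fin_cases i
          · exact PD.congr (PD.add (PD.const (x 0)) (PD.smulK e1 ((𝑃k).B z (x 0) • u))) fun a => by
              simp [eτ, Nq_apply, hx, κ, smul_smul]
          all_goals exact e2 _)
      have h1 : Odd (Fintype.card F) := by
        by_contra hc
        exact H.two (by rw [← map_ofNat (algebraMap F K), two_eq_zero_of_not_odd hc, map_zero])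
      have h2 := Fintype.one_lt_card (α := F)
      obtain ⟨j, hj⟩ := h1
      rw [MultilinearMap.sum_apply]
      refine (sum_congr rfl fun a _ => ?_).trans (PD.sum_eq_zero (by
        simp [Fin.sum_univ_three]; omega) e3)
      rw [hρ, show τ (κ (-a)) = (τ (κ a))⁻¹ from eq_inv_of_mul_eq_one_left (by
        rw [← H.tau_add h eτ, show κ (-a) + κ a = 0 by simp [κ]]
        simpa using H.tau_add h eτ 0 0)]
  obtain ⟨t, ht, et⟩ := H.xle v h.hv z _ h.hvz (sub_self _)
  have h5 : (𝑃k).B u (t u) ≠ 0 := by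
    rw [et, quad_eu]
    simpa [huu, h.huv, h.huz, quad_B_comm v u, quad_B_comm z u, show (𝑃k).q z = Qk z from rfl]
      using h.hz
  have h6 : ψ = 0 := MultilinearMap.ext fun x => by
    have e1 := h4 ⟨res t, ht⟩
    rw [map_add, h1 _ (res_mem_NK t), add_right_inj] at e1
    set k := (𝑃k).B u (x 0) / (𝑃k).B u (t u)
    rw [← Function.update_eq_self 0 x, ← sub_add_cancel (x 0) (t (k • u)), ψ.map_update_add,
      h2 _ (by simp [k, h5]), ← e1, hρ, h2 _ (by
        simp [← map_inv, res_apply, le_inv_apply_apply, huu, -LinearEquiv.coe_inv]), add_zero]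
    rfl
  rw [h6, add_zero] at h4
  exact fun g hg => mem_NK_of_om bV c0 fun x => by rw [← hρ ⟨g, hg⟩, h4]

omit H [FiniteDimensional K V] in
theorem isMaximalIn_O3_cubic (hr : finrank F K = 3) (h2 : (2 : F) ≠ 0)
    (hQ : (QuadraticMap.polarBilin Q).SeparatingLeft) (h3 : finrank K V = 3)
    (h1 : ∀ (k : K) x y, QuadraticMap.polar Q (k • x) y = QuadraticMap.polar Q x (k • y)) :
    Geo.IsMaximalIn (EG (𝑃)) (NK F K V ⊓ EG (𝑃)) := by
  have : Finite F := Finite.of_injective _ (algebraMap F K).injective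
  have : FiniteDimensional K V := Module.Finite.of_restrictScalars_finite F K V
  have : FiniteDimensional F K := Module.Finite.of_finite
  have hn : 5 ≤ finrank F V := by rw [← Module.finrank_mul_finrank F K V, h3]; omega
  have hp : (finrank F K).Prime := hr ▸ Nat.prime_three
  have h2' : (2 : K) ≠ 0 := by rw [← map_ofNat (algebraMap F K)]; exact (map_ne_zero _).2 h2
  obtain ⟨b, hb⟩ := exists_form (τ := RingHom.id K) (Algebra.trace F K) nd_trace (𝑃).B h1
  have hS : ∀ x y, b y x = b x y := fun x y => by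
    simpa [PQ.ofQuad] using form_symm (τ := RingHom.id K) nd_trace (fun _ => rfl) (fun _ => rfl)
      hb x y
  let Qk : QuadraticForm K V := (2⁻¹ : K) • LinearMap.BilinMap.toQuadraticMap b
  have hQk : ∀ v, Qk v = 2⁻¹ * b v v := fun _ => rfl
  have hB : ∀ x y, (PQ.ofQuad Qk).B x y = b x y := fun x y => by
    rw [ofQuad_B, QuadraticMap.polar, hQk, hQk, hQk]
    simp only [map_add, LinearMap.add_apply, hS x y]
    field_simp; ring
  have hQQ : ∀ v, Q v = Algebra.trace F K (Qk v) := fun v => mul_left_cancel₀ h2 (by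
    rw [← quad_B_self, hb, ← hB, quad_B_self, two_mul, two_mul, map_add])
  have hI : ∀ a ∈ (PQ.ofQuad Qk).Isom, res a ∈ (𝑃).Isom := fun a ha =>
    PQ.mem_isom_ofQuad.2 fun x => by rw [hQQ, hQQ, res_apply, PQ.mem_isom_ofQuad.1 ha]
  obtain ⟨x, -, hx0, hx⟩ := isoK_quad Q ⊤ (by rw [finrank_top]; omega)
  obtain ⟨g, hg, hg'⟩ := exists_EG_not_NK (K := K) (P := 𝑃) hp.one_lt hQ hn hx0 hx
  refine isMaximalIn_of inf_le_right (fun h => hg' (h hg).1) fun M h4 h6 ⟨g, h7, h8⟩ => ?_
  have H : OO (Algebra.trace F K) M Q Qk := ⟨⟨nd_trace, fun x y => by rw [hB, hb], hQ⟩, hQQ, h2', hp,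
    h6.trans EG_le_isom, fun a ha b hb => h4 ⟨res_mem_NK _, by
      simp only [map_mul, map_inv]
      exact (isoK_quad Q).commutator_mem_EG hQ hn (hI a ha) (hI b hb)⟩⟩
  obtain ⟨u, -, hu0, hu⟩ := isoK_quad Qk ⊤ (by rw [finrank_top]; omega)
  obtain ⟨a, ha, h0⟩ : ∃ a, InT M (pt F K u) a ∧ ∃ y, a y ≠ 0 := by
    by_contra hc
    push Not at hc
    exact h8 ⟨H.le_NK_cubic h3 hr (h6.trans EG_le_SLV) hu hu0 hc h7, h6 h7⟩
  exact H.EG_le_of_three hr.ge h3.ge hu hu0 (H.le_Wd_cubic hr hu hu0 ha h0)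

omit H in
open Matrix in
theorem fieldSub_O3_cubic {ι : Type} [Fintype ι] [DecidableEq ι] {F : Type*} [Field F] [Fintype F]
    (hodd : Odd (Fintype.card F)) {Q : QuadraticForm F (ι → F)}
    (hQ : (QuadraticMap.polarBilin Q).SeparatingLeft) (h4 : Fintype.card ι = 9)
    {K : Subalgebra F (Matrix ι ι F)} (hK : Geo.IsFieldSubalgebra 3 K)
    (hsa : Geo.IsSelfAdjointFor (QuadraticMap.polar Q) K) :
    Geo.IsMaximalIn (Geo.omegaGL Q) (Geo.subalgebraNormalizer K ⊓ Geo.omegaGL Q) := by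
  have : Nonempty ι := Fintype.card_pos_iff.1 (by omega)
  refine fieldSub_elim hK fun E _ _ _ _ _ hE h1 h2 e => ?_
  rw [e, omegaGL_eq hQ (by omega), ← pull_inf]
  have hm := Module.finrank_mul_finrank F E (ι → F)
  rw [hE, finrank_fintype_fun_eq_card, h4] at hm
  refine isMaximalIn_pull (isMaximalIn_O3_cubic hE (two_ne_zero_of_odd hodd) hQ (by omega)
    fun k x y => ?_)
  obtain ⟨a, ha, h3⟩ := h2 k
  rw [← h3, ← h3, hsa a ha]

end H21
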