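import Mathlib
import Cfsg.Agent.Base
import Cfsg.Agent.Lib.ExtFld.OO2
import Cfsg.Agent.Lib.OrthLow.C1

/-!
Maximality of `O₄⁻(q²)` in the eight-dimensional orthogonal group of minus type, `q` odd.
-/

set_option autoImplicit false
set_option linter.unusedSectionVars false

namespace H21

open Module Cfsg H97 H28

section

variable {K V : Type*} [Field K] [AddCommGroup V] [Module K V] [FiniteDimensional K V]
  {Q : QuadraticForm K V}

local notation "𝑃" => PQ.ofQuad Q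

theorem exists_EG_of_ne [Finite K] (hQ : (𝑃).B.SeparatingLeft) (h4 : 4 ≤ finrank K V) {x y : V}
    (hx : Q x = 0) (hy : Q y = 0) (h : (𝑃).B x y ≠ 0) : ∃ g ∈ EG (𝑃), g x = y := by
  have hxx : (𝑃).B x x = 0 := by rw [quad_B_self, hx, mul_zero]
  have hyy : (𝑃).B y y = 0 := by rw [quad_B_self, hy, mul_zero]
  have h1 := finrank_perp hQ (Submodule.span K {x, y})
  have h2 := H12G.finrank_span_pair_le (F := K) x y
  obtain ⟨w, hw, hq⟩ := H12G.universal_in (perp_nondeg hQ (nondeg_span_pair hxx h)) (by omega)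
    (-((𝑃).B x y)⁻¹)
  have hxw : (𝑃).B x w = 0 := mem_perp_span.1 hw x (by simp)
  have hyw : (𝑃).B y w = 0 := mem_perp_span.1 hw y (by simp)
  obtain ⟨s, hs, es⟩ := xle_EG (P := 𝑃) hy w (Q w) hyw (sub_self _)
  obtain ⟨t, ht, et⟩ := xle_EG (P := 𝑃) hx (-w) (Q w) (by rw [map_neg, hxw, neg_zero])
    (show Q w - Q (-w) = 0 by rw [QuadraticMap.map_neg, sub_self])
  refine ⟨t * s, Subgroup.mul_mem _ ht hs, ?_⟩
  have hww := quad_B_self (Q := Q) w
  rw [le_mul_apply, es, et, quad_eu, quad_eu]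
  simp only [map_add, map_sub, map_smul, map_neg, LinearMap.neg_apply, smul_eq_mul, hxx, hxw, hww,
    quad_B_comm w x, quad_B_comm w y, quad_B_comm y x, hyw, hq]
  match_scalars <;> field_simp <;> ring

theorem refl_inv {y : V} (hy : Q y ≠ 0) {s : V ≃ₗ[K] V}
    (hs : ∀ x, s x = (𝑃).qrefl (-(Q y)⁻¹) y x) (x : V) : s⁻¹ x = s x := by
  have : s (s x) = x := by
    simp only [refl_apply hs, map_sub, map_smul, quad_B_self, smul_eq_mul]
    match_scalars <;> field_simp <;> ring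
  conv_lhs => rw [← this, le_inv_apply_apply]

theorem eq_zero_of_perp_four (hn : finrank K V = 4) {x f y z w : V} (hx : (𝑃).B x x = 0)
    (hf : (𝑃).B f f = 0) (hxf : (𝑃).B x f ≠ 0) (hy : y ∈ perp (𝑃) (Submodule.span K {x, f}))
    (hy0 : (𝑃).B y y ≠ 0) (hz : z ∈ perp (𝑃) (Submodule.span K {x, f} ⊔ K ∙ y))
    (hz0 : (𝑃).B z z ≠ 0) (hw : w ∈ perp (𝑃) (Submodule.span K {x, f} ⊔ (K ∙ y) ⊔ K ∙ z)) :
    w = 0 := by
  have key : ∀ {Y : Submodule K V} {a : V}, a ∈ perp (𝑃) Y → (𝑃).B a a ≠ 0 →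
      finrank K ↥(Y ⊔ K ∙ a) = finrank K Y + 1 := fun ha h =>
    Submodule.finrank_sup_span_singleton fun h' => h (ha _ h')
  have h1 : finrank K (Submodule.span K ({x, f} : Set V)) = 2 := by
    rw [Submodule.span_insert, Submodule.finrank_sup_span_singleton, finrank_span_singleton]
    · rintro rfl; simp at hxf
    · intro h
      obtain ⟨c, rfl⟩ := Submodule.mem_span_singleton.1 h
      simp [hx] at hxf
  have h2 := nondeg_sup_span (nondeg_sup_span (nondeg_span_pair hx hxf) hy hy0) hz hz0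
  have h3 : Submodule.span K {x, f} ⊔ (K ∙ y) ⊔ K ∙ z = ⊤ :=
    Submodule.eq_top_of_finrank_eq (by rw [key hz hz0, key hy hy0, h1, hn])
  exact show w ∈ (⊥ : Submodule K V) from h2 ▸ ⟨h3 ▸ Submodule.mem_top, hw⟩

end

variable {F K V : Type*} [Field F] [Field K] [Algebra F K] [AddCommGroup V] [Module F V]
  [Module K V] [IsScalarTower F K V] {T : K →ₗ[F] F} {M : Subgroup (V ≃ₗ[F] V)}
  [FiniteDimensional F V] {Q : QuadraticForm F V} {Qk : QuadraticForm K V}

local notation "𝑃" => PQ.ofQuad Q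
local notation "𝑃k" => PQ.ofQuad Qk

theorem exists_add_mul_of_two (hr : finrank F K = 2) {l : K} (hl : ∀ a, algebraMap F K a ≠ l)
    (k : K) : ∃ a b : F, k = algebraMap F K a + algebraMap F K b * l := by
  have : FiniteDimensional F K := .of_finrank_pos (by omega)
  have h1 : (F ∙ (1 : K)) ⊔ (F ∙ l) = ⊤ := Submodule.eq_top_of_finrank_eq (by
    rw [Submodule.finrank_sup_span_singleton, finrank_span_singleton one_ne_zero, hr]
    intro h
    obtain ⟨c, hc⟩ := Submodule.mem_span_singleton.1 h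
    exact hl c (by rw [← hc, Algebra.algebraMap_eq_smul_one]))
  obtain ⟨_, hu, _, hv, rfl⟩ := Submodule.mem_sup.1 (h1 ▸ Submodule.mem_top : k ∈ _)
  obtain ⟨a, rfl⟩ := Submodule.mem_span_singleton.1 hu
  obtain ⟨b, rfl⟩ := Submodule.mem_span_singleton.1 hv
  exact ⟨a, b, by simp [Algebra.smul_def]⟩

theorem isSquare_of_two [Finite K] (hr : finrank F K = 2) (h2 : (2 : K) ≠ 0) (a : F) :
    IsSquare (algebraMap F K a) := by
  have : Finite F := Finite.of_injective _ (algebraMap F K).injective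
  have := Fintype.ofFinite F
  have := Fintype.ofFinite K
  by_cases ha : a = 0
  · simp [ha]
  have h1 : Odd (Fintype.card K) := by
    by_contra h
    exact h2 (two_eq_zero_of_not_odd h)
  have h3 : Fintype.card K = Fintype.card F ^ 2 := by rw [← hr, Module.card_eq_pow_finrank (K := F) (V := K)]
  rw [FiniteField.isSquare_iff (fun h => h2 (by
    have := ringChar.Nat.cast_ringChar (R := K)
    rwa [h] at this)) (by simpa using ha), ← map_pow]
  obtain ⟨m, hm⟩ := (Nat.odd_pow_iff two_ne_zero).1 (h3 ▸ h1)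
  have h4 := FiniteField.pow_card_sub_one_eq_one a ha
  rw [h3, hm, show (2 * m + 1) ^ 2 / 2 = 2 * m * (m + 1) by
    rw [show (2 * m + 1) ^ 2 = 2 * (2 * m * (m + 1)) + 1 by ring]; omega, pow_mul]
  rw [hm, Nat.add_sub_cancel] at h4
  rw [h4, one_pow, map_one]

theorem OO.irr_four [Finite K] (H : OO T M Q Qk) (hr : finrank F K = 2) (hn : finrank K V = 4)
    (hmin : ∀ x y, x ≠ 0 → Qk x = 0 → Qk y = 0 → (𝑃k).B x y = 0 → y ∈ K ∙ x)
    {x : V} (hx0 : x ≠ 0) (hx : Qk x = 0) {N : Submodule F V} (hN : pt F K x ≤ N)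
    (hinv : ∀ g ∈ M, g x = x → ∀ z ∈ N, g z ∈ N) {y₀ : V} (hy₀ : y₀ ∈ N) (h1 : y₀ ∉ pt F K x)
    (h2 : (𝑃k).B x y₀ = 0) {w : V} (hw : (𝑃k).B x w = 0) : w ∈ N := by
  have : FiniteDimensional K V := Module.Finite.of_restrictScalars_finite F K V
  obtain ⟨f, hf, hfx, -⟩ := (𝑃k).exists_partner H.E.sepK ⊥ hx0 hx (by simp)
  have hxf : (𝑃k).B x f = 1 := (quad_B_comm x f).trans hfx
  have hxx : (𝑃k).B x x = 0 := (𝑃k).self_eq_zero hx
  have hff : (𝑃k).B f f = 0 := (𝑃k).self_eq_zero hf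
  have hY := nondeg_span_pair hxx (hxf ▸ one_ne_zero)
  have han : ∀ a, (𝑃k).B x a = 0 → (𝑃k).B f a = 0 → Qk a = 0 → a = 0 := fun a h3 h4 h5 => by
    obtain ⟨c, rfl⟩ := Submodule.mem_span_singleton.1 (hmin x a hx0 hx h5 h3)
    simp_all
  set y := y₀ - (𝑃k).B f y₀ • x with hy
  have hyN : y ∈ N := N.sub_mem hy₀ (hN (smul_mem_pt _ _))
  have hxy : (𝑃k).B x y = 0 := by simp [hy, h2, hxx]
  have hfy : (𝑃k).B f y = 0 := by simp [hy, hfx]
  have hu : Qk y ≠ 0 := fun h => h1 (by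
    rw [show y₀ = _ from sub_eq_zero.1 (hy.symm.trans (han y hxy hfy h))]; exact smul_mem_pt _ _)
  clear_value y
  have hyY : y ∈ perp (𝑃k) (Submodule.span K {x, f}) := mem_perp_span.2 (by simp [hxy, hfy])
  have hyy : (𝑃k).B y y ≠ 0 := by rw [quad_B_self]; exact mul_ne_zero H.two hu
  obtain ⟨z, hz, hv⟩ := exists_nonsing_perp H.E.sepK (nondeg_sup_span hY hyY hyy) (by
    have h1 := finrank_sup_le' (Submodule.span K {x, f}) (K ∙ y)
    have h3 := finrank_span_singleton_le (F := K) y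
    have h2 := H12G.finrank_span_pair_le (F := K) x f
    omega)
  have hzz : (𝑃k).B z z ≠ 0 := by rw [quad_B_self]; exact mul_ne_zero H.two hv
  have hz' := hz
  rw [perp_sup] at hz'
  have hyz : (𝑃k).B y z = 0 := mem_perp_singleton.1 hz'.2
  have hxz : (𝑃k).B x z = 0 := mem_perp_span.1 hz'.1 x (by simp)
  have hfz : (𝑃k).B f z = 0 := mem_perp_span.1 hz'.1 f (by simp)
  have hzy := (𝑃k).eq_zero_symm hyz
  have hq : ∀ l m : K, Qk (l • y + m • z) = l * l * Qk y + m * m * Qk z := fun l m => by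
    simp [quad_add, quad_smul, hyz]
  have han' : ∀ l m : K, l * l * Qk y + m * m * Qk z = 0 → l = 0 ∧ m = 0 := fun l m h => by
    have h3 := han (l • y + m • z) (by simp [hxy, hxz]) (by simp [hfy, hfz]) ((hq l m).trans h)
    have h4 := congrArg ((𝑃k).B y) h3
    have h5 := congrArg ((𝑃k).B z) h3
    simp only [map_add, map_smul, hyz, hzy, smul_eq_mul, map_zero, mul_zero, add_zero, zero_add,
      mul_eq_zero, hyy, hzz, or_false] at h4 h5
    exact ⟨h4, h5⟩
  obtain ⟨k, hk, hk'⟩ : ∃ k : K, k ≠ 0 ∧ Qk y - k * k * Qk z ≠ 0 := by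
    obtain ⟨l, hl⟩ := exists_sq_notMem H.hr.one_lt H.two
    by_contra hc
    push Not at hc
    refine hl 1 (mul_right_cancel₀ hv ?_)
    rw [map_one]
    linear_combination hc l (fun h => hl 0 (by simp [h])) - hc 1 one_ne_zero
  have hn0 : Qk y + k * k * Qk z ≠ 0 := fun h => one_ne_zero (han' 1 k (by simpa using h)).1
  have ha : Qk (y + k • z) = Qk y + k * k * Qk z := by simpa using hq 1 k
  obtain ⟨s, hs, es⟩ := has_refl_isom H.E.sepK hu
  obtain ⟨t, ht, et⟩ := has_refl_isom H.E.sepK (ha ▸ hn0)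
  have sx : s x = x := by simp [refl_apply es, (𝑃k).eq_zero_symm hxy]
  have tx : t x = x := by
    simp [refl_apply et, (𝑃k).eq_zero_symm hxy, (𝑃k).eq_zero_symm hxz]
  have sy : s y = -y := by
    rw [refl_apply es, quad_B_self]
    match_scalars; field_simp; ring
  have sz : s z = z := by simp [refl_apply es, hyz]
  obtain ⟨l, m, hm, e⟩ : ∃ l m : K, m ≠ 0 ∧ t (s (t y)) = l • y + m • z := by
    set n := Qk y + k * k * Qk z with hn
    refine ⟨2 * Qk y / n - 1 - 2 * (Qk y * (2 * Qk y / n - 1) - k * k * Qk z * (2 * Qk y / n)) / n,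
      -(4 * k * Qk y * (Qk y - k * k * Qk z) / (n * n)), ?_, ?_⟩
    · have : (4 : K) ≠ 0 := by rw [show (4 : K) = 2 * 2 by norm_num]; exact mul_ne_zero H.two H.two
      simp [this, hk, hu, hk', hn0]
    · simp only [refl_apply et, ha, map_sub, map_add, map_smul, sy, sz, map_neg, LinearMap.add_apply,
        LinearMap.smul_apply, B_smul_left, quad_B_self, hyz, hzy, smul_eq_mul, RingHom.id_apply]
      match_scalars <;> field_simp <;> simp only [hn] <;> ring
  have hl : ∀ a, algebraMap F K a ≠ l := by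
    rintro a rfl
    obtain ⟨d, hd⟩ := isSquare_of_two hr H.two (a * a - 1)
    have h3 := hq (algebraMap F K a) m
    rw [← e, PQ.mem_isom_ofQuad.1 ht, PQ.mem_isom_ofQuad.1 hs, PQ.mem_isom_ofQuad.1 ht] at h3
    rw [map_sub, map_mul, map_one] at hd
    exact hm (han' d m (by linear_combination -h3 - Qk y * hd)).2
  have g1 : ∀ c : K, c • y ∈ N → c • (-l • y + m • z) ∈ N := fun c hc => by
    have := hinv _ (H.hC s hs t ht) (by
      simp only [res_apply, le_mul_apply, refl_inv hu es, refl_inv (ha ▸ hn0) et, sx, tx]) _ hc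
    simp only [res_apply, le_mul_apply, refl_inv hu es, refl_inv (ha ▸ hn0) et, map_smul, e,
      map_add, sy, sz] at this
    simpa using this
  have g2 : ∀ c : K, c • y ∈ N → c • (-l • y - m • z) ∈ N := fun c hc => by
    have := hinv _ (H.hC t ht s hs) (by
      simp only [res_apply, le_mul_apply, refl_inv hu es, refl_inv (ha ▸ hn0) et, sx, tx]) _ hc
    simp only [res_apply, le_mul_apply, refl_inv hu es, refl_inv (ha ▸ hn0) et, map_smul, sy,
      map_neg, e] at this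
    convert this using 1
    module
  have h2F : (2 : F) ≠ 0 := fun h => H.two (by rw [← map_ofNat (algebraMap F K), h, map_zero])
  have half : ∀ v : V, v + v ∈ N → v ∈ N := fun v hv => by
    have := N.smul_mem (2 : F)⁻¹ hv
    rwa [← two_smul F v, smul_smul, inv_mul_cancel₀ h2F, one_smul] at this
  have g3 : l • y ∈ N := half _ (by
    convert N.neg_mem (N.add_mem (g1 1 (by simpa using hyN)) (g2 1 (by simpa using hyN))) using 1
    module)
  have g4 : ∀ c : K, c • y ∈ N := fun c => by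
    obtain ⟨a, b, rfl⟩ := exists_add_mul_of_two hr hl c
    rw [add_smul, mul_smul, algebraMap_smul, algebraMap_smul]
    exact N.add_mem (N.smul_mem _ hyN) (N.smul_mem _ g3)
  have g5 : ∀ c : K, c • z ∈ N := fun c => half _ (by
    convert N.sub_mem (g1 (c / m) (g4 _)) (g2 (c / m) (g4 _)) using 1
    match_scalars <;> field_simp <;> ring)
  have g6 := eq_zero_of_perp_four hn hxx hff (hxf ▸ one_ne_zero) hyY hyy hz hzz
    (w := w - (𝑃k).B f w • x - ((𝑃k).B y w / (𝑃k).B y y) • y - ((𝑃k).B z w / (𝑃k).B z z) • z) (by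
      rw [perp_sup, perp_sup]
      refine ⟨⟨mem_perp_span.2 ?_, mem_perp_singleton.2 ?_⟩, mem_perp_singleton.2 ?_⟩
      · simp [hw, hxx, hxy, hxz, hfx, hfy, hfz]
      · simp [(𝑃k).eq_zero_symm hxy, hyz, hyy]
      · simp [(𝑃k).eq_zero_symm hxz, hzy, hzz])
  rw [sub_eq_zero, sub_eq_iff_eq_add, sub_eq_iff_eq_add] at g6
  rw [g6]
  exact N.add_mem (N.add_mem (g5 _) (g4 _)) (hN (smul_mem_pt _ _))

theorem OO.EG_le_four [Finite K] (H : OO T M Q Qk) (hr : finrank F K = 2) (hn : finrank K V = 4)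
    (hmin : ∀ x y, x ≠ 0 → Qk x = 0 → Qk y = 0 → (𝑃k).B x y = 0 → y ∈ K ∙ x)
    {g : V ≃ₗ[F] V} (hg : g ∈ M) (hg' : g ∉ NK F K V) : EG (𝑃) ≤ M := by
  have : FiniteDimensional K V := Module.Finite.of_restrictScalars_finite F K V
  obtain ⟨u, W, hu0, hu, hP⟩ := H.exists_maxPair hn.ge hg hg'
  obtain ⟨u, W, hu0, hu, hP, h⟩ := H.exists_perp_pair hn.ge hu hu0 hP
  refine H.EG_le_of_two hr (by omega) (fun x y hx hy h1 h2 => ?_)
    (fun x hx0 hx N hN h1 y hy h2 h3 z hz => H.irr_four hr hn hmin hx0 hx hN h1 hy h2 h3 hz)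
    hu hu0 hP h
  by_cases h3 : (𝑃k).B x y = 0
  · obtain ⟨c, rfl⟩ := Submodule.mem_span_singleton.1 (hmin x y hx h1 h2 h3)
    obtain ⟨f, hf, hfx, -⟩ := (𝑃k).exists_partner H.E.sepK ⊥ hx h1 (by simp)
    obtain ⟨a, ha, ea⟩ := exists_EG_of_ne H.E.sepK hn.ge h1 hf
      (by rw [quad_B_comm, hfx]; exact one_ne_zero)
    obtain ⟨b, hb, eb⟩ := exists_EG_of_ne H.E.sepK hn.ge hf h2
      (by simpa [hfx] using left_ne_zero_of_smul hy)
    exact ⟨b * a, Subgroup.mul_mem _ hb ha, by rw [le_mul_apply, ea, eb]⟩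
  · exact exists_EG_of_ne H.E.sepK hn.ge h1 h2 h3

theorem isMaximalIn_O8 [Finite K] (hr : finrank F K = 2) (h2 : (2 : F) ≠ 0)
    (hQ : (QuadraticMap.polarBilin Q).SeparatingLeft) (h4 : finrank K V = 4)
    (hm : ∀ U : Submodule F V, (∀ x ∈ U, Q x = 0) → finrank F U ≠ 4)
    (h1 : ∀ (k : K) x y, QuadraticMap.polar Q (k • x) y = QuadraticMap.polar Q x (k • y)) :
    Geo.IsMaximalIn (EG (𝑃)) (NK F K V ⊓ EG (𝑃)) := by
  have : Finite F := Finite.of_injective _ (algebraMap F K).injective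
  have : FiniteDimensional K V := Module.Finite.of_restrictScalars_finite F K V
  have hn : 5 ≤ finrank F V := by rw [← Module.finrank_mul_finrank F K V, hr, h4]; omega
  have hp : (finrank F K).Prime := hr ▸ Nat.prime_two
  obtain ⟨T, Qk, hT, H⟩ := exists_OO hp h2 hQ hn h1
  obtain ⟨x, -, hx0, hx⟩ := isoK_quad Q ⊤ (by rw [finrank_top]; omega)
  obtain ⟨g, hg, hg'⟩ := exists_EG_not_NK (K := K) (P := 𝑃) hp.one_lt hQ hn hx0 hx
  refine isMaximalIn_of inf_le_right (fun h => hg' (h hg).1) fun M h3 h6 ⟨g, h7, h8⟩ =>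
    (H M h3 h6).EG_le_four hr h4 (fun x y h9 hx hy hxy => ?_) h7 fun h => h8 ⟨h, h6 h7⟩
  by_contra hc
  refine hm (((K ∙ x) ⊔ K ∙ y).restrictScalars F) (fun v hv => ?_) ?_
  · obtain ⟨_, ha, _, hb, rfl⟩ := Submodule.mem_sup.1 hv
    obtain ⟨a, rfl⟩ := Submodule.mem_span_singleton.1 ha
    obtain ⟨b, rfl⟩ := Submodule.mem_span_singleton.1 hb
    simp [hT, quad_add, quad_smul, hx, hy, hxy]
  · have := Module.finrank_mul_finrank F K ↥((K ∙ x) ⊔ K ∙ y)
    rw [hr, Submodule.finrank_sup_span_singleton hc, finrank_span_singleton h9] at this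
    exact this.symm

open Matrix in
theorem fieldSub_O8 {ι : Type} [Fintype ι] [DecidableEq ι] {F : Type*} [Field F] [Fintype F]
    (hodd : Odd (Fintype.card F)) {Q : QuadraticForm F (ι → F)}
    (hQ : (QuadraticMap.polarBilin Q).SeparatingLeft) (h8 : Fintype.card ι = 8)
    (hmin : ¬ Geo.IsPlusTypeOn Q ⊤)
    {K : Subalgebra F (Matrix ι ι F)} (hK : Geo.IsFieldSubalgebra 2 K)
    (hsa : Geo.IsSelfAdjointFor (QuadraticMap.polar Q) K) :
    Geo.IsMaximalIn (Geo.omegaGL Q) (Geo.subalgebraNormalizer K ⊓ Geo.omegaGL Q) := by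
  have : Nonempty ι := Fintype.card_pos_iff.1 (by omega)
  refine fieldSub_elim hK fun E _ _ _ _ _ hE h1 h2 e => ?_
  rw [e, omegaGL_eq hQ (by omega), ← pull_inf]
  have hm := Module.finrank_mul_finrank F E (ι → F)
  rw [hE, finrank_fintype_fun_eq_card] at hm
  refine isMaximalIn_pull (isMaximalIn_O8 hE (two_ne_zero_of_odd hodd) hQ (by omega)
    (fun U hU h => hmin ⟨U, le_top, hU, by rw [h, finrank_top, finrank_fintype_fun_eq_card, h8]⟩)
    fun k x y => ?_)
  obtain ⟨a, ha, h3⟩ := h2 k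
  rw [← h3, ← h3, hsa a ha]

end H21
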