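import Mathlib
import Cfsg.Agent.Base
import Cfsg.Agent.Lib.OrthLow.C1
import Cfsg.Agent.Lib.ClassMax.OFrameMax
import Cfsg.Agent.Lib.ClassMax.OPlaneMax
import Cfsg.Agent.Lib.ClassMax.OPair
import Cfsg.Agent.Lib.Subfld.Main
import Cfsg.Agent.Lib.Orth12.Asch2

/-!
Wrappers for assembling the lists of geometric maximal subgroups of low-dimensional orthogonal
groups.
-/

set_option autoImplicit false

namespace H21.Row

open Module Cfsg

variable {F : Type*} [Field F] [Fintype F] {ι : Type} [Fintype ι] [DecidableEq ι]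
  {Q : QuadraticForm F (ι → F)}

theorem frame (hQ : (QuadraticMap.polarBilin Q).SeparatingLeft) (hodd : Odd (Fintype.card F))
    (hp : (Fintype.card F).Prime) (h7 : 7 ≤ Fintype.card ι)
    (hn : Odd (Fintype.card ι) ∨ 10 ≤ Fintype.card ι) {t : ℕ} {D : Fin t → Submodule F (ι → F)}
    (hD : Geo.IsOrthogonalMDecomposition Q 1 D) :
    Geo.IsMaximalIn (Geo.omegaGL Q) (Geo.decompositionStabilizer D ⊓ Geo.omegaGL Q) := by
  rw [H97.decompositionStabilizer_eq]
  have hN := H97o.nondeg_of_sep hQ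
  have h2 := H97.two_ne_zero_of_odd hodd
  obtain ⟨π, hπ⟩ := H97o.exists_blk hN (H12.good_of_two_ne_zero hN h2) hD
  have h1 := H97o.card_mul_eq hD.decomp.decomp
  rw [mul_one] at h1
  exact H97o.isMaximalIn_omega (H97o.isMaximalIn_frame hπ h2 hp (by simp; omega)
    (by rwa [Fintype.card_fin, h1]))

theorem decomp (hQ : (QuadraticMap.polarBilin Q).SeparatingLeft) (hn : Fintype.card ι ≠ 4)
    {t k : ℕ} {D : Fin t → Submodule F (ι → F)} (hD : Geo.IsOrthogonalMDecomposition Q k D)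
    (hk : 2 ≤ k)
    (h2 : k = 2 → 5 ≤ t ∧ Fintype.card F ≠ 3 ∧
      ((∀ i, Geo.IsPlusTypeOn Q (D i)) → 7 ≤ Fintype.card F))
    (h3 : k = 3 → Odd (Fintype.card F) ∧ Fintype.card F ≠ 3)
    (h4 : k = 4 → Fintype.card F = 2 → ¬ ∀ i, Geo.IsPlusTypeOn Q (D i)) :
    Geo.IsMaximalIn (Geo.omegaGL Q) (Geo.decompositionStabilizer D ⊓ Geo.omegaGL Q) :=
  have hN := H97o.nondeg_of_sep hQ
  H97o.isMaximalIn_decomp hN (H12.good_of_finrank_ne hN (by simpa using hn)) hD hk h2 h3 h4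

theorem pair (hQ : (QuadraticMap.polarBilin Q).SeparatingLeft) (hn : Fintype.card ι ≠ 4)
    {k : ℕ} (h5 : 5 ≤ k) (hk : Even k) {D : Fin 2 → Submodule F (ι → F)}
    (hD : Geo.IsMDecomposition k D) (hts : ∀ i, Geo.IsTotallySingularQuad Q (D i)) :
    Geo.IsMaximalIn (Geo.omegaGL Q) (Geo.decompositionStabilizer D ⊓ Geo.omegaGL Q) := by
  rw [H97.decompositionStabilizer_eq]
  exact H97o.isMaximalIn_omega (H97o.isMaximalIn_pair (H97o.pair_of_geo (H97o.nondeg_of_sep hQ)
    hn hD hts) hD.finrank_eq h5 hk)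

/-- odd-dimensional non-degenerate subspace in even dimension -/
theorem nd_odd (hQ : (QuadraticMap.polarBilin Q).SeparatingLeft) (hn : 8 ≤ Fintype.card ι)
    (he : Even (Fintype.card ι)) {W : Submodule F (ι → F)} (hW : Odd (finrank F W))
    (hne : 2 * finrank F W ≠ Fintype.card ι)
    (hnd : Geo.IsNondegenerateOn (QuadraticMap.polar Q) W) :
    Geo.IsMaximalIn (Geo.omegaGL Q) (Geo.subspaceStabilizer W ⊓ Geo.omegaGL Q) := by
  rw [Nat.odd_iff] at hW
  rw [Nat.even_iff] at he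
  exact H12G.omega_nd hQ (by omega) (by omega) hnd (by omega) (by omega) hne (by omega) (by omega)

/-- even-dimensional non-degenerate subspace in odd dimension -/
theorem nd_even (hQ : (QuadraticMap.polarBilin Q).SeparatingLeft) (hn : 7 ≤ Fintype.card ι)
    (he : Odd (Fintype.card ι)) (hodd : Odd (Fintype.card F)) {W : Submodule F (ι → F)}
    (h0 : W ≠ ⊥) (hW : Even (finrank F W)) (hnd : Geo.IsNondegenerateOn (QuadraticMap.polar Q) W)
    (hex : ¬ (Fintype.card F = 3 ∧ finrank F W = 2 ∧ Geo.IsPlusTypeOn Q W)) :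
    Geo.IsMaximalIn (Geo.omegaGL Q) (Geo.subspaceStabilizer W ⊓ Geo.omegaGL Q) := by
  have h1 := Fintype.one_lt_card (α := F)
  refine H12G.omega_nd hQ hn (fun _ => hodd) hnd (fun h => h0 (Submodule.finrank_eq_zero.1 h))
    ?_ ?_ ?_ fun h2 h3 => ?_
  all_goals rw [Nat.odd_iff] at he hodd; rw [Nat.even_iff] at hW
  · omega
  · omega
  · omega
  · by_contra h4
    exact hex ⟨by omega, h2, h3⟩

theorem nd_two (hQ : (QuadraticMap.polarBilin Q).SeparatingLeft) (hn : 8 ≤ Fintype.card ι)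
    {W : Submodule F (ι → F)} (hW : finrank F W = 2)
    (hnd : Geo.IsNondegenerateOn (QuadraticMap.polar Q) W)
    (hex : Geo.IsPlusTypeOn Q W → 4 ≤ Fintype.card F) :
    Geo.IsMaximalIn (Geo.omegaGL Q) (Geo.subspaceStabilizer W ⊓ Geo.omegaGL Q) :=
  H12G.omega_nd hQ (by omega) (by omega) hnd (by omega) (by omega) (by omega) (by omega)
    fun _ => hex

theorem nd_four (hQ : (QuadraticMap.polarBilin Q).SeparatingLeft) (hn : 9 ≤ Fintype.card ι)
    {W : Submodule F (ι → F)} (hW : finrank F W = 4)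
    (hnd : Geo.IsNondegenerateOn (QuadraticMap.polar Q) W) :
    Geo.IsMaximalIn (Geo.omegaGL Q) (Geo.subspaceStabilizer W ⊓ Geo.omegaGL Q) :=
  H12G.omega_nd hQ (by omega) (by omega) hnd (by omega) (by omega) (by omega) (by omega)
    (by omega)

theorem odd_of_mod {q : ℕ} (h : q % 4 = 1 ∨ q % 4 = 3) : Odd q := by
  rw [Nat.odd_iff]; omega

end H21.Row
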