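import Mathlib
import Cfsg.Agent.Base
import Cfsg.Agent.Lib.ExtFld.O3b

/-!
Overgroups of the unitary group over an extension field of odd prime degree in the unitary group:
the basic lemmas and the perpendicular case.
-/

set_option autoImplicit false
set_option linter.unusedSectionVars false

namespace H21

open Module Cfsg H97 H28

theorem PD.exists_zero' {F ι E : Type*} [Field F] [Fintype F] [Fintype ι] {w : ι → ℕ}
    [AddCommGroup E] [Module F E] {d : ℕ} {Y : Submodule F E} [FiniteDimensional F Y]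
    (h : finrank F Y * d < ∑ i, w i) {g : (ι → F) → E} (hg : g ∈ PD w E d) (hY : ∀ x, g x ∈ Y)
    (h0 : g 0 = 0) : ∃ x, x ≠ 0 ∧ g x = 0 := by
  classical
  by_contra hc
  push Not at hc
  obtain ⟨C, hC⟩ := Y.exists_isCompl
  let b := finBasis F Y
  let ξ : Fin (finrank F Y) → E →ₗ[F] F := fun j => b.coord j ∘ₗ Y.projectionOnto C hC
  have hq : 0 < Fintype.card F - 1 := by have := Fintype.one_lt_card (α := F); omega
  have h1 := PD.sum_eq_zero (by
      rw [Finset.card_univ, Fintype.card_fin, mul_comm _ d, ← mul_assoc]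
      exact Nat.mul_lt_mul_of_pos_right h hq)
    (PD.prod Finset.univ fun j => PD.sub (PD.const (1 : F))
      (PD.pow (PD.map (ξ j) hg) (Fintype.card F - 1)))
  rw [Finset.sum_eq_single 0 (fun x _ hx => by
    obtain ⟨j, hj⟩ : ∃ j, ξ j (g x) ≠ 0 := by
      by_contra h2
      push Not at h2
      refine hc x hx (congrArg Subtype.val (b.forall_coord_eq_zero_iff.1 fun j => ?_ :
        (⟨g x, hY x⟩ : Y) = 0))
      rw [← Submodule.projectionOnto_apply_left hC ⟨g x, hY x⟩]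
      exact h2 j
    exact Finset.prod_eq_zero (Finset.mem_univ j)
      (by rw [FiniteField.pow_card_sub_one_eq_one _ hj, sub_self])) (by simp)] at h1
  simp [h0, hq.ne'] at h1

section General

variable {F V : Type*} [Field F] [AddCommGroup V] [Module F V] [FiniteDimensional F V]
  {σ : F →+* F} {P : PQ F V σ} {M : Subgroup (V ≃ₗ[F] V)}

variable (P) in
/-- Hermitian data. -/
structure Hm : Prop where
  ε : P.ε = 1
  Λ : ∀ l, l ∈ P.Λ ↔ l + σ l = 0
  ne : σ ≠ RingHom.id F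

theorem Hm.eu (h : Hm P) (d w : V) (c : F) (x : V) :
    eu P d w c x = x + (P.B w x - c * P.B d x) • d - P.B d x • w := by
  rw [eu_apply, h.ε, one_mul, one_mul]

theorem Hm.symm (h : Hm P) (x y : V) : σ (P.B x y) = P.B y x := by rw [P.symm x y, h.ε, one_mul]

theorem Hm.valid (h : Hm P) {c : F} {w : V} : c - P.q w ∈ P.Λ ↔ c + σ c = P.B w w := by
  rw [h.Λ, P.self, h.ε, map_sub, one_mul]
  constructor <;> intro h <;> linear_combination h

theorem Hm.sing (h : Hm P) {d : V} : P.q d ∈ P.Λ ↔ P.B d d = 0 := by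
  rw [h.Λ, P.self, h.ε, one_mul]

theorem Hm.exists_ne (h : Hm P) : ∃ ω : F, σ ω ≠ ω ∧ ω + σ ω ≠ 0 := by
  obtain ⟨ω, hω⟩ : ∃ ω, σ ω ≠ ω := by
    by_contra hc
    push Not at hc
    exact h.ne (RingHom.ext hc)
  by_cases h1 : ω + σ ω = 0
  · exact ⟨ω + 1, by simpa using hω, fun h2 => hω (by
      rw [map_add, map_one] at h2
      linear_combination h1 - ω * (h2 - h1))⟩
  · exact ⟨ω, hω, h1⟩

theorem Hm.xle_of_Wd (h : Hm P) (hP : P.B.SeparatingLeft) (h3 : 3 ≤ finrank F V) {x : V}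
    {hx : P.q x ∈ P.Λ} (hW : ∀ w, P.B x w = 0 → w ∈ Wd P M x hx) : XLe P M x := by
  refine H21.xle_of_Wd hW fun l hl => ?_
  obtain ⟨w, w', h1, h2, h4⟩ : ∃ w w', P.B x w = 0 ∧ P.B x w' = 0 ∧ P.B w w' ≠ 0 := by
    by_contra hc
    push Not at hc
    have h1 : perp P (F ∙ x) ≤ F ∙ x := fun w hw => perp_perp hP (F ∙ x) ▸ fun w' hw' =>
      hc _ _ (mem_perp_singleton.1 hw') (mem_perp_singleton.1 hw)
    have h2 := Submodule.finrank_mono h1
    have h4 := finrank_le_perp (P := P) (F ∙ x)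
    have h5 := finrank_span_singleton_le (F := F) x
    omega
  obtain ⟨c₀, hc₀⟩ := exists_trace_one h.ne P.σσ
  obtain ⟨c, -, h5⟩ := (hW w h1).2 1
  obtain ⟨c', -, h6⟩ := (hW w' h2).2 (c₀ * l / P.B w w')
  rw [one_smul] at h5
  set w'' := (c₀ * l / P.B w w') • w' with hw''
  have h7 : P.B x w'' = 0 := by simp [hw'', h2]
  have hxx := P.self_eq_zero hx
  have := has_eu_sub hxx (w := w + w'') (w' := w'' + w) (by simp [h1, h7]) (by simp [h1, h7])
    ((h5.comp h6).congr fun y => eu_comp hxx h1 h7 _ _ _)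
    ((h6.comp h5).congr fun y => eu_comp hxx h7 h1 _ _ _)
  refine this.congr fun y => ?_
  have h8 : P.B w w'' = c₀ * l := by simp [hw'', h4]
  rw [add_comm w'' w, sub_self, ← h.symm w w'', h8, map_mul,
    eq_neg_of_add_eq_zero_right ((h.Λ l).1 hl)]
  congr 2
  linear_combination l * hc₀

end General

variable {F K V : Type*} [Field F] [Field K] [Algebra F K] [AddCommGroup V] [Module F V]
  [Module K V] [IsScalarTower F K V] {T : K →ₗ[F] F} {M : Subgroup (V ≃ₗ[F] V)}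
  [FiniteDimensional F V] [FiniteDimensional K V] {σ : F →+* F} {τ : K →+* K} {P : PQ F V σ}
  {Pk : PQ K V τ}

theorem tau_smul (hτ : ∀ a, τ (algebraMap F K a) = algebraMap F K (σ a)) (a : F) (k : K) :
    τ (a • k) = σ a • τ k := by rw [Algebra.smul_def, Algebra.smul_def, map_mul, hτ]

theorem exists_decomp (hτ : ∀ a, τ (algebraMap F K a) = algebraMap F K (σ a))
    (hττ : ∀ k, τ (τ k) = k) (hσσ : ∀ a, σ (σ a) = a) {ω : F} (hω : σ ω ≠ ω) {Y : Submodule F K} {x : K} (hx : x ∈ Y)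
    (hx' : τ x ∈ Y) : ∃ c₁ ∈ Y, ∃ c₂ ∈ Y, c₁ + τ c₁ = 0 ∧ c₂ + τ c₂ = 0 ∧ x = c₁ + ω • c₂ := by
  have h0 : ω - σ ω ≠ 0 := sub_ne_zero.2 hω.symm
  have h1 : σ ω - ω ≠ 0 := sub_ne_zero.2 hω
  have h2 := Y.smul_mem (ω - σ ω)⁻¹ (Y.add_mem hx hx')
  refine ⟨_, Y.sub_mem hx (Y.smul_mem ω h2), _, h2, ?_, ?_, by abel⟩ <;>
    simp only [map_sub, map_add, tau_smul hτ, hττ, map_inv₀, hσσ] <;>
    match_scalars <;> field_simp <;> ring

theorem finrank_le_of_fixed {F₀ : Type*} [Field F₀] [Algebra F₀ F] [Module F₀ K]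
    [IsScalarTower F₀ F K] [FiniteDimensional F K]
    (h₀ : ∀ a, σ a = a → ∃ a₀, algebraMap F₀ F a₀ = a)
    (hτ : ∀ a, τ (algebraMap F K a) = algebraMap F K (σ a)) (hσσ : ∀ a, σ (σ a) = a) {ω : F}
    (hω : σ ω ≠ ω) {Y : Submodule F₀ K} [FiniteDimensional F₀ Y] (hY : ∀ y ∈ Y, τ y = y) {Y' : Submodule F K}
    (h : ∀ y ∈ Y, y ∈ Y') : finrank F₀ Y ≤ finrank F Y' := by
  let b := finBasis F₀ Y
  have key : ∀ a : Fin (finrank F₀ Y) → F, ∑ i, a i • (b i : K) = 0 → ∀ i, a i + σ (a i) = 0 := by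
    intro a ha i
    have h1 := congrArg τ ha
    simp only [map_sum, tau_smul hτ, hY _ (b _).2, map_zero] at h1
    choose a₀ ha₀ using fun i => h₀ (a i + σ (a i)) (by rw [map_add, hσσ, add_comm])
    have := Fintype.linearIndependent_iff.1 b.linearIndependent a₀ (Subtype.ext (by
      simp only [Submodule.coe_sum, Submodule.coe_smul, ← algebraMap_smul F (a₀ _), ha₀, add_smul,
        Finset.sum_add_distrib, ha, h1, add_zero, Submodule.coe_zero])) i
    rw [← ha₀, this, map_zero]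
  have h1 : LinearIndependent F fun i => (⟨b i, h _ (b i).2⟩ : Y') :=
    Fintype.linearIndependent_iff.2 fun a ha i => by
      have h1 : ∑ i, a i • (b i : K) = 0 := by simpa using congrArg Subtype.val ha
      have h2 := key (fun i => ω * a i) (by simp only [mul_smul, ← Finset.smul_sum, h1, smul_zero]) i
      have h3 := key a h1 i
      rw [map_mul] at h2
      exact mul_left_cancel₀ (sub_ne_zero.2 hω) (by linear_combination σ ω * h3 - h2)
  simpa using h1.fintype_card_le_finrank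

variable (T M P Pk) in
/-- The standing hypotheses for a unitary group over an extension field. -/
structure UU : Prop where
  E : Ext P Pk T
  h : Hm P
  hk : Hm Pk
  hT : ∀ k, T (τ k) = σ (T k)
  hτ : ∀ a, τ (algebraMap F K a) = algebraMap F K (σ a)
  hr : (finrank F K).Prime
  h3 : 3 ≤ finrank F K
  hM : M ≤ P.Isom
  xle : ∀ d, Pk.q d ∈ Pk.Λ → XLe Pk (M.comap res) d
  iso : IsoK Pk 2

theorem UU.fd (H : UU T M P Pk) : FiniteDimensional F K := .of_finrank_pos H.hr.pos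

theorem UU.decomp (H : UU T M P Pk) {ω : F} (hω : σ ω ≠ ω) (x : K) :
    ∃ c₁ c₂, c₁ + τ c₁ = 0 ∧ c₂ + τ c₂ = 0 ∧ x = c₁ + ω • c₂ := by
  obtain ⟨c₁, -, c₂, -, h⟩ := exists_decomp H.hτ Pk.σσ P.σσ hω (Y := ⊤) (x := x) trivial trivial
  exact ⟨c₁, c₂, h⟩

theorem UU.eq_top (H : UU T M P Pk) {Y : Submodule F K} (h : ∀ c, c + τ c = 0 → c ∈ Y) (x : K) :
    x ∈ Y := by
  obtain ⟨ω, hω, -⟩ := H.h.exists_ne
  obtain ⟨c₁, c₂, h1, h2, rfl⟩ := H.decomp hω x
  exact Y.add_mem (h _ h1) (Y.smul_mem _ (h _ h2))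

theorem UU.exists_fixed (H : UU T M P Pk) {Y : Submodule F K} (h : ∀ y ∈ Y, τ y ∈ Y)
    (h0 : 1 ≤ finrank F Y) : ∃ ν ∈ Y, ν ≠ 0 ∧ τ ν = ν := by
  obtain ⟨ω, hω, -⟩ := H.h.exists_ne
  obtain ⟨x, hx, hx0⟩ := exists_ne_zero_mem h0
  obtain ⟨c, hc, hc0, hc'⟩ : ∃ c ∈ Y, c ≠ 0 ∧ c + τ c = 0 := by
    obtain ⟨c₁, h1, c₂, h2, h3, h4, rfl⟩ := exists_decomp H.hτ Pk.σσ P.σσ hω hx (h x hx)
    by_cases h5 : c₁ = 0
    · exact ⟨c₂, h2, by rintro rfl; simp [h5] at hx0, h4⟩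
    · exact ⟨c₁, h1, h5, h3⟩
  refine ⟨(ω - σ ω) • c, Y.smul_mem _ hc, smul_ne_zero (sub_ne_zero.2 hω.symm) hc0, ?_⟩
  rw [tau_smul H.hτ, map_sub, P.σσ, eq_neg_of_add_eq_zero_right hc']; module

theorem UU.exists_fixed_notMem (H : UU T M P Pk) : ∃ μ, τ μ = μ ∧ ∀ a, algebraMap F K a ≠ μ := by
  by_contra hc
  push Not at hc
  obtain ⟨ω, hω, -⟩ := H.h.exists_ne
  obtain ⟨l, hl⟩ := exists_notMem_range H.hr.one_lt
  obtain ⟨a, ha⟩ := Submodule.mem_span_singleton.1 (H.eq_top (Y := F ∙ 1) (fun c h => by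
    obtain ⟨a, ha⟩ := hc ((ω - σ ω) • c) (by
      rw [tau_smul H.hτ, map_sub, P.σσ, eq_neg_of_add_eq_zero_right h]; module)
    rw [← Submodule.smul_mem_iff _ (sub_ne_zero.2 hω.symm), ← ha, Algebra.algebraMap_eq_smul_one]
    exact Submodule.smul_mem _ _ (Submodule.mem_span_singleton_self _)) l)
  exact hl a (by rw [← ha, Algebra.algebraMap_eq_smul_one])

theorem UU.sing_pt (H : UU T M P Pk) {d : V} (hd : Pk.q d ∈ Pk.Λ) :
    ∀ y ∈ pt F K d, P.q y ∈ P.Λ := fun y hy => by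
  obtain ⟨k, rfl⟩ := mem_pt.1 hy
  exact H.h.sing.2 (H.E.B_zero (by simp [Pk.self_eq_zero hd]))

theorem UU.good_iso (H : UU T M P Pk) {W : Submodule F V} (h : Good K M (fun d => Pk.q d ∈ Pk.Λ) W) :
    ∀ u ∈ W, ∀ w ∈ W, P.B u w = 0 := Good.iso H.E H.hM (fun _ hd => Pk.self_eq_zero hd) h

variable (F Pk) in
/-- The nilpotent part of a transvection over `K`. -/
noncomputable def tvK (u : V) (c : K) : V →ₗ[F] V := ((Pk.B u).smulRight (c • u)).restrictScalars F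

omit [FiniteDimensional F V] [FiniteDimensional K V] in
theorem tvK_apply (u : V) (c : K) (y : V) : tvK F Pk u c y = (c * Pk.B u y) • u := by
  simp [tvK, smul_smul, mul_comm]

theorem UU.has_tv (H : UU T M P Pk) {u : V} (hu : Pk.q u ∈ Pk.Λ) {c : K} (hc : c + τ c = 0) :
    ∃ t : V ≃ₗ[K] V, res t ∈ M ∧ t ∈ Pk.Isom ∧ ∀ y, t y = y + (c * Pk.B u y) • u := by
  have h1 : -c - Pk.q 0 ∈ Pk.Λ := H.hk.valid.2 (by simp; linear_combination -hc)
  obtain ⟨t, ht, e⟩ := H.xle u hu 0 (-c) (by simp) h1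
  obtain ⟨t', ht', e'⟩ := has_eu_isom hu (w := 0) (by simp) h1
  refine ⟨t, ht, ?_, fun y => by simp [e, H.hk.eu]⟩
  rwa [show t = t' from LinearEquiv.ext fun y => by rw [e, e']]

theorem UU.inT (H : UU T M P Pk) {u : V} (hu : Pk.q u ∈ Pk.Λ) {c : K} (hc : c + τ c = 0) :
    InT M (pt F K u) (tvK F Pk u c) := by
  obtain ⟨t, ht, -, e⟩ := H.has_tv hu hc
  refine ⟨⟨res t, ht, fun y => by simp only [res_apply, e, tvK_apply]⟩,
    fun y => by rw [tvK_apply]; exact smul_mem_pt _ _, fun y hy => ?_⟩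
  obtain ⟨k, rfl⟩ := mem_pt.1 hy
  simp [tvK_apply, Pk.self_eq_zero hu]

theorem UU.exists_dil (H : UU T M P Pk) {u : V} (hu : Pk.q u ∈ Pk.Λ) (hu0 : u ≠ 0) {μ : K}
    (hμ : τ μ = μ) (hμ0 : μ ≠ 0) : ∃ g ∈ Pk.Isom, res g ∈ M ∧ g u = μ • u := by
  obtain ⟨v, hv, hvu, -⟩ := Pk.exists_partner H.E.sepK ⊥ hu0 hu (by simp)
  have huv : Pk.B u v = 1 := by rw [← H.hk.symm, hvu, map_one]
  have huu := Pk.self_eq_zero hu
  have hvv := Pk.self_eq_zero hv
  have key : ∀ c : K, c ≠ 0 → c + τ c = 0 →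
      ∃ g ∈ Pk.Isom, res g ∈ M ∧ g u = -c⁻¹ • v ∧ g v = c • u := fun c hc0 hc => by
    obtain ⟨s, hs, hs', es⟩ := H.has_tv hu hc
    obtain ⟨t, ht, ht', et⟩ := H.has_tv hv (c := -c⁻¹) (by
      rw [map_neg, map_inv₀, eq_neg_of_add_eq_zero_right hc]; simp)
    refine ⟨s * t * s, Subgroup.mul_mem _ (Subgroup.mul_mem _ hs' ht') hs', by
      simp only [map_mul]; exact M.mul_mem (M.mul_mem hs ht) hs, ?_, ?_⟩ <;>
      simp only [le_mul_apply, es, et, map_add, map_smul, huu, huv, hvu, hvv, smul_eq_mul] <;>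
      match_scalars <;> field_simp <;> ring
  obtain ⟨ω, hω, -⟩ := H.hk.exists_ne
  have h0 : ω - τ ω ≠ 0 := sub_ne_zero.2 hω.symm
  obtain ⟨s, hs, hs', h1, -⟩ := key _ h0 (by rw [map_sub, Pk.σσ]; ring)
  obtain ⟨t, ht, ht', -, h2⟩ := key (-μ * (ω - τ ω)) (by simp [hμ0, h0])
    (by rw [map_mul, map_neg, hμ, map_sub, Pk.σσ]; ring)
  refine ⟨t * s, Subgroup.mul_mem _ ht hs, by rw [map_mul]; exact M.mul_mem ht' hs', ?_⟩
  rw [le_mul_apply, h1, map_smul, h2, smul_smul]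
  congr 1; field_simp

theorem UU.perp_of_perp (H : UU T M P Pk) {S : V → Prop} {u w : V} (hu : Pk.q u ∈ Pk.Λ)
    {W : Submodule F V} (hP : MaxPair K M S (pt F K u) W) (hw : w ∈ W) (hwU : w ∉ pt F K u)
    (huw : Pk.B u w = 0) {y : V} (hy : y ∈ W) : Pk.B u y = 0 := by
  by_contra hβ
  obtain ⟨u', hu', hu''⟩ := hP.exists_left
  obtain ⟨k, rfl⟩ := mem_pt.1 hu'
  have := H.eq_top (Y := coef (K := K) W (Pk.B u y • u)) (fun c hc => by
    obtain ⟨t, ht, et⟩ := (H.inT hu hc).has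
    have := hP.stab ht (fun z hz _ => by simp [et, (H.inT hu hc).ker z hz]) hw hwU
      (by simpa [et, tvK_apply, huw] using hw) y hy
    rwa [et, W.add_mem_iff_right hy, tvK_apply, mul_smul] at this) (k / Pk.B u y)
  rw [mem_coef, smul_smul, div_mul_cancel₀ _ hβ] at this
  exact hu'' this

theorem UU.le_Wd (H : UU T M P Pk) {u : V} (hu : Pk.q u ∈ Pk.Λ) (hu0 : u ≠ 0) {W : Submodule F V}
    (hP : MaxPair K M (fun d => Pk.q d ∈ Pk.Λ) (pt F K u) W) (h : ∀ y ∈ W, Pk.B u y = 0) {e : V}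
    (he : e ∈ pt F K u) (he0 : e ≠ 0) : pt F K u ≤ Wd P M e (H.sing_pt hu e he) := by
  have hD := hP.codim_one_of_perp H.hr H.E.sepK H.xle hu hu0 h
  obtain ⟨n₀, ⟨y, hy, h1⟩, h2⟩ := H.E.tv_of_pair H.hM (fun d hd => hd) H.xle hP hD
    (le_perp_comm fun y hy => H.E.mem_perp_pt.2 (h y hy))
  obtain ⟨μ, hμ, hμ'⟩ := H.exists_fixed_notMem
  have hμ0 : μ ≠ 0 := fun h => hμ' 0 (by simp [h])
  obtain ⟨g, hg, hgM, e'⟩ := H.exists_dil hu hu0 (μ := μ⁻¹) (by rw [map_inv₀, hμ]) (inv_ne_zero hμ0)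
  have h3 := H.E.tv_all H.hr H.hM h2 (fun h => h1 (mem_perp'.1 (H.E.mem_perp_pt.2 h) y hy)) hgM
    (fun w hw => by
      obtain ⟨k, rfl⟩ := mem_pt.1 hw
      rw [res_apply, map_smul, e', smul_smul]; exact smul_mem_pt _ _) hμ' (fun y => by
      rw [res_apply, ← hg.1 u y, e', B_smul_left, map_inv₀, hμ]; field_simp)
  have hUU := H.good_iso hP.left
  obtain ⟨l, hl⟩ := exists_notMem_range H.hr.one_lt
  obtain ⟨n, h4, h5⟩ := exists_B_eq H.E.sep (H := F ∙ e) (u := l • e) (fun h => by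
    obtain ⟨a, ha⟩ := Submodule.mem_span_singleton.1 h
    exact hl a (smul_left_injective K he0 (by simpa using ha))) 1
  have h6 := h4 e (Submodule.mem_span_singleton_self e)
  have hβ : Pk.B u n ≠ 0 := fun h0 => by
    rw [mem_perp'.1 (H.E.mem_perp_pt.2 h0) _ (smul_mem_pt' l he)] at h5
    exact zero_ne_one h5
  intro y hy
  obtain ⟨k, rfl⟩ := mem_pt.1 hy
  have := H.eq_top (Y := coef (K := K) (Wd P M e (H.sing_pt hu e he)) (Pk.B u n • u)) (fun c hc => by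
    refine mem_coef.2 ⟨hUU _ he _ (smul_mem_pt' _ (smul_mem_pt _ u)), fun a => ?_⟩
    have h7 := (H.inT hu hc).conj_tv H.E.sep H.hM hUU (h3 (-a • n)) he (by simp [h6])
    have h8 : -tvK F Pk u c (-a • n) = a • c • Pk.B u n • u := by
      rw [map_smul, tvK_apply, mul_smul]; simp
    rw [h8] at h7
    refine ⟨_, H.h.valid.2 ?_, h7⟩
    have h9 := (H.inT hu hc).mem (-a • n)
    rw [← h8, hUU _ (Submodule.neg_mem _ h9) _ (Submodule.neg_mem _ h9), map_neg, H.h.symm,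
      (H.inT hu hc).skew H.hM hUU]
    ring) (k / Pk.B u n)
  rwa [mem_coef, smul_smul, div_mul_cancel₀ _ hβ] at this

theorem UU.EG_le_of_full (H : UU T M P Pk) {u : V} (hu : Pk.q u ∈ Pk.Λ) (hu0 : u ≠ 0)
    (h : ∀ e (he : e ∈ pt F K u), e ≠ 0 → pt F K u ≤ Wd P M e (H.sing_pt hu e he)) : EG P ≤ M := by
  have := H.fd
  have huu := Pk.self_eq_zero hu
  obtain ⟨v, hv, hvu, -⟩ := Pk.exists_partner H.E.sepK ⊥ hu0 hu (by simp)
  have huv : Pk.B u v = 1 := by rw [← H.hk.symm, hvu, map_one]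
  obtain ⟨c, hc, hc'⟩ : ∃ c, c + τ c = 0 ∧ T c ≠ 0 := by
    by_contra hc
    push Not at hc
    exact one_ne_zero (H.E.nd 1 fun k => H.eq_top (Y := LinearMap.ker T) hc _)
  obtain ⟨t, ht, ht', et⟩ := H.has_tv hv hc
  have h2 : P.B u (t u) ≠ 0 := by simpa [H.E.B, et, huu, hvu, huv] using hc'
  have h4 : Pk.q (t u) ∈ Pk.Λ := isom_q ht' hu
  have h5 : XLe P M u := H.h.xle_of_Wd H.E.sep
    (H.h3.trans (finrank_pt (F := F) (K := K) hu0 ▸ Submodule.finrank_le _)) fun z hz =>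
    H.E.perp_le_Wd_of_three H.h3 H.hM H.xle hu (u' := t u) (fun h => h2 (H.E.B_zero h))
      (H.sing_pt hu u (self_mem_pt u)) (H.sing_pt h4) (h u (self_mem_pt u) hu0) (fun e he he0 => by
        obtain ⟨a, rfl⟩ := mem_pt.1 he
        intro y hy
        obtain ⟨b, rfl⟩ := mem_pt.1 hy
        have := Wd_apply (hx' := H.sing_pt h4 _ he) (h (a • u) (smul_mem_pt a u)
          (fun h0 => he0 (by rw [← map_smul, h0, map_zero])) (smul_mem_pt b u)) ht (H.hM ht)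
          (t.map_smul a u)
        rwa [res_apply, map_smul] at this) hz
  exact EG_le_of_xle H.E.sep (H.sing_pt hu u (self_mem_pt u)) (H.sing_pt h4 _ (self_mem_pt _)) h5
    (h5.apply ht (H.hM ht)) h2

end H21
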