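import Mathlib
import Cfsg.Agent.Base
import Cfsg.Agent.Lib.ExtFld.UU

/-!
Overgroups of the unitary group over an extension field: pairs of conjugate points with largest
intersection.
-/

set_option autoImplicit false
set_option linter.unusedSectionVars false

namespace H21

open Module Cfsg H97 H28

variable {F K V : Type*} [Field F] [Field K] [Algebra F K] [AddCommGroup V] [Module F V]
  [Module K V] [IsScalarTower F K V] {T : K →ₗ[F] F} {M : Subgroup (V ≃ₗ[F] V)}
  [FiniteDimensional F V] [FiniteDimensional K V] {σ : F →+* F} {τ : K →+* K} {P : PQ F V σ}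
  {Pk : PQ K V τ}

theorem UU.exists_iso [Finite K] (H : UU T M P Pk) {W : Submodule F V}
    (hW : finrank F W = finrank F K) (h : ∀ x ∈ W, ∀ y ∈ W, P.B x y = 0) :
    ∃ y ∈ W, y ≠ 0 ∧ Pk.q y ∈ Pk.Λ := by
  have : Finite F := Finite.of_injective _ (algebraMap F K).injective
  have := H.fd
  let F₀ := RingHom.eqLocusField σ (RingHom.id F)
  have := Fintype.ofFinite F₀
  have h₀ : ∀ a : F₀, σ a = a := fun a => a.2
  obtain ⟨ω, hω, -⟩ := H.h.exists_ne
  let b := finBasis F W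
  let τ' : K →ₗ[F₀] K :=
    { toFun := τ
      map_add' := map_add τ
      map_smul' := fun a k => by
        rw [Subfield.smul_def, tau_smul H.hτ, h₀]; rfl }
  let a : (Fin (finrank F W) ⊕ Fin (finrank F W) → F₀) → Fin (finrank F W) → F :=
    fun x i => x (.inl i) • 1 + x (.inr i) • ω
  let Y : Submodule F₀ K := LinearMap.ker (τ' - LinearMap.id) ⊓ (LinearMap.ker T).restrictScalars F₀
  have h1 : finrank F₀ Y ≤ finrank F (LinearMap.ker T) :=
    finrank_le_of_fixed (Y := Y) (fun a ha => ⟨⟨a, ha⟩, rfl⟩) H.hτ P.σσ hω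
      (fun y hy => sub_eq_zero.1 (Submodule.mem_inf.1 hy).1) fun y hy => (Submodule.mem_inf.1 hy).2
  have h2 : finrank F (LinearMap.ker T) < finrank F K := Submodule.finrank_lt fun h =>
    one_ne_zero (H.E.nd 1 fun k => (h ▸ Submodule.mem_top : 1 * k ∈ LinearMap.ker T))
  have ha : ∀ i, (fun x => algebraMap F K (a x i)) ∈ PD (fun _ => 1) K 1 := fun i =>
    PD.map ((Algebra.linearMap F K).restrictScalars F₀) (PD.add (PD.coord (w := fun _ => 1) _ _)
      (PD.coord (w := fun _ => 1) _ _))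
  have hg : (fun x => Pk.B (∑ i, a x i • b i : W) (∑ i, a x i • b i : W)) ∈
      PD (fun _ => 1) K 2 := by
    have h3 := PD.sum Finset.univ fun i _ => PD.sum Finset.univ fun j _ =>
      PD.mul (PD.mul (ha i) (PD.map τ' (ha j))) (PD.const (d := 0) (Pk.B (b j) (b i)))
    refine PD.congr h3 fun x => ?_
    have h4 : ∀ (c : F) (y : V), c • y = algebraMap F K c • y := fun c y => (algebraMap_smul K c y).symm
    simp only [Submodule.coe_sum, Submodule.coe_smul, h4, map_sum,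
      LinearMap.sum_apply, map_smul, B_smul_left, smul_eq_mul, Finset.mul_sum, mul_assoc]
    rfl
  obtain ⟨x, hx0, hx⟩ := PD.exists_zero' (Y := Y) (by simp; omega) hg
    (fun x => ⟨sub_eq_zero.2 (H.hk.symm _ _), (H.E.B _ _).symm.trans
      (h _ (Submodule.coe_mem _) _ (Submodule.coe_mem _))⟩) (by simp [a])
  refine ⟨_, Submodule.coe_mem _, fun h0 => hx0 ?_, H.hk.sing.2 hx⟩
  have h3 := Fintype.linearIndependent_iff.1 b.linearIndependent _ (Subtype.ext h0)
  have h4 : ∀ i, x (.inr i) = 0 := fun i => Subtype.ext (by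
    have h4 := h3 i
    have h5 := congrArg σ h4
    simp only [a, Subfield.smul_def, smul_eq_mul, map_add, map_mul, h₀, map_one, map_zero] at h4 h5
    exact mul_left_cancel₀ (sub_ne_zero.2 hω) (by rw [ZeroMemClass.coe_zero]; linear_combination h5 - h4))
  funext i
  rcases i with i | i
  · simpa [a, h4] using h3 i
  · exact h4 i

theorem UU.exists_det_eq_zero [Finite K] (H : UU T M P Pk) {ι n : Type*} [Fintype ι] [Fintype n]
    [DecidableEq n] [Nonempty n] (hlt : Fintype.card n < Fintype.card ι) (c : ι → K)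
    (hc : ∀ i, c i + τ (c i) = 0) (κ : n → n → K) (hκ : ∀ i j, τ (κ i j) = κ j i) :
    ∃ a : ι → F, a ≠ 0 ∧ (∀ i, σ (a i) = a i) ∧
      (Matrix.of fun i j => T ((∑ s, a s • c s) * κ i j)).det = 0 := by
  have : Finite F := Finite.of_injective _ (algebraMap F K).injective
  let F₀ := RingHom.eqLocusField σ (RingHom.id F)
  have := Fintype.ofFinite F₀
  have h₀ : ∀ a : F₀, σ a = a := fun a => a.2
  obtain ⟨ω, hω, -⟩ := H.h.exists_ne
  let σ' : F →ₗ[F₀] F :=
    { toFun := σ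
      map_add' := map_add σ
      map_smul' := fun a k => by
        rw [Subfield.smul_def, smul_eq_mul, map_mul, h₀]; rfl }
  let Y : Submodule F₀ F := LinearMap.ker (σ' - LinearMap.id)
  have h1 : finrank F₀ Y ≤ finrank F (⊤ : Submodule F F) :=
    finrank_le_of_fixed (τ := σ) (fun a ha => ⟨⟨a, ha⟩, rfl⟩) (fun _ => rfl) P.σσ hω
      (fun y hy => sub_eq_zero.1 hy) fun y hy => trivial
  rw [finrank_top, finrank_self] at h1
  obtain ⟨x, hx0, hx⟩ := PD.exists_zero' (Y := Y) (w := fun _ => 1) (d := Fintype.card n * 1)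
    (by have := Nat.mul_le_mul_right (Fintype.card n * 1) h1; simp at this ⊢; omega)
    (PD.det (g := fun x : ι → F₀ => (ω - σ ω) • Matrix.of fun i j => T ((∑ s, x s • c s) * κ i j))
      fun i j => PD.map (((ω - σ ω) • T ∘ₗ LinearMap.mulRight F (κ i j)).restrictScalars F₀)
        (PD.basis id (fun _ => le_rfl) c)) (fun x => sub_eq_zero.2 (by
      change σ _ = _
      rw [RingHom.map_det, LinearMap.id_apply, ← Matrix.det_transpose]
      congr 1
      ext i j
      have h2 : τ (∑ s, x s • c s) = -∑ s, x s • c s := by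
        rw [map_sum, ← Finset.sum_neg_distrib]
        refine Finset.sum_congr rfl fun s _ => ?_
        rw [Subfield.smul_def, tau_smul H.hτ, h₀, eq_neg_of_add_eq_zero_right (hc s), smul_neg]
      simp only [Matrix.transpose_apply, RingHom.mapMatrix_apply, Matrix.map_apply,
        Matrix.smul_apply, Matrix.of_apply, smul_eq_mul, map_mul, map_sub, P.σσ, ← H.hT, h2, hκ,
        neg_mul, map_neg]
      ring)) (by
      convert Matrix.det_zero (n := n) (R := F)
      ext i j; simp)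
  refine ⟨fun s => x s, fun h => hx0 (funext fun s => Subtype.ext (congrFun h s)),
    fun s => h₀ _, ?_⟩
  rw [Matrix.det_smul, mul_eq_zero] at hx
  exact hx.resolve_left (pow_ne_zero _ (sub_ne_zero.2 hω.symm))

theorem UU.mem_NK_two (H : UU T M P Pk) (h2 : finrank K V = 2) {g : V ≃ₗ[F] V}
    (hg : ∀ d, d ≠ 0 → Pk.q d ∈ Pk.Λ → (pt F K d).map (g : V →ₗ[F] V) = pt F K (g d)) :
    g ∈ NK F K V := by
  have := H.fd
  obtain ⟨u, -, hu0, hu⟩ := H.iso ⊤ (by rw [finrank_top, h2])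
  obtain ⟨v, hv, hvu, -⟩ := Pk.exists_partner H.E.sepK ⊥ hu0 hu (by simp)
  have huv : Pk.B u v = 1 := by rw [← H.hk.symm, hvu, map_one]
  have huu := Pk.self_eq_zero hu
  have hvv := Pk.self_eq_zero hv
  have hsp : ∀ y, y ∈ Submodule.span K {u, v} := fun y => by
    have h3 := Submodule.finrank_sup_span_singleton (p := K ∙ u) (v := v) fun h => by
      obtain ⟨a, rfl⟩ := Submodule.mem_span_singleton.1 h
      simp [huu] at huv
    rw [← Submodule.span_insert, finrank_span_singleton hu0] at h3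
    rw [Submodule.eq_top_of_finrank_eq (h3.trans h2.symm)]; trivial
  rw [← inv_mem_iff]
  refine mem_NK_of fun k => ?_
  let φ : V →ₗ[F] V := (g⁻¹ : V ≃ₗ[F] V) ∘ₗ Algebra.lsmul F F V k ∘ₗ (g : V →ₗ[F] V)
  have h1 : ∀ d, Pk.B d d = 0 → ∃ m : K, φ d = m • d := fun d hd => by
    by_cases h0 : d = 0
    · exact ⟨0, by simp [h0]⟩
    obtain ⟨m, hm⟩ := mem_pt.1 (mem_map_le'.1 (hg d h0 (H.hk.sing.2 hd) ▸ smul_mem_pt k (g d)))
    exact ⟨m, hm.symm⟩
  have h3 : ∀ a x : K, φ ((a * x) • u) = (x * Pk.B u (φ (a • v))) • u := fun a x => by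
    let Y : Submodule F K :=
      { carrier := {x | φ ((a * x) • u) = (x * Pk.B u (φ (a • v))) • u}
        zero_mem' := by simp
        add_mem' := fun h h' => by
          simp only [Set.mem_ofPred_eq, mul_add, add_mul, add_smul, map_add] at h h' ⊢
          rw [h, h']
        smul_mem' := fun c x h => by
          simp only [Set.mem_ofPred_eq, mul_smul_comm, smul_mul_assoc, smul_assoc,
            LinearMap.map_smul] at h ⊢
          rw [h] }
    refine H.eq_top (Y := Y) (fun c hc => ?_) x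
    obtain ⟨m, hm⟩ := h1 (a • (v + c • u)) (by
      simp [B_smul_left, huu, huv, hvu, hvv]; linear_combination (a * τ a) * hc)
    obtain ⟨m₁, h4⟩ := h1 (a • v) (by simp [hvv])
    obtain ⟨m₂, h5⟩ := h1 ((a * c) • u) (by simp [huu])
    rw [smul_add, smul_smul a, map_add, h4, h5] at hm
    have h6 := congrArg (Pk.B u) hm
    have h7 := congrArg (Pk.B v) hm
    simp only [map_add, map_smul, huu, huv, hvu, hvv, smul_eq_mul] at h6 h7
    change φ _ = _
    rw [h5, h4, smul_smul, map_smul, map_smul, huv]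
    congr 1
    simp only [smul_eq_mul]
    linear_combination h7 - c * h6
  refine ⟨Pk.B u (φ v), fun x => ?_⟩
  obtain ⟨a, b, e⟩ := Submodule.mem_span_pair.1 (hsp (g⁻¹ x))
  have h4 : φ (g⁻¹ x) = g⁻¹ (k • x) := by simp [φ, le_apply_inv]
  obtain ⟨m, h5⟩ := h1 (b • v) (by simp [hvv])
  have h6 := h3 b 1
  have h7 := h3 1 b
  have h8 := h3 1 a
  simp only [one_mul, mul_one, one_smul] at h6 h7 h8
  have h9 := smul_left_injective K hu0 (h6.symm.trans h7)
  simp only [h5, map_smul, huv, smul_eq_mul, mul_one] at h9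
  rw [← h4, ← e, map_add, h8, h5, smul_smul m, h9]
  module

theorem UU.exists_maxPair [Finite K] (H : UU T M P Pk) (h2 : 2 ≤ finrank K V) {g : V ≃ₗ[F] V}
    (hg : g ∈ M) (hg' : g ∉ NK F K V) :
    ∃ d W, d ≠ 0 ∧ Pk.q d ∈ Pk.Λ ∧ MaxPair K M (fun d => Pk.q d ∈ Pk.Λ) (pt F K d) W := by
  obtain ⟨d, hd0, hd, hne⟩ : ∃ d, d ≠ 0 ∧ Pk.q d ∈ Pk.Λ ∧
      (pt F K d).map (g : V →ₗ[F] V) ≠ pt F K (g d) := by
    by_contra hc
    push Not at hc
    by_cases h3 : finrank K V = 2
    · exact hg' (H.mem_NK_two h3 hc)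
    · exact hg' (mem_NK_of_map_sing H.hr.one_lt H.iso H.E.sepK h2 (by omega) hc)
  have hW := (good_pt (K := K) (M := M) (S := fun d => Pk.q d ∈ Pk.Λ) hd0 hd).map hg
  obtain ⟨y, hy, hy0, hy'⟩ := H.exists_iso hW.finrank_eq (H.good_iso hW)
  have hv : g d ∈ (pt F K d).map (g : V →ₗ[F] V) := ⟨d, self_mem_pt _, rfl⟩
  exact H21.exists_maxPair hW (good_pt hy0 hy') (fun h => hne (by
    rw [h, pt_eq_of_mem (h ▸ hv : g d ∈ pt F K y) (by simpa using hd0)]))
    (Submodule.ne_bot_iff _ |>.2 ⟨y, ⟨hy, self_mem_pt _⟩, hy0⟩)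

variable (M Pk) in
/-- All pairs with largest intersection are opposite modulo the intersection. -/
def Opp (S : V → Prop) : Prop := ∀ d W, d ≠ 0 → S d → MaxPair K M S (pt F K d) W →
  ∀ w ∈ W, Pk.B d w = 0 → w ∈ pt F K d

theorem Opp.mem {S : V → Prop} (hB : Opp M Pk S) (E : Ext P Pk T) (hM : M ≤ P.Isom)
    {W W' : Submodule F V} (hP : MaxPair K M S W W') {y : V} (hy : y ∈ W')
    (h : ∀ w ∈ W, P.B w y = 0) : y ∈ W := by
  obtain ⟨g, hg, d, h6, h7, h8, h9⟩ := hP.exists_pt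
  rw [← mem_map_le (a := g), h8]
  refine hB d _ h6 h7 h9 _ ⟨_, hy, rfl⟩ (E.mem_perp_pt.1 ?_)
  rw [← h8]
  rintro _ ⟨w, hw, rfl⟩
  exact ((hM hg).1 _ _).trans (h w hw)

theorem UU.codim_one [Finite K] (H : UU T M P Pk) (hB : Opp M Pk fun d => Pk.q d ∈ Pk.Λ) {u : V}
    (hu : Pk.q u ∈ Pk.Λ) (hu0 : u ≠ 0) {W : Submodule F V}
    (hP : MaxPair K M (fun d => Pk.q d ∈ Pk.Λ) (pt F K u) W) {x : V} (hx : x ∈ W)
    (hxU : x ∉ pt F K u) {y : V} (hy : y ∈ W) : ∃ a : F, y - a • x ∈ pt F K u := by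
  classical
  have := H.fd
  have hB' := hB u W hu0 hu hP
  have hWW := H.good_iso hP.right
  have hβ : Pk.B u x ≠ 0 := fun h => hxU (hB' x hx h)
  obtain ⟨R, hR1, hR2⟩ := IsModularLattice.exists_disjoint_and_sup_eq
    (inf_le_right : pt F K u ⊓ W ≤ W)
  have hRW : R ≤ W := hR2 ▸ le_sup_right
  have hR0 : ∀ y ∈ R, y ∈ pt F K u → y = 0 := fun y hy hy' =>
    Submodule.disjoint_def.1 hR1 y ⟨hy', hRW hy⟩ hy
  let C : Submodule F K :=
    { carrier := {c | ∀ y ∈ W, (c * Pk.B u y) • u ∈ W}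
      zero_mem' := by simp
      add_mem' := fun h h' y hy => by
        rw [add_mul, add_smul]; exact W.add_mem (h y hy) (h' y hy)
      smul_mem' := fun a c h y hy => by
        rw [smul_mul_assoc, smul_assoc]; exact W.smul_mem a (h y hy) }
  have hdim : finrank F (K ⧸ C) ≤ finrank F R := by
    by_contra hlt
    obtain ⟨s, hs1, hs2, hs3⟩ := exists_linearIndependent F (C.mkQ '' {c | c + τ c = 0})
    have hs4 : Submodule.span F s = ⊤ := by
      rw [hs2, ← Submodule.map_span, (eq_top_iff.2 fun x _ =>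
        H.eq_top (fun c hc => Submodule.subset_span hc) x : Submodule.span F {c | c + τ c = 0} = ⊤),
        Submodule.map_top, Submodule.range_mkQ]
    have := hs3.finite
    have := Fintype.ofFinite s
    have hs5 : Fintype.card s = finrank F (K ⧸ C) := by
      rw [← finrank_top, ← hs4, ← finrank_span_eq_card hs3, Subtype.range_coe]
    choose c hc hc' using fun i : s => hs1 i.2
    let bR := finBasis F R
    have hR : 0 < finrank F R := Nat.pos_of_ne_zero fun h0 => by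
      rw [Submodule.finrank_eq_zero.1 h0, sup_bot_eq] at hR2
      exact hxU (hR2.ge hx).1
    have : Nonempty (Fin (finrank F R)) := ⟨⟨0, hR⟩⟩
    obtain ⟨a, ha0, ha, hdet⟩ := H.exists_det_eq_zero (n := Fin (finrank F R))
      (by rw [Fintype.card_fin]; omega) c hc
      (fun i j => Pk.B u (bR j) * Pk.B (bR i) u) fun i j => by
        rw [map_mul, H.hk.symm, H.hk.symm, mul_comm]
    set γ := ∑ s, a s • c s with hγ
    have hγ' : γ + τ γ = 0 := by
      rw [hγ, map_sum, ← Finset.sum_add_distrib]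
      exact Finset.sum_eq_zero fun s _ => by rw [tau_smul H.hτ, ha, ← smul_add, hc, smul_zero]
    obtain ⟨y, hy, hy0, h1⟩ := exists_ne_zero_of_det (P := P) bR (tvK F Pk u γ) (by
      rw [← hdet]; congr 1; ext i j
      simp [tvK_apply, H.E.B, mul_assoc])
    have hN := H.inT hu hγ'
    obtain ⟨t, ht, et⟩ := hN.has
    simp only at et
    have htU : ∀ y ∈ pt F K u, t y = y := fun y hy => by simp [et, hN.ker y hy]
    have hne : W ≠ W.map (t : V →ₗ[F] V) := fun e => ha0 (funext fun i => by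
      refine Fintype.linearIndependent_iff.1 hs3 a ?_ i
      simp only [← hc', ← map_smul, ← map_sum]
      refine (Submodule.Quotient.mk_eq_zero C).2 fun y hy => ?_
      have h2 : t y ∈ W := e ▸ ⟨y, hy, rfl⟩
      rwa [et, W.add_mem_iff_right hy, tvK_apply] at h2)
    obtain ⟨h2, h3⟩ := hP.of_le hP.right (hP.right.map ht) hne
      fun y hy => ⟨hy.2, y, hy.2, htU y hy.1⟩
    have h4 : t y ∈ W := hB.mem H.E H.hM h2 ⟨y, hRW hy, rfl⟩ fun w hw => by
      obtain ⟨w₁, h4, w₂, h5, rfl⟩ := Submodule.mem_sup.1 (hR2.ge hw)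
      rw [map_add, LinearMap.add_apply, ← htU w₁ h4.1, (H.hM ht).1, hWW _ h4.2 _ (hRW hy), et,
        map_add, hWW _ (hRW h5) _ (hRW hy), h1 _ h5]
      simp
    have h5 := (h3.le ⟨h4, y, hRW hy, rfl⟩).1
    exact hy0 (hR0 y hy (t.injective (htU _ h5) ▸ h5))
  let L : K →ₗ[F] V := (LinearMap.toSpanSingleton K V (Pk.B u x • u)).restrictScalars F
  have hL : Function.Injective L := smul_left_injective K (smul_ne_zero hβ hu0)
  have h1 : C.map L = pt F K u ⊓ W := Submodule.eq_of_le_of_finrank_le (by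
    rintro _ ⟨c, hc, rfl⟩
    exact ⟨smul_mem_pt' c (smul_mem_pt _ u), by simpa [L, smul_smul] using hc x hx⟩) (by
      have h1 := Submodule.finrank_quotient_add_finrank C
      have h2 := Submodule.finrank_sup_add_finrank_inf_eq (pt F K u ⊓ W) R
      rw [hR2, hR1.eq_bot, finrank_bot, hP.right.finrank_eq] at h2
      rw [← (Submodule.equivMapOfInjective L hL C).finrank_eq]
      omega)
  obtain ⟨d, hd, hd0⟩ := Submodule.exists_mem_ne_zero_of_ne_bot hP.ne_bot
  obtain ⟨δ, rfl⟩ := mem_pt.1 hd.1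
  obtain ⟨a, ha⟩ : ∃ a, algebraMap F K a = Pk.B u y / Pk.B u x := by
    by_contra hc
    push Not at hc
    obtain ⟨u', hu', hu''⟩ := hP.exists_left
    refine hu'' (pt_le_of_mul H.hr hc (left_ne_zero_of_smul hd0) hd.2 (fun k hk => ?_) hu')
    obtain ⟨c, hc, e⟩ := h1.ge ⟨smul_mem_pt k u, hk⟩
    have h2 : c * Pk.B u x = k := smul_left_injective K hu0 (by simpa [L, smul_smul] using e)
    convert hc y hy using 2
    rw [← h2]; field_simp
  refine ⟨a, hB' _ (W.sub_mem hy (W.smul_mem a hx)) ?_⟩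
  rw [map_sub, ← algebraMap_smul K a, map_smul, ha, smul_eq_mul, div_mul_cancel₀ _ hβ, sub_self]

theorem UU.false_of_three [Finite K] (H : UU T M P Pk) (hB : Opp M Pk fun d => Pk.q d ∈ Pk.Λ)
    (h3 : 3 ≤ finrank K V) {u : V} (hu : Pk.q u ∈ Pk.Λ) (hu0 : u ≠ 0) {W : Submodule F V}
    (hP : MaxPair K M (fun d => Pk.q d ∈ Pk.Λ) (pt F K u) W) : False := by
  have huu := Pk.self_eq_zero hu
  have hWW := H.good_iso hP.right
  obtain ⟨w, hw, hwU⟩ := hP.exists_right
  have hβ : Pk.B u w ≠ 0 := fun h => hwU (hB u W hu0 hu hP w hw h)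
  set Y := Submodule.span K {u, w} with hYdef
  have hY : Y ⊓ perp Pk Y = ⊥ := nondeg_span_pair huu hβ
  have huY : u ∈ Y := Submodule.subset_span (by simp)
  have hwY : w ∈ Y := Submodule.subset_span (by simp)
  have hWY : ∀ y ∈ W, y ∈ Y := fun y hy => by
    obtain ⟨a, ha⟩ := H.codim_one hB hu hu0 hP hw hwU hy
    obtain ⟨k, hk⟩ := mem_pt.1 ha
    rw [← sub_add_cancel y (a • w), ← hk, ← algebraMap_smul K a]
    exact Y.add_mem (Y.smul_mem _ huY) (Y.smul_mem _ hwY)
  obtain ⟨c, hc, hc'⟩ : ∃ c : K, (c * Pk.B u w) • u ∈ W ∧ c + τ c ≠ 0 := by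
    obtain ⟨d, hd, hd0⟩ := Submodule.exists_mem_ne_zero_of_ne_bot hP.ne_bot
    obtain ⟨δ, rfl⟩ := mem_pt.1 hd.1
    obtain ⟨ω, hω, -⟩ := H.h.exists_ne
    by_contra hc
    push Not at hc
    have h1 := hc (δ / Pk.B u w) (by rw [div_mul_cancel₀ _ hβ]; exact hd.2)
    have h2 := hc (ω • (δ / Pk.B u w)) (by
      rw [smul_mul_assoc, div_mul_cancel₀ _ hβ, smul_assoc]; exact W.smul_mem _ hd.2)
    rw [tau_smul H.hτ, eq_neg_of_add_eq_zero_right h1, smul_neg, ← sub_eq_add_neg, ← sub_smul,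
      smul_eq_zero, sub_eq_zero, div_eq_zero_iff] at h2
    exact hd0 (by rw [(h2.resolve_left hω.symm).resolve_right hβ, zero_smul])
  obtain ⟨d, hd, hdd⟩ : ∃ d ∈ perp Pk Y, Pk.B d d = c + τ c := by
    have h1 := finrank_le_perp (P := Pk) Y
    have h2 : finrank K Y ≤ 2 := finrank_span_pair_le u w
    obtain ⟨x, hx, hx0⟩ := exists_ne_zero_mem (X := perp Pk Y) (by omega)
    obtain ⟨y, hy, hxy⟩ : ∃ y ∈ perp Pk Y, Pk.B y x ≠ 0 := by
      by_contra hc
      push Not at hc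
      exact hx0 (show x ∈ (⊥ : Submodule K V) from perp_nondeg H.E.sepK hY ▸ ⟨hx, hc⟩)
    obtain ⟨z, hz, hzz⟩ := exists_nonisotropic (exists_trace_one H.hk.ne Pk.σσ) Pk.B H.hk.symm _
      hy hx hxy
    obtain ⟨a, ha⟩ := exists_herm_norm H.hk.ne Pk.σσ H.hk.symm hzz (t := c + τ c)
      (by rw [map_add, Pk.σσ, add_comm])
    exact ⟨a • z, Submodule.smul_mem _ _ hz, ha⟩
  obtain ⟨t, ht, et⟩ := Has.of_comap (H.xle u hu d c (hd u huY) (H.hk.valid.2 hdd.symm))
  have htw : t w = w - (c * Pk.B u w) • u - Pk.B u w • d := by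
    rw [et, H.hk.eu, mem_perp'.1 hd w hwY]; module
  have h2 : t w ∉ W := fun h => by
    have h3 : Pk.B u w • d ∈ Y := by
      have := Y.sub_mem (Y.sub_mem hwY (hWY _ hc)) (hWY _ h)
      rwa [htw, sub_sub_cancel] at this
    have h5 : d = 0 := show d ∈ (⊥ : Submodule K V) from hY ▸ ⟨(Y.smul_mem_iff hβ).1 h3, hd⟩
    exact hc' (by simp [← hdd, h5])
  obtain ⟨h4, -⟩ := hP.of_le hP.right (hP.right.map ht) (fun h => h2 (h ▸ ⟨w, hw, rfl⟩))
    fun z hz => ⟨hz.2, z, hz.2, by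
      obtain ⟨k, rfl⟩ := mem_pt.1 hz.1
      rw [LinearEquiv.coe_coe, et, eu_fix _ (by simp [huu]) (by simp [mem_perp'.1 hd u huY])]⟩
  refine h2 (hB.mem H.E H.hM h4 ⟨w, hw, rfl⟩ fun y hy => ?_)
  rw [htw, map_sub, map_sub, hWW y hy w hw, hWW y hy _ hc, H.E.B_zero (by simp [hd y (hWY y hy)])]
  simp

end H21
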