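import Mathlib
import Cfsg.Agent.Base
import Cfsg.Agent.Lib.ExtFld.UU2

/-!
Overgroups of the unitary group over an extension field: the opposite case produces transvections.
-/

set_option autoImplicit false
set_option linter.unusedSectionVars false

namespace H21

open Module Cfsg H97 H28

section General

variable {F V : Type*} [Field F] [AddCommGroup V] [Module F V] [FiniteDimensional F V]
  {σ : F →+* F} {P : PQ F V σ} {M : Subgroup (V ≃ₗ[F] V)} {U : Submodule F V}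

variable (P) in
/-- The map `v ↦ B(y, v) x`. -/
def tn (x y : V) : V →ₗ[F] V := (P.B y).smulRight x

theorem tn_apply (x y v : V) : tn P x y v = P.B y v • x := rfl

theorem InT.conj_tn (hM : M ≤ P.Isom) {g : V ≃ₗ[F] V} (hg : g ∈ M) (hU : ∀ w ∈ U, g w ∈ U)
    {a b : F} {x y x' y' : V} (h : InT M U (a • tn P x y + b • tn P x' y')) :
    InT M U (a • tn P (g x) (g y) + b • tn P (g x') (g y')) := by
  have h1 := h.conj hg
  rw [mem_stab_iff_map.1 (mem_stab_of_maps hU)] at h1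
  refine h1.congr fun v => ?_
  simp only [cjm_apply, LinearMap.add_apply, LinearMap.smul_apply, tn_apply, map_add, map_smul]
  rw [← (hM hg).1 y, ← (hM hg).1 y', le_apply_inv]

theorem InT.conj_one (hh : Hm P) (hP : P.B.SeparatingLeft) (hM : M ≤ P.Isom) {ρ : V →ₗ[F] V}
    (h : InT M U ρ) (hU : ∀ u ∈ U, ∀ w ∈ U, P.B u w = 0) {n e : V} (he : e ∈ U) {s : V ≃ₗ[F] V}
    (hs : s ∈ M) (h1 : ∀ w ∈ U, s w = w + P.B n w • e) :
    InT M U (tn P (ρ n) e - tn P e (ρ n) + P.B n (ρ n) • tn P e e) := by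
  have h2 := h.conj hs
  rw [mem_stab_iff_map.1 (mem_stab_of_maps fun y hy => by
    rw [h1 y hy]; exact U.add_mem hy (U.smul_mem _ he))] at h2
  refine (h2.sub h).congr fun y => ?_
  have h3 := h.ker_perp hP hM hU (z := s⁻¹ y - (y + P.B e y • n)) fun w hw => by
    rw [map_sub, ← (hM hs).1, le_apply_inv, h1 w hw, map_add, map_add, LinearMap.add_apply,
      B_smul_left, map_smul, hh.symm, smul_eq_mul]
    ring
  rw [map_sub, sub_eq_zero, map_add, map_smul] at h3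
  have h4 := h.skew hM hU n y
  rw [LinearMap.sub_apply (cjm s ρ), cjm_apply, h1 _ (h.mem _), h3]
  simp only [LinearMap.add_apply, LinearMap.sub_apply, LinearMap.smul_apply, tn_apply, h4, map_add,
    map_smul, smul_eq_mul]
  module

variable (M P U) in
/-- The transvections with direction a real multiple of `e` and axis the perp of `n` are induced
on `U`. -/
def ZT (n e : V) : Prop := e ∈ U ∧ P.B n e = 0 ∧
  ∀ a, σ a = a → ∃ s ∈ M, ∀ w ∈ U, s w = w + P.B n w • a • e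

theorem ZT.map (hM : M ≤ P.Isom) {n e : V} (h : ZT P M U n e) {g : V ≃ₗ[F] V} (hg : g ∈ M) :
    ZT P M (U.map (g : V →ₗ[F] V)) (g n) (g e) := by
  refine ⟨⟨e, h.1, rfl⟩, ((hM hg).1 _ _).trans h.2.1, fun a ha => ?_⟩
  obtain ⟨s, hs, es⟩ := h.2.2 a ha
  refine ⟨g * s * g⁻¹, M.mul_mem (M.mul_mem hg hs) (M.inv_mem hg), ?_⟩
  rintro _ ⟨w, hw, rfl⟩
  simp [le_mul_apply, le_inv_apply_apply, es w hw, (hM hg).1]

theorem ZT.add {n e e' : V} (h : ZT P M U n e) (h' : ZT P M U n e') : ZT P M U n (e + e') := by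
  refine ⟨U.add_mem h.1 h'.1, by simp [h.2.1, h'.2.1], fun a ha => ?_⟩
  obtain ⟨s, hs, es⟩ := h.2.2 a ha
  obtain ⟨t, ht, et⟩ := h'.2.2 a ha
  refine ⟨s * t, M.mul_mem hs ht, fun w hw => ?_⟩
  rw [le_mul_apply, et w hw, es _ (U.add_mem hw (U.smul_mem _ (U.smul_mem _ h'.1)))]
  simp only [map_add, map_smul, h'.2.1]
  module

end General

variable {F K V : Type*} [Field F] [Field K] [Algebra F K] [AddCommGroup V] [Module F V]
  [Module K V] [IsScalarTower F K V] {T : K →ₗ[F] F} {M : Subgroup (V ≃ₗ[F] V)}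
  [FiniteDimensional F V] [FiniteDimensional K V] {σ : F →+* F} {τ : K →+* K} {P : PQ F V σ}
  {Pk : PQ K V τ}

theorem UU.exists_zt [Finite K] (H : UU T M P Pk) (hB : Opp M Pk fun d => Pk.q d ∈ Pk.Λ) {u : V}
    (hu : Pk.q u ∈ Pk.Λ) (hu0 : u ≠ 0) {W : Submodule F V}
    (hP : MaxPair K M (fun d => Pk.q d ∈ Pk.Λ) (pt F K u) W) {ω : F} (hω : σ ω ≠ ω) :
    ∃ n, (∃ w ∈ W, P.B n w ≠ 0) ∧ ∀ δ ∈ W, P.B n δ = 0 →
      ∃ e₁ e₂, ZT P M W n e₁ ∧ ZT P M W n e₂ ∧ δ = e₁ + ω • e₂ := by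
  have huu := Pk.self_eq_zero hu
  have hUU := H.good_iso hP.left
  obtain ⟨y, hy, hyU⟩ := hP.exists_right
  have hβ : Pk.B u y ≠ 0 := fun h => hyU (hB u W hu0 hu hP y hy h)
  obtain ⟨k, hk⟩ := H.E.exists_T hβ 1
  have hn : P.B (τ k • u) y = 1 := by rw [H.E.B, B_smul_left, Pk.σσ, hk]
  have h1 : ∀ w ∈ W, w - P.B (τ k • u) w • y ∈ pt F K u := fun w hw => by
    obtain ⟨a, ha⟩ := H.codim_one hB hu hu0 hP hy hyU hw
    have := hUU _ (smul_mem_pt (τ k) u) _ ha
    rw [map_sub, LinearMap.map_smul, hn, smul_eq_mul, mul_one, sub_eq_zero] at this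
    rwa [this]
  have h2 : ∀ c, c + τ c = 0 → (c * Pk.B u y) • u ∈ W →
      ZT P M W (τ k • u) ((c * Pk.B u y) • u) := fun c hc hc' =>
    ⟨hc', hUU _ (smul_mem_pt _ u) _ (smul_mem_pt _ u), fun a ha => by
      obtain ⟨t, ht, et⟩ := (H.inT hu (c := a • c)
        (by rw [tau_smul H.hτ, ha, ← smul_add, hc, smul_zero])).has
      refine ⟨t, ht, fun w hw => ?_⟩
      obtain ⟨m, hm⟩ := mem_pt.1 (h1 w hw)
      have := congrArg (Pk.B u) hm
      rw [map_smul, huu, smul_zero, map_sub, eq_comm, sub_eq_zero, ← algebraMap_smul K,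
        map_smul] at this
      simp only [et, tvK_apply, this, ← algebraMap_smul K a, ← algebraMap_smul K (P.B _ _)]
      module⟩
  refine ⟨τ k • u, ⟨y, hy, by simp [hn]⟩, fun δ hδ h0 => ?_⟩
  obtain ⟨m, rfl⟩ := mem_pt.1 (show δ ∈ pt F K u by simpa [h0] using h1 δ hδ)
  obtain ⟨c₁, h3, c₂, h4, h5, h6, h7⟩ := exists_decomp H.hτ Pk.σσ P.σσ hω
    (Y := coef (K := K) W (Pk.B u y • u)) (x := m / Pk.B u y)
    (by rwa [mem_coef, smul_smul, div_mul_cancel₀ _ hβ]) (by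
      rw [mem_coef, smul_smul]
      refine hB.mem H.E H.hM hP.symm (smul_mem_pt _ u) fun w hw => ?_
      have h3 := H.good_iso hP.right _ hδ y hy
      rw [← sub_add_cancel w (P.B (τ k • u) w • y), map_add, LinearMap.add_apply,
        hUU _ (h1 w hw) _ (smul_mem_pt _ u), B_smul_left, H.E.B y, (Pk.B y).map_smul,
        ← H.hk.symm u y,
        smul_eq_mul, mul_right_comm, ← map_mul, div_mul_cancel₀ _ hβ, ← B_smul_left, ← H.E.B, h3]
      simp)
  rw [mem_coef, smul_smul] at h3 h4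
  refine ⟨_, _, h2 _ h5 h3, h2 _ h6 h4, ?_⟩
  rw [← div_mul_cancel₀ m hβ, h7, add_mul, add_smul, smul_mul_assoc, smul_assoc]

theorem UU.exists_transv (H : UU T M P Pk) {u : V} (hu : Pk.q u ∈ Pk.Λ) (hu0 : u ≠ 0) {ω : F}
    (hω : σ ω ≠ ω) (hω' : ω + σ ω ≠ 0) {n : V} (hn : ∃ w ∈ pt F K u, P.B n w ≠ 0)
    (h : ∀ δ ∈ pt F K u, P.B n δ = 0 →
      ∃ e₁ e₂, ZT P M (pt F K u) n e₁ ∧ ZT P M (pt F K u) n e₂ ∧ δ = e₁ + ω • e₂) :
    ∃ e ∈ pt F K u, e ≠ 0 ∧ ∀ l, l + σ l = 0 → InT M (pt F K u) (l • tn P e e) := by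
  have := H.fd
  have hUU := H.good_iso (good_pt hu0 hu)
  have hβ : Pk.B u n ≠ 0 := fun h0 => by
    obtain ⟨w, hw, hw'⟩ := hn
    exact hw' (mem_perp'.1 (H.E.mem_perp_pt.2 h0) w hw)
  set β := Pk.B u n with hβd
  have hφ : ∀ x : K, P.B n ((x * β) • u) = T (x * (β * τ β)) := fun x => by
    rw [H.E.B, map_smul, ← H.hk.symm u n, smul_eq_mul, mul_assoc]
  have hN : τ (β * τ β) = β * τ β := by rw [map_mul, Pk.σσ, mul_comm]
  have R : ∀ c, c + τ c = 0 → ∀ e, ZT P M (pt F K u) n e → InT M (pt F K u)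
      (tn P ((c * β) • u) e - tn P e ((c * β) • u) + T (c * (β * τ β)) • tn P e e) := by
    intro c hc e he
    obtain ⟨s, hs, es⟩ := he.2.2 1 (map_one σ)
    have := (H.inT hu hc).conj_one H.h H.E.sep H.hM hUU he.1 hs (by simpa using es)
    rwa [tvK_apply, ← hβd, hφ] at this
  have hsurj : ∀ l, l + σ l = 0 → ∃ c, c + τ c = 0 ∧ T (c * (β * τ β)) = l := fun l hl => by
    obtain ⟨c, hc, hc'⟩ : ∃ c, c + τ c = 0 ∧ T (c * (β * τ β)) ≠ 0 := by
      by_contra hc
      push Not at hc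
      refine mul_ne_zero hβ (by simpa using hβ) (H.E.nd (β * τ β) fun k => ?_)
      rw [mul_comm]
      exact H.eq_top (Y := LinearMap.ker (T ∘ₗ LinearMap.mulRight F (β * τ β))) hc k
    have h1 : σ (T (c * (β * τ β))) = -T (c * (β * τ β)) := by
      rw [← H.hT, map_mul, hN, eq_neg_of_add_eq_zero_right hc, neg_mul, map_neg]
    refine ⟨(l / T (c * (β * τ β))) • c, ?_, by
      rw [smul_mul_assoc, map_smul, smul_eq_mul, div_mul_cancel₀ _ hc']⟩
    rw [tau_smul H.hτ, map_div₀, h1, eq_neg_of_add_eq_zero_right hl, neg_div_neg_eq, ← smul_add,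
      hc, smul_zero]
  have hP : ∀ e e', ZT P M (pt F K u) n e → ZT P M (pt F K u) n e' → ∀ l, l + σ l = 0 →
      InT M (pt F K u) (l • tn P e e' + l • tn P e' e) := fun e e' he he' l hl => by
    obtain ⟨c, hc, rfl⟩ := hsurj l hl
    refine (((R c hc _ (he.add he')).sub (R c hc _ he)).sub (R c hc _ he')).congr fun y => ?_
    simp only [LinearMap.add_apply, LinearMap.sub_apply, LinearMap.smul_apply, tn_apply, map_add]
    module
  set l₀ := ω - σ ω with hl₀
  have h0 : l₀ ≠ 0 := sub_ne_zero.2 hω.symm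
  have hσl : σ l₀ = -l₀ := by rw [hl₀, map_sub, P.σσ]; ring
  by_cases hc : ∀ c, c + τ c = 0 → T (c * (β * τ β)) = 0 → ZT P M (pt F K u) n (l₀⁻¹ • (c * β) • u)
  swap
  · push Not at hc
    obtain ⟨c, hc, h1, h2⟩ := hc
    obtain ⟨e₁, e₂, h3, h4, h5⟩ := h _ (Submodule.smul_mem _ l₀⁻¹ (smul_mem_pt (c * β) u))
      (by rw [LinearMap.map_smul, hφ, h1, smul_zero])
    refine ⟨e₂, h4.1, fun h6 => h2 (by simpa [h5, h6] using h3), fun l hl => ?_⟩
    set a := l / (l₀ * (ω + σ ω)) with ha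
    have hσa : σ a = a := by
      rw [ha, map_div₀, map_mul, hσl, map_add, P.σσ, eq_neg_of_add_eq_zero_right hl, neg_mul,
        neg_div_neg_eq, add_comm]
    have h6 : ((a • c) * β) • u = (a * l₀) • (e₁ + ω • e₂) := by
      rw [← h5, smul_smul, mul_inv_cancel_right₀ h0, smul_mul_assoc, smul_assoc]
    have h7 := R (a • c) (by rw [tau_smul H.hτ, hσa, ← smul_add, hc, smul_zero]) _ h4
    rw [h6, smul_mul_assoc, map_smul, h1] at h7
    refine (h7.sub (hP _ _ h3 h4 (a * l₀) (by rw [map_mul, hσa, hσl]; ring))).congr fun y => ?_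
    have h8 : l = a * (l₀ * (ω + σ ω)) := by rw [ha, div_mul_cancel₀ _ (mul_ne_zero h0 hω')]
    simp only [LinearMap.add_apply, LinearMap.sub_apply, LinearMap.smul_apply, tn_apply, map_add,
      B_smul_left, map_mul, hσa, hσl, h8]
    module
  have hfix : ∀ c c' : K, c + τ c = 0 → c' + τ c' = 0 → ∃ ν, ν ≠ 0 ∧ τ ν = ν ∧
      T (ν * c * (β * τ β)) = 0 ∧ T (ν * c' * (β * τ β)) = 0 := fun c c' h1 h2 => by
    have key : ∀ c y : K, c + τ c = 0 → T (y * (c * (β * τ β))) = 0 →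
        T (τ y * (c * (β * τ β))) = 0 := fun c y h1 h2 => by
      have := H.hT (y * (c * (β * τ β)))
      rwa [h2, map_zero, map_mul τ, map_mul τ c, hN, eq_neg_of_add_eq_zero_right h1, neg_mul, mul_neg,
        map_neg, neg_eq_zero] at this
    obtain ⟨ν, h3, h4, h5⟩ := H.exists_fixed
      (Y := ⊤ ⊓ LinearMap.ker (T ∘ₗ LinearMap.mulRight F (c * (β * τ β))) ⊓
        LinearMap.ker (T ∘ₗ LinearMap.mulRight F (c' * (β * τ β))))
      (fun y hy => ⟨⟨trivial, key c y h1 hy.1.2⟩, key c' y h2 hy.2⟩) (by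
        have h3 := finrank_inf_ker ⊤ (T ∘ₗ LinearMap.mulRight F (c * (β * τ β)))
        have h4 := finrank_inf_ker (⊤ ⊓ LinearMap.ker (T ∘ₗ LinearMap.mulRight F (c * (β * τ β))))
          (T ∘ₗ LinearMap.mulRight F (c' * (β * τ β)))
        have := H.h3
        rw [finrank_top] at h3
        omega)
    exact ⟨ν, h4, h5, mul_assoc ν c _ ▸ h3.1.2, mul_assoc ν c' _ ▸ h3.2⟩
  have hmul : ∀ ν c : K, τ ν = ν → c + τ c = 0 → ν * c + τ (ν * c) = 0 := fun ν c h1 h2 => by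
    rw [map_mul, h1, ← mul_add, h2, mul_zero]
  have hl : l₀ • (1 : K) + τ (l₀ • 1) = 0 := by rw [tau_smul H.hτ, hσl, map_one]; simp
  obtain ⟨ν₁, h1, h2, h3, -⟩ := hfix _ _ hl hl
  have h4 := hc _ (hmul _ _ h2 hl) h3
  refine ⟨_, h4.1, by simp [h0, h1, hβ, hu0], fun l hl' => ?_⟩
  obtain ⟨c, h5, rfl⟩ := hsurj l hl'
  obtain ⟨ν, h6, h7, h8, h9⟩ := hfix _ _ h5 (hmul _ _ h2 hl)
  obtain ⟨g, -, hg, eg⟩ := H.exists_dil hu hu0 (μ := ν⁻¹) (by rw [map_inv₀, h7]) (inv_ne_zero h6)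
  have eg' : ∀ x : K, res (F := F) g (l₀⁻¹ • (ν * x * β) • u) = l₀⁻¹ • (x * β) • u := fun x => by
    rw [map_smul, res_apply, map_smul, eg, smul_smul]
    congr 2; field_simp
  have h10 := (hP _ _ (hc _ (hmul _ _ h7 h5) h8) (hc _ (hmul _ _ h7 (hmul _ _ h2 hl)) h9) l₀
    (by rw [hσl]; ring)).conj_tn H.hM hg fun w hw => by
      obtain ⟨k, rfl⟩ := mem_pt.1 hw
      rw [res_apply, map_smul, eg, smul_smul]; exact smul_mem_pt _ _
  rw [eg', eg'] at h10
  refine ((R c h5 _ h4).sub h10).congr fun y => ?_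
  generalize l₀⁻¹ • (ν₁ * l₀ • (1 : K) * β) • u = e
  generalize (c * β) • u = w
  simp only [LinearMap.add_apply, LinearMap.sub_apply, LinearMap.smul_apply, tn_apply,
    B_smul_left (a := l₀⁻¹), map_inv₀, hσl]
  match_scalars <;> field_simp <;> ring

theorem UU.all_transv [Finite K] (H : UU T M P Pk) {e : V} (he : Pk.q e ∈ Pk.Λ) (he0 : e ≠ 0)
    (h : ∀ l, l + σ l = 0 → InT M (pt F K e) (l • tn P e e)) {z : Kˣ}
    (hz : ∀ a, algebraMap F K a ≠ z) (hz' : τ z * z = 1) (hzM : sc F V z ∈ M) (x : K) {l : F}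
    (hl : l + σ l = 0) : InT M (pt F K e) (l • tn P (x • e) (x • e)) := by
  obtain ⟨ω, hω, -⟩ := H.h.exists_ne
  let N : AddSubgroup (V →ₗ[F] V) :=
    { carrier := {a | ∀ l, l + σ l = 0 → InT M (pt F K e) (l • a)}
      zero_mem' := fun l _ => by simpa using inT_zero
      add_mem' := fun h h' l hl => by rw [smul_add]; exact (h l hl).add (h' l hl)
      neg_mem' := fun h l hl => by rw [smul_neg]; exact (h l hl).neg }
  have hN : ∀ a : F, σ a = a → ∀ b ∈ N, a • b ∈ N := fun a ha b hb l hl => by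
    rw [smul_smul]; exact hb _ (by rw [map_mul, ha, ← add_mul, hl, zero_mul])
  let h' : K →ₗ[F] K →ₛₗ[σ] V →ₗ[F] V := LinearMap.mk₂'ₛₗ (RingHom.id F) σ
    (fun x y => tn P (x • e) (y • e)) (fun _ _ _ => by ext; simp [tn_apply, add_smul])
    (fun _ _ _ => by ext; simp [tn_apply, smul_comm (P.B _ _)]) (fun _ _ _ => by ext; simp [tn_apply, add_smul])
    (fun _ _ _ => by ext; simp [tn_apply, mul_smul])
  have conj : ∀ g ∈ M, ∀ x y : K, (∀ k : K, g (k • e) = (x * k) • e) → h' y y ∈ N →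
      h' (x * y) (x * y) ∈ N := fun g hg x y eg hy l hl => by
    have := InT.conj_tn H.hM hg (fun w hw => by
      obtain ⟨k, rfl⟩ := mem_pt.1 hw
      rw [eg]; exact smul_mem_pt _ _) (U := pt F K e) (b := 0) (x' := 0) (y' := 0) (by simpa [h'] using hy l hl)
    simpa [eg, h'] using this
  have dil : ∀ ν y : K, τ ν = ν → h' y y ∈ N → h' (ν * y) (ν * y) ∈ N := fun ν y hν hy => by
    by_cases h0 : ν = 0
    · simp [h0]
    obtain ⟨g, -, hg, eg⟩ := H.exists_dil he he0 hν h0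
    exact conj _ hg ν y (fun k => by rw [res_apply, map_smul, eg, smul_smul, mul_comm]) hy
  have h1 : h' 1 1 ∈ N := fun l hl => by simpa [h'] using h l hl
  have h2 : ∀ ν, τ ν = ν → h' ν ν ∈ N := fun ν hν => by simpa using dil ν 1 hν h1
  have h3 : ∀ ν, τ ν = ν → h' (ν * z) (ν * z) ∈ N := fun ν hν => dil ν _ hν (by
    simpa using conj _ hzM z 1 (fun k => by rw [sc_apply, smul_smul]) h1)
  let s : K → K → V →ₗ[F] V := fun x y => σ ω • h' x y + ω • h' y x
  have hs : ∀ x y, h' (x + ω • y) (x + ω • y) = h' x x + (ω * σ ω) • h' y y + s x y := fun x y => by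
    simp only [s, map_add, LinearMap.add_apply, map_smul, LinearMap.map_smulₛₗ,
      LinearMap.smul_apply]
    module
  have hωω : σ (ω * σ ω) = ω * σ ω := by rw [map_mul, P.σσ, mul_comm]
  have dec : ∀ x : K, ∃ x₀ x₁, τ x₀ = x₀ ∧ τ x₁ = x₁ ∧ x = x₀ + ω • x₁ := fun x => by
    have h0 : ω - σ ω ≠ 0 := sub_ne_zero.2 hω.symm
    obtain ⟨c₁, c₂, h1, h2, h3⟩ := H.decomp hω ((ω - σ ω) • x)
    have key : ∀ c, c + τ c = 0 → τ ((ω - σ ω)⁻¹ • c) = (ω - σ ω)⁻¹ • c := fun c hc => by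
      rw [tau_smul H.hτ, map_inv₀, map_sub, P.σσ, eq_neg_of_add_eq_zero_right hc, ← neg_sub,
        inv_neg, neg_smul_neg]
    exact ⟨_, _, key _ h1, key _ h2, by rw [smul_comm ω, ← smul_add, ← h3, inv_smul_smul₀ h0]⟩
  have sxx : ∀ x, τ x = x → s x x ∈ N := fun x hx => by
    simp only [s, ← add_smul]
    exact hN _ (by rw [map_add, P.σσ, add_comm]) _ (h2 x hx)
  have sadd : ∀ x y w, s (x + y) w = s x w + s y w ∧ s w (x + y) = s w x + s w y := fun x y w => by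
    simp only [s, map_add, LinearMap.add_apply]
    constructor <;> module
  have ssm : ∀ a, σ a = a → ∀ x y, s (a • x) y = a • s x y ∧ s x (a • y) = a • s x y := by
    intro a ha x y
    simp only [s, map_smul, LinearMap.map_smulₛₗ, LinearMap.smul_apply, ha]
    constructor <;> module
  have hadd : ∀ {x y : K}, τ x = x → τ y = y → τ (x + y) = x + y := fun h1 h2 => by
    rw [map_add, h1, h2]
  have hmul : ∀ {x y : K}, τ x = x → τ y = y → τ (x * y) = x * y := fun h1 h2 => by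
    rw [map_mul, h1, h2]
  have sxy : ∀ x y, τ x = x → τ y = y → s x y + s y x ∈ N := fun x y hx hy => by
    have := N.sub_mem (N.sub_mem (sxx _ (hadd hx hy)) (sxx x hx)) (sxx y hy)
    convert this using 1
    simp only [sadd]; abel
  obtain ⟨z₀, z₁, hz₀, hz₁, ez⟩ := dec z
  have nreal : ∀ (a : F) (κ : K), τ κ = κ → (z : K) ≠ a • κ := fun a κ hκ h => by
    have ha : a ≠ 0 := by rintro rfl; simp at h
    refine not_quad H.hr H.h3 (l := κ) (fun b hb => hz (a * b) ?_) 0 (σ a * a)⁻¹ ?_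
    · rw [h, map_mul, hb, Algebra.smul_def]
    · rw [h, tau_smul H.hτ, hκ, smul_mul_smul_comm] at hz'
      rw [zero_smul, zero_add, ← hz', inv_smul_smul₀ (by simpa using ha)]
  have h0 : z₀ ≠ 0 := fun h0 => nreal ω z₁ hz₁ (by simp [ez, h0])
  have hm : τ (z₁ / z₀) = z₁ / z₀ := by rw [map_div₀, hz₀, hz₁]
  have h4 : ∀ x, τ x = x → s x (z₁ / z₀ * x) ∈ N := fun x hx => by
    have h4 := h3 (x / z₀) (by rw [map_div₀, hx, hz₀])
    rw [show x / z₀ * z = x + ω • (z₁ / z₀ * x) by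
      rw [ez, mul_add, mul_smul_comm]; congr 2 <;> field_simp, hs] at h4
    exact (N.add_mem_cancel_left (N.add_mem (h2 x hx) (hN _ hωω _ (h2 _ (hmul hm hx))))).1 h4
  let D : Set K := {k | τ k = k ∧ ∀ x y, τ x = x → τ y = y → s x (k * y) - s (k * x) y ∈ N}
  have h5 : ∀ k ∈ D, z₁ / z₀ * k ∈ D := fun k hk => ⟨hmul hm hk.1, fun x y hx hy => by
    have h5 : ∀ x y, τ x = x → τ y = y → s x (z₁ / z₀ * y) - s (z₁ / z₀ * x) y ∈ N := by
      intro x y hx hy
      have := N.sub_mem (N.sub_mem (N.sub_mem (h4 _ (hadd hx hy)) (h4 x hx)) (h4 y hy))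
        (sxy y _ hy (hmul hm hx))
      convert this using 1
      simp only [sadd, mul_add]; abel
    have := N.add_mem (h5 x (k * y) hx (hmul hk.1 hy)) (hk.2 _ y (hmul hm hx) hy)
    rwa [sub_add_sub_cancel, ← mul_assoc, ← mul_assoc, mul_comm k] at this⟩
  have h6 : ∀ k, τ k = k → k ∈ D := fun k hk => by
    have h6 : Submodule.span F D = ⊤ := (eq_bot_or_top_of_mul (l := z₁ / z₀) H.hr (fun a ha =>
      nreal (1 + ω * a) z₀ hz₀ (by
        rw [ez, add_smul, one_smul, mul_smul, Algebra.smul_def a, ha, div_mul_cancel₀ _ h0]))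
      fun k hk => by
        induction hk using Submodule.span_induction with
        | mem k hk => exact Submodule.subset_span (h5 k hk)
        | zero => simp
        | add a b _ _ ha hb => rw [mul_add]; exact Submodule.add_mem _ ha hb
        | smul c a _ ha => rw [mul_smul_comm]; exact Submodule.smul_mem _ c ha).resolve_left
      fun h => one_ne_zero (show (1 : K) ∈ (⊥ : Submodule F K) from
        h ▸ Submodule.subset_span ⟨map_one τ, fun x y _ _ => by simp⟩)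
    have h7 : ∀ k ∈ Submodule.span F D, ∀ a : F, a • k + τ (a • k) ∈ D := fun k hk => by
      induction hk using Submodule.span_induction with
      | mem k hk =>
        intro a
        have ha : σ (a + σ a) = a + σ a := by rw [map_add, P.σσ, add_comm]
        rw [tau_smul H.hτ, hk.1, ← add_smul]
        refine ⟨by rw [tau_smul H.hτ, ha, hk.1], fun x y hx hy => ?_⟩
        rw [smul_mul_assoc, smul_mul_assoc, (ssm _ ha _ _).1, (ssm _ ha _ _).2, ← smul_sub]
        exact hN _ ha _ (hk.2 x y hx hy)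
      | zero => exact fun a => ⟨by simp, fun x y _ _ => by simp [s]⟩
      | add a b _ _ ha hb =>
        intro c
        rw [smul_add, map_add, add_add_add_comm]
        refine ⟨hadd (ha c).1 (hb c).1, fun x y hx hy => ?_⟩
        have := N.add_mem ((ha c).2 x y hx hy) ((hb c).2 x y hx hy)
        convert this using 1
        simp only [add_mul (c • a + _), sadd]; abel
      | smul c a _ ha => exact fun b => by rw [smul_smul]; exact ha _
    obtain ⟨c, hc⟩ := exists_trace_one H.h.ne P.σσ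
    have := h7 k (h6 ▸ Submodule.mem_top) c
    rwa [tau_smul H.hτ, hk, ← add_smul, hc, one_smul] at this
  have h7 : ∀ x, τ x = x → s (x * x) 1 ∈ N := fun x hx => by
    have := N.sub_mem (sxx x hx) ((h6 x hx).2 x 1 hx (map_one τ))
    rwa [mul_one, sub_sub_cancel] at this
  have h8 : ∀ x, τ x = x → s x 1 ∈ N := fun x hx => by
    by_cases h2 : (2 : F) = 0
    · have : Fact (Nat.Prime 2) := ⟨Nat.prime_two⟩
      have : CharP K 2 := (CharP.charP_iff_prime_eq_zero Nat.prime_two).2 (by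
        rw [Nat.cast_ofNat, ← map_ofNat (algebraMap F K), h2, map_zero])
      obtain ⟨y, rfl⟩ := Finite.surjective_of_injective (frobenius K 2).injective x
      rw [frobenius_def, sq]
      exact h7 y ((frobenius K 2).injective (by
        rw [← hx]; simp only [frobenius_def, map_pow]))
    · have := hN 2⁻¹ (by rw [map_inv₀, map_ofNat]) _ (N.sub_mem (N.sub_mem
        (h7 _ (hadd hx (map_one τ))) (h7 x hx)) (h7 1 (map_one τ)))
      convert this using 1
      simp only [add_mul, mul_add, sadd, mul_one, one_mul]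
      match_scalars <;> field_simp <;> ring
  obtain ⟨x₀, x₁, h9, h10, rfl⟩ := dec x
  have : h' (x₀ + ω • x₁) (x₀ + ω • x₁) ∈ N := by
    rw [hs]
    refine N.add_mem (N.add_mem (h2 _ h9) (hN _ hωω _ (h2 _ h10))) ?_
    simpa using N.add_mem ((h6 x₁ h10).2 x₀ 1 h9 (map_one τ)) (h8 _ (hmul h10 h9))
  exact this l hl

theorem UU.EG_le [Finite K] (H : UU T M P Pk) (h2 : 2 ≤ finrank K V)
    (hz : finrank K V = 2 → ∃ z : Kˣ, (∀ a, algebraMap F K a ≠ z) ∧ τ z * z = 1 ∧ sc F V z ∈ M)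
    {g : V ≃ₗ[F] V} (hg : g ∈ M) (hg' : g ∉ NK F K V) : EG P ≤ M := by
  obtain ⟨u, W, hu0, hu, hP⟩ := H.exists_maxPair h2 hg hg'
  by_cases hB : Opp M Pk fun d => Pk.q d ∈ Pk.Λ
  swap
  · simp only [Opp, not_forall] at hB
    obtain ⟨d, W, hd0, hd, hP, w, hw, h1, h3⟩ := hB
    exact H.EG_le_of_full hd hd0 fun e he he0 =>
      H.le_Wd hd hd0 hP (fun y hy => H.perp_of_perp hd hP hw h3 h1 hy) he he0
  obtain ⟨z, h3, h4, h5⟩ := hz (by
    by_contra h
    exact H.false_of_three hB (by omega) hu hu0 hP)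
  obtain ⟨ω, hω, hω'⟩ := H.h.exists_ne
  obtain ⟨n, ⟨w, hw, h6⟩, h7⟩ := H.exists_zt hB hu hu0 hP hω
  obtain ⟨a, ha, d, hd0, hd, h8, -⟩ := hP.symm.exists_pt
  obtain ⟨e, he, he0, h9⟩ := H.exists_transv hd hd0 hω hω' (n := a n)
    ⟨a w, h8 ▸ ⟨w, hw, rfl⟩, by rwa [(H.hM ha).1]⟩ (by
      rw [← h8]
      rintro _ ⟨δ, hδ, rfl⟩ h
      obtain ⟨e₁, e₂, h9, h10, rfl⟩ := h7 δ hδ (((H.hM ha).1 _ _).symm.trans h)
      exact ⟨_, _, h9.map H.hM ha, h10.map H.hM ha, by simp⟩)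
  have he' : Pk.q e ∈ Pk.Λ := by
    obtain ⟨k, rfl⟩ := mem_pt.1 he
    exact Pk.q_smul_mem hd k
  rw [← pt_eq_of_mem he he0] at h9
  have hUU := H.good_iso (good_pt he0 he')
  have h10 : ∀ x ∈ pt F K e, InT M (pt F K e) ((ω - σ ω) • tn P x x) := fun x hx => by
    obtain ⟨k, rfl⟩ := mem_pt.1 hx
    exact H.all_transv he' he0 h9 h3 h4 h5 k (by rw [map_sub, P.σσ]; ring)
  refine H.EG_le_of_full he' he0 fun x hx _ y hy => ⟨hUU x hx y hy, fun b => ?_⟩
  have hby := Submodule.smul_mem _ b hy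
  have h11 := Submodule.smul_mem _ (-(ω - σ ω)⁻¹) hby
  refine ⟨0, H.h.valid.2 (by rw [hUU _ hby _ hby]; simp),
    (((h10 _ (Submodule.add_mem _ hx h11)).sub (h10 _ hx)).sub (h10 _ h11)).has.congr fun v => ?_⟩
  have h0 : ω - σ ω ≠ 0 := sub_ne_zero.2 hω.symm
  have h0' : σ ω - ω ≠ 0 := sub_ne_zero.2 hω
  generalize b • y = w
  simp only [H.h.eu, LinearMap.sub_apply, LinearMap.smul_apply, tn_apply, map_add,
    LinearMap.add_apply, B_smul_left, map_neg, map_inv₀, map_sub, P.σσ]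
  match_scalars <;> field_simp <;> ring

end H21
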