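import Mathlib
import Cfsg.Agent.Base
import Cfsg.Agent.Lib.ExtFld.UU3

/-!
Maximality of the normaliser of an extension field of odd prime degree in the special unitary group.
-/

set_option autoImplicit false
set_option linter.unusedSectionVars false

namespace H21

open Module Cfsg H97 H28

theorem mul_lt_pow_succ {q r : ℕ} (hq : 2 ≤ q) (hr : 3 ≤ r) (h : r = 3 → 3 ≤ q) :
    r * (q + 1) < q ^ r + 1 := by
  have step : ∀ r, 3 ≤ r → r * (q + 1) < q ^ r + 1 → (r + 1) * (q + 1) < q ^ (r + 1) + 1 := by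
    intro r hr h
    have h1 : q ^ r * 2 ≤ q ^ r * q := Nat.mul_le_mul_left _ hq
    have h2 := Nat.mul_le_mul_right (q + 1) hr
    rw [pow_succ, Nat.succ_mul]; omega
  by_cases h3 : 3 ≤ q
  · induction r, hr using Nat.le_induction with
    | base => nlinarith [Nat.mul_le_mul h3 h3]
    | succ r hr ih => exact step r hr (ih fun _ => h3)
  · obtain rfl : q = 2 := by omega
    have h4 : 4 ≤ r := by omega
    clear h hr
    induction r, h4 using Nat.le_induction with
    | base => norm_num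
    | succ r hr ih => exact step r (by omega) ih

variable {F K V : Type*} [Field F] [Field K] [Algebra F K] [AddCommGroup V] [Module F V]
  [Module K V] [IsScalarTower F K V] {σ : F →+* F} {τ : K →+* K}

theorem exists_unitary_scalar [Fintype F] [Finite K] {q : ℕ} (hF : Fintype.card F = q ^ 2)
    (hσ : ∀ a, σ a = a ^ q) (hτ : ∀ a, τ (algebraMap F K a) = algebraMap F K (σ a))
    (hττ : ∀ k, τ (τ k) = k) {ω : K} (hω : τ ω ≠ ω)
    (h : finrank F K * (q + 1) < q ^ finrank F K + 1) (h0 : 0 < finrank F K) :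
    ∃ z : Kˣ, (∀ a, algebraMap F K a ≠ z) ∧ τ z * z = 1 ∧ Algebra.norm F (z : K) = 1 := by
  by_contra hc
  push Not at hc
  have := Fintype.ofFinite K
  set r := finrank F K with hr
  let K₀ := RingHom.eqLocusField τ (RingHom.id K)
  have h1 : ∀ x : Kˣ, τ ((x ^ (r * (q + 1)) : Kˣ) : K) = (x ^ (r * (q + 1)) : Kˣ) := fun x => by
    have hx : τ x ≠ 0 := by simp
    have h1 : τ (τ x / x) * (τ x / x) = 1 := by rw [map_div₀, hττ]; field_simp
    have h2 : Algebra.norm F ((τ x / x) ^ (q + 1)) = 1 := by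
      rw [map_pow, pow_succ, ← hσ]
      refine (algebraMap F K).injective ?_
      rw [map_mul, ← hτ, FiniteField.algebraMap_norm_eq_pow, map_pow, ← mul_pow, h1, one_pow, map_one]
    obtain ⟨a, ha⟩ : ∃ a, algebraMap F K a = (τ x / x) ^ (q + 1) := by
      by_contra h3
      push Not at h3
      exact hc (Units.mk0 _ (pow_ne_zero (q + 1) (div_ne_zero hx x.ne_zero))) h3
        (by rw [Units.val_mk0, map_pow, ← mul_pow, h1, one_pow]) h2
    rw [← ha, Algebra.norm_algebraMap, ← hr] at h2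
    have h3 := congrArg (algebraMap F K) h2
    rw [map_pow, ha, ← pow_mul, div_pow, map_one, div_eq_one_iff_eq (by simp), mul_comm] at h3
    rw [Units.val_pow_eq_pow_val, map_pow, h3]
  let f : Kˣ →* Kˣ := powMonoidHom (r * (q + 1))
  have h2 : Nat.card f.ker ≤ r * (q + 1) := by
    rw [IsCyclic.card_powMonoidHom_ker]
    exact Nat.gcd_le_right _ (by positivity)
  have h3 : Nat.card f.range ≤ Nat.card K₀ˣ := Nat.card_le_card_of_injective
    (fun y : f.range => Units.mk0 (⟨(y : Kˣ), by obtain ⟨_, x, rfl⟩ := y; exact h1 x⟩ : K₀)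
      fun h => (y : Kˣ).ne_zero (congrArg Subtype.val h))
    fun y y' h => Subtype.ext (Units.ext (congrArg (fun u : K₀ˣ => ((u : K₀) : K)) h))
  have h4 : Nat.card K₀ * Nat.card K₀ ≤ q ^ r * q ^ r := by
    rw [← Nat.card_prod, ← mul_pow, ← sq, ← hF, hr, ← Module.card_eq_pow_finrank,
      ← Nat.card_eq_fintype_card]
    refine Nat.card_le_card_of_injective (fun p : K₀ × K₀ => (p.1 : K) + ω * p.2) fun p p' h => ?_
    have h5 := congrArg τ h
    simp only [map_add, map_mul, show ∀ a : K₀, τ a = a from fun a => a.2] at h h5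
    have h6 : (p.2 : K) = p'.2 :=
      mul_left_cancel₀ (sub_ne_zero.2 hω) (by linear_combination h5 - h)
    rw [h6, add_left_inj] at h
    exact Prod.ext (Subtype.ext h) (Subtype.ext h6)
  have h5 := Subgroup.card_mul_index f.ker
  rw [Subgroup.index_ker, Nat.card_units, Nat.card_eq_fintype_card (α := K),
    Module.card_eq_pow_finrank (K := F), hF, ← hr, sq, mul_pow] at h5
  rw [Nat.card_units] at h3
  have h6 := Nat.mul_le_mul h2 (h3.trans (Nat.sub_le_sub_right (Nat.mul_self_le_mul_self_iff.1 h4) 1))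
  have h7 : 1 < q ^ r * q ^ r := by
    rw [← mul_pow, ← sq, ← hF]
    exact Nat.one_lt_pow h0.ne' Fintype.one_lt_card
  rw [h5] at h6
  obtain ⟨N, hN⟩ : ∃ N, q ^ r = N + 1 := ⟨q ^ r - 1, by
    rcases Nat.eq_zero_or_pos (q ^ r) with h | h
    · simp [h] at h7
    · omega⟩
  rw [hN] at h h6 h7
  have h8 := Nat.mul_le_mul_right N (Nat.le_of_lt_succ h)
  rw [Nat.add_sub_cancel, Nat.sub_le_iff_le_add] at h6
  nlinarith

theorem isMaximalIn_UU [FiniteDimensional F V] [Fintype F] [Finite K] {q : ℕ}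
    (hF : Fintype.card F = q ^ 2) (hq : ∀ a, σ a = a ^ q) (hne : σ ≠ RingHom.id F)
    {hσ : ∀ a, σ (σ a) = a} {c : F} {hc : c + σ c = 1} {B : V →ₛₗ[σ] V →ₗ[F] F}
    {hS : ∀ x y, σ (B x y) = B y x} (hB : B.SeparatingLeft) (hr : (finrank F K).Prime)
    (h3 : 3 ≤ finrank F K) (h2 : 2 ≤ finrank K V) (h : finrank K V = 2 → finrank F K = 3 → 3 ≤ q)
    (h1 : ∀ k : K, ∃ k' : K, ∀ x y, B (k • x) y = B x (k' • y)) :
    Geo.IsMaximalIn (EG (PQ.ofHerm hσ c hc B hS)) (NK F K V ⊓ EG (PQ.ofHerm hσ c hc B hS)) := by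
  have : FiniteDimensional F K := .of_finrank_pos hr.pos
  have : FiniteDimensional K V := Module.Finite.of_restrictScalars_finite F K V
  have hn : 6 ≤ finrank F V := by
    rw [← Module.finrank_mul_finrank F K V]; exact Nat.mul_le_mul h3 h2
  set P := PQ.ofHerm hσ c hc B hS with hP
  obtain ⟨x, -, hx0, hx⟩ := isoK_herm (hσ := hσ) (hc := hc) (hS := hS) hne ⊤
    (by rw [finrank_top]; omega)
  obtain ⟨g, hg, hg'⟩ := exists_EG_not_NK (K := K) (P := P) hr.one_lt hB (by omega) hx0 hx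
  obtain ⟨τ, t1, t2, t3⟩ := exists_adjoint (P := P) hB hx0 h1
  have hT : ∀ k, Algebra.trace F K (τ k) = σ (Algebra.trace F K k) := fun k => by
    let e₁ : F ≃+* F := RingEquiv.ofRingHom σ σ (RingHom.ext hσ) (RingHom.ext hσ)
    let e₂ : K ≃+* K := RingEquiv.ofRingHom τ τ (RingHom.ext t2) (RingHom.ext t2)
    rw [Algebra.trace_eq_of_equiv_equiv e₁ e₂ (RingHom.ext fun a => (t3 a).symm) k]
    exact (hσ _).symm
  obtain ⟨b, hb⟩ := exists_form (Algebra.trace F K) nd_trace P.B t1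
  have hS' : ∀ x y, τ (b x y) = b y x := fun x y => by
    rw [form_symm nd_trace hT t2 hb x y, show P.ε = 1 from rfl, map_one, one_mul]
  have hm : Hm P := ⟨rfl, fun _ => Iff.rfl, hne⟩
  obtain ⟨ω, hω, -⟩ := hm.exists_ne
  have hω' : τ (algebraMap F K ω) ≠ algebraMap F K ω := by
    rw [t3]; exact fun h => hω ((algebraMap F K).injective h)
  have hne' : τ ≠ RingHom.id K := fun h => hω' (by rw [h]; rfl)
  obtain ⟨c', hc'⟩ := exists_trace_one hne' t2
  refine isMaximalIn_of inf_le_right (fun h => hg' (h hg).1) fun M h4 h5 ⟨g, h6, h7⟩ => ?_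
  have key : ∀ t : V ≃ₗ[K] V, (∀ x y, b (t x) (t y) = b x y) →
      Algebra.norm F (LinearMap.det (t : V →ₗ[K] V)) = 1 → res t ∈ M := fun t ht ht' =>
    h4 ⟨res_mem_NK t, (EG_herm hne hB (by omega)).ge ⟨PQ.mem_isom_ofHerm.2 fun x y =>
      (hb _ _).trans ((congrArg _ (ht x y)).trans (hb x y).symm), mem_SLV.2 (by rw [det_res, ht'])⟩⟩
  have H : UU (Algebra.trace F K) M P (PQ.ofHerm t2 c' hc' b hS') :=
    ⟨⟨nd_trace, hb, hB⟩, hm, ⟨rfl, fun _ => Iff.rfl, hne'⟩, hT, t3, hr, h3, h5.trans EG_le_isom,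
      fun d hd w e h8 h9 => by
        obtain ⟨t, ht, et⟩ := has_eu_EG hd h8 h9
        exact ⟨t, key t (EG_le_isom ht).1 (by rw [mem_SLV.1 (EG_le_SLV ht), map_one]), et⟩,
      isoK_herm hne'⟩
  refine H.EG_le h2 (fun h8 => ?_) h6 fun h => h7 ⟨h, h5 h6⟩
  have hq2 : 2 ≤ q := by
    have := Fintype.one_lt_card (α := F)
    by_contra h
    interval_cases q <;> omega
  obtain ⟨z, h9, h10, h11⟩ := exists_unitary_scalar hF hq t3 t2 hω'
    (mul_lt_pow_succ hq2 h3 (h h8)) hr.pos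
  refine ⟨z, h9, h10, key (LinearEquiv.smulOfUnit z) (fun x y => ?_) ?_⟩
  · change b ((z : K) • x) ((z : K) • y) = _
    rw [map_smul, LinearMap.map_smulₛₗ, LinearMap.smul_apply, smul_smul, mul_comm, h10, one_smul]
  · rw [show ((LinearEquiv.smulOfUnit z : V ≃ₗ[K] V) : V →ₗ[K] V) = (z : K) • LinearMap.id from rfl,
      LinearMap.det_smul, LinearMap.det_id, mul_one, map_pow, h11, one_pow]

open Matrix in
/-- The normaliser of an adjoint-closed field of odd prime degree `r < n` is maximal in `SU_n(q)`,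
unless `n = 6` and `q = 2`. -/
theorem fieldSub_UU {F : Type*} [Field F] [Fintype F] {q n r : ℕ} (hF : Fintype.card F = q ^ 2)
    (hr : r.Prime) (h3 : 3 ≤ r) (hn : r < n) (h : n = 6 → 3 ≤ q)
    {K : Subalgebra F (Matrix (Fin n) (Fin n) F)} (hK : Geo.IsFieldSubalgebra r K)
    (hac : Geo.IsAdjointClosedFor (hermForm n F q) K) :
    Geo.IsMaximalIn (GU n F q ⊓ Geo.specialLinear (Fin n) F)
      (Geo.subalgebraNormalizer K ⊓ (GU n F q ⊓ Geo.specialLinear (Fin n) F)) := by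
  have : Nonempty (Fin n) := ⟨⟨0, by omega⟩⟩
  have : H11.U.IsSq F q := ⟨hF⟩
  refine fieldSub_elim hK fun E _ _ _ _ _ hE h1 h2 e => ?_
  rw [e, SU_eq (by omega), ← pull_inf]
  have hm := Module.finrank_mul_finrank F E (Fin n → F)
  rw [hE, finrank_fintype_fun_eq_card, Fintype.card_fin] at hm
  refine isMaximalIn_pull (isMaximalIn_UU hF (fun _ => rfl) H11.U.cj_ne_id uP_nd (hE ▸ hr) (hE ▸ h3)
    ?_ (fun h4 h5 => h (by rw [← hm, h4, ← hE, h5])) fun k => ?_)
  · by_contra h4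
    have := Nat.mul_le_mul_left r (show finrank E (Fin n → F) ≤ 1 by omega)
    omega
  · obtain ⟨m, hm, h3⟩ := h2 k
    obtain ⟨m', hm', h4⟩ := hac m hm
    obtain ⟨k', h5⟩ := h1 m' hm'
    refine ⟨k', fun x y => ?_⟩
    have h6 := congrArg (H11.U.cj q) (h4 x y)
    rw [H11.U.cj_form, H11.U.cj_form] at h6
    rw [← h3, ← h5]
    exact h6

end H21
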